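import Mathlib

/-!
# Multiple transitivity from the pointwise stabilizer of a finite set

* `isMultiplyPretransitive_add`: if `G` is `|s|`-transitive and the pointwise stabilizer of `s` is
  `l`-transitive on the complement of `s`, then `G` is `(|s| + l)`-transitive.
-/

namespace Cfsg.Agent.Lib.Perm.FixingTrans

open MulAction SubMulAction

variable {G α : Type*} [Group G] [MulAction G α]

/-- Every `(|s| + l)`-tuple can be moved to a tuple extending the standard enumeration of `s`. -/
theorem exists_smul_eq_append (s : Set α) [Finite s] {l : ℕ}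
    (h1 : IsMultiplyPretransitive G α s.ncard) (x : Fin (s.ncard + l) ↪ α) :
    ∃ (g : G) (x' : Fin l ↪ ofFixingSubgroup G s), g • x = ofFixingSubgroup.append x' := by
  classical
  have Hs : Nonempty (Fin s.ncard ≃ s) := Finite.card_eq.mp (by simp [Nat.card_coe_set_eq])
  let e : Fin s.ncard ↪ α := (Classical.choice Hs).toEmbedding.trans (Function.Embedding.subtype _)
  let x0 : Fin s.ncard ↪ α := (Fin.castAddEmb l).trans x
  obtain ⟨g, hg⟩ := h1.exists_smul_eq x0 e
  have hmem : ∀ i : Fin l, g • x (Fin.natAdd s.ncard i) ∉ s := by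
    intro i hi
    -- the point is `e j` for some `j`
    obtain ⟨j, hj⟩ := (Classical.choice Hs).surjective ⟨_, hi⟩
    have h2 : (g • x0) j = e j := by rw [hg]
    have h3 : g • x (Fin.castAdd l j) = ((Classical.choice Hs) j : α) := h2
    rw [hj] at h3
    have h4 := MulAction.injective g h3
    have h5 := x.injective h4
    have h6 := congrArg Fin.val h5
    simp at h6
    omega
  let x' : Fin l ↪ ofFixingSubgroup G s :=
    ⟨fun i => ⟨g • x (Fin.natAdd s.ncard i), hmem i⟩, by
      intro i j hij
      have h1 : g • x (Fin.natAdd s.ncard i) = g • x (Fin.natAdd s.ncard j) :=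
        congrArg Subtype.val hij
      have h2 := x.injective (MulAction.injective g h1)
      have h3 := congrArg Fin.val h2
      simp at h3
      exact Fin.ext h3⟩
  refine ⟨g, x', ?_⟩
  ext i
  refine Fin.addCases (fun j => ?_) (fun j => ?_) i
  · rw [ofFixingSubgroup.append_left]
    have h2 : (g • x0) j = e j := by rw [hg]
    exact h2
  · rw [ofFixingSubgroup.append_right]
    rfl

/-- If `G` is `|s|`-transitive and the pointwise stabilizer of `s` is `l`-transitive on the complement
of `s`, then `G` is `(|s| + l)`-transitive. -/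
theorem isMultiplyPretransitive_add (s : Set α) [Finite s] {l : ℕ}
    (h1 : IsMultiplyPretransitive G α s.ncard)
    (h2 : IsMultiplyPretransitive (fixingSubgroup G s) (ofFixingSubgroup G s) l) :
    IsMultiplyPretransitive G α (s.ncard + l) := by
  classical
  refine ⟨fun x y => ?_⟩
  obtain ⟨g₁, x', hx⟩ := exists_smul_eq_append s h1 x
  obtain ⟨g₂, y', hy⟩ := exists_smul_eq_append s h1 y
  obtain ⟨h, hh⟩ := h2.exists_smul_eq x' y'
  refine ⟨g₂⁻¹ * (h : G) * g₁, ?_⟩
  rw [mul_smul, mul_smul, hx, inv_smul_eq_iff, hy]
  ext i
  refine Fin.addCases (fun j => ?_) (fun j => ?_) i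
  · rw [Function.Embedding.smul_apply, ofFixingSubgroup.append_left, ofFixingSubgroup.append_left]
    exact (mem_fixingSubgroup_iff G).mp h.2 _ (Subtype.coe_prop _)
  · rw [Function.Embedding.smul_apply, ofFixingSubgroup.append_right, ofFixingSubgroup.append_right]
    have := DFunLike.congr_fun hh j
    rw [← this]
    rfl

end Cfsg.Agent.Lib.Perm.FixingTrans
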