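import Mathlib
import Cfsg.Agent.Lib.OddOrder.HHGroup

/-!
# A Hall-Higman type lemma for large primes

`ρ : Γ →* End K V` a faithful representation, `x` of prime order `r` with `r > dim V + 1`, `Y` an
`x`-invariant `p`-subgroup of `Γ` with `p` invertible in `K`, `p ≠ r`.  Then `x` centralizes `Y`.
No condition on fixed vectors of `x`, and `p = 2` is allowed.
-/

set_option autoImplicit false

namespace Cfsg.Agent.Lib.Perm.HHLarge

open Module Cfsg.Agent.Lib.OddOrder.HHCore Cfsg.Agent.Lib.OddOrder.HHGroup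
open Cfsg.Agent.Lib.Coprime Cfsg.Agent.Lib
open scoped commutatorElement

variable {K : Type*} [Field K] {V : Type*} [AddCommGroup V] [Module K V]
variable {Γ : Type*} [Group Γ]

/-- The order of the section from a Heisenberg type representation. -/
theorem heis_num {W Y : Type*} [AddCommGroup W] [Module K W] [IsAlgClosed K] [FiniteDimensional K W]
    [Nontrivial W] [Group Y] [Fintype Y] {ρ : Y →* End K W} {C : Subgroup Y} (h : IsHeis ρ C)
    (hY : (Fintype.card Y : K) ≠ 0) : ∃ N, N ≤ finrank K W ∧ Nat.card (Y ⧸ C) = N ^ 2 := by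
  classical
  let 𝒮 : Set (Submodule K W) := {U | U ≠ ⊥ ∧ ∀ y, ∀ v ∈ U, ρ y v ∈ U}
  have h𝒮 : 𝒮.Nonempty := ⟨⊤, top_ne_bot, fun _ _ _ => Submodule.mem_top⟩
  obtain ⟨U, ⟨hUne, hUinv⟩, hmin⟩ := (wellFounded_lt (α := Submodule K W)).has_min 𝒮 h𝒮
  haveI : Nontrivial U := Submodule.nontrivial_iff_ne_bot.mpr hUne
  let ρ₁ : Y →* End K U :=
    { toFun := fun y => (ρ y).restrict (hUinv y)
      map_one' := by
        ext v
        simp
      map_mul' := by
        intro a b
        ext v
        simp }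
  have hρ₁ : ∀ y (v : U), ((ρ₁ y v : U) : W) = ρ y v := fun y v => rfl
  have h₁ : IsHeis ρ₁ C := by
    refine ⟨?_, h.comm, ?_⟩
    · intro c hc
      obtain ⟨s, hs⟩ := h.scal c hc
      refine ⟨s, ?_⟩
      ext v
      rw [hρ₁, hs]
      simp
    · intro y hy
      obtain ⟨u, hu⟩ := h.nd y hy
      refine ⟨u, fun h1 => hu ?_⟩
      obtain ⟨s, hs⟩ := h.scal _ (h.comm u y)
      obtain ⟨v, hv⟩ := exists_ne (0 : U)
      have h2 := congrArg (fun f : End K U => ((f v : U) : W)) h1
      simp only [hρ₁, hs, Module.End.one_apply, LinearMap.smul_apply] at h2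
      have h3 : (s - 1) • (v : W) = 0 := by rw [sub_smul, one_smul, h2, sub_self]
      have hv' : (v : W) ≠ 0 := fun h0 => hv (Subtype.ext h0)
      have h4 : s = 1 := sub_eq_zero.mp ((smul_eq_zero.mp h3).resolve_right hv')
      rw [hs, h4, one_smul]
  have hs₁ : IsSimpleRep ρ₁ := by
    intro T hT hT0
    let T' : Submodule K W := T.map U.subtype
    have hT'U : T' ≤ U := by
      rintro _ ⟨z, _, rfl⟩
      exact z.2
    have hT'S : T' ∈ 𝒮 := by
      refine ⟨?_, ?_⟩
      · intro h0
        apply hT0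
        rw [eq_bot_iff]
        intro z hz
        have h1 : (z : W) ∈ T' := ⟨z, hz, rfl⟩
        rw [h0, Submodule.mem_bot] at h1
        rw [Submodule.mem_bot]
        exact Subtype.ext h1
      · rintro y _ ⟨z, hz, rfl⟩
        exact ⟨ρ₁ y z, hT y z hz, rfl⟩
    have hTeq : T' = U := by
      by_contra hne
      exact hmin _ hT'S (lt_of_le_of_ne hT'U hne)
    rw [eq_top_iff]
    intro z _
    have h1 : (z : W) ∈ T' := by rw [hTeq]; exact z.2
    obtain ⟨w, hw, hwz⟩ := h1
    have : w = z := Subtype.ext hwz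
    rwa [← this]
  haveI hn : C.Normal := h.normal
  letI : Fintype (Y ⧸ C) := Fintype.ofFinite _
  have h2 := finrank_mul_self h₁ hs₁ hY (fun c => Quotient.out c) (fun c => QuotientGroup.out_eq' c)
  refine ⟨finrank K U, Submodule.finrank_le U, ?_⟩
  rw [Nat.card_eq_fintype_card, ← h2, sq]

/-- The Schur type analysis: the section has order `N ^ 2` with `N ≤ dim V`. -/
theorem exists_num [Finite Γ] [IsAlgClosed K] [FiniteDimensional K V] (ρ : Γ →* End K V) {r : ℕ}
    (x : Γ) (hx : x ^ r = 1) (Y : Subgroup Γ)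
    (hxY : ∀ y ∈ Y, x * y * x⁻¹ ∈ Y) (C : Subgroup Y) (hYK : (Nat.card Y : K) ≠ 0)
    (hσC : ∀ c ∈ C, conjAutOf Y x hxY c = c) (hcentral : ∀ c ∈ C, ∀ g : Y, c * g = g * c)
    (hcomm : ∀ u y : Y, u * y * u⁻¹ * y⁻¹ ∈ C)
    (c : Y) (hc : c ∈ C) (hρc : ρ (c : Γ) ≠ 1)
    (H7 : ∀ W₁ : Submodule K V, W₁ ≠ ⊥ → (∀ y ∈ Y, ∀ v ∈ W₁, ρ y v ∈ W₁) → (∀ v ∈ W₁, ρ x v ∈ W₁) →
      (∀ c' ∈ C, ∃ s : K, ∀ v ∈ W₁, ρ (c' : Y) v = s • v) → (∃ s : K, s ≠ 1 ∧ ∀ v ∈ W₁, ρ (c : Y) v = s • v) →
      ∀ y : Y, y ∉ C → ∃ u : Y, ∃ v ∈ W₁, ρ ((u * y * u⁻¹ * y⁻¹ : Y) : Γ) v ≠ v) :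
    ∃ N, N ≤ finrank K V ∧ Nat.card (Y ⧸ C) = N ^ 2 := by
  classical
  letI : Fintype Y := Fintype.ofFinite _
  set σ := conjAutOf Y x hxY with hσ
  -- commutation of `c` with the relevant operators
  have hcY : ∀ y ∈ Y, ρ y * ρ (c : Γ) = ρ (c : Γ) * ρ y := by
    intro y hy
    have := hcentral c hc ⟨y, hy⟩
    have h1 : (c : Γ) * y = y * c := congrArg Subtype.val this
    rw [← map_mul, ← map_mul, h1]
  have hcx : ρ x * ρ (c : Γ) = ρ (c : Γ) * ρ x := by
    have h1 : x * (c : Γ) * x⁻¹ = c := congrArg Subtype.val (hσC c hc)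
    have h2 : x * (c : Γ) = c * x := by
      calc x * (c : Γ) = x * c * x⁻¹ * x := by group
        _ = c * x := by rw [h1]
    rw [← map_mul, ← map_mul, h2]
  set E : End K V := ρ (c : Γ) - 1 with hE
  have hcard : (c : Γ) ^ Nat.card Y = 1 := by
    have := pow_card_eq_one' (x := c)
    exact congrArg Subtype.val this
  have hE2 : ∀ w, E (E w) = 0 → E w = 0 := by
    intro w hw
    have hk : ∀ n : ℕ, ((ρ (c : Γ)) ^ n) w = w + (n : K) • E w := by
      intro n
      induction n with
      | zero => simp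
      | succ n ih =>
        rw [pow_succ', Module.End.mul_apply, ih, map_add, map_smul]
        have e1 : ρ (c : Γ) w = w + E w := by simp [hE]
        have e2 : ρ (c : Γ) (E w) = E w + E (E w) := by simp [hE]
        rw [e1, e2, hw]
        push_cast
        simp only [add_zero, add_smul, one_smul]
        abel
    have h1 := hk (Nat.card Y)
    rw [← map_pow, hcard, map_one, Module.End.one_apply] at h1
    have h2 : (Nat.card Y : K) • E w = 0 := by
      have := congrArg (fun z => z - w) h1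
      simpa using this.symm
    exact (smul_eq_zero.mp h2).resolve_left hYK
  have hW₀ : LinearMap.range E ≠ ⊥ := by
    intro h0
    apply hρc
    rw [LinearMap.range_eq_bot] at h0
    exact sub_eq_zero.mp h0
  let 𝒮 : Set (Submodule K V) := {U | U ≠ ⊥ ∧ U ≤ LinearMap.range E ∧
    (∀ y ∈ Y, ∀ v ∈ U, ρ y v ∈ U) ∧ ∀ v ∈ U, ρ x v ∈ U}
  have h𝒮 : 𝒮.Nonempty := by
    refine ⟨_, hW₀, le_rfl, ?_, ?_⟩
    · rintro y hy _ ⟨w, rfl⟩
      refine ⟨ρ y w, ?_⟩
      have := congrArg (fun f : End K V => f w) (hcY y hy)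
      simp only [Module.End.mul_apply] at this
      simp only [hE, LinearMap.sub_apply, Module.End.one_apply, map_sub]
      rw [this]
    · rintro _ ⟨w, rfl⟩
      refine ⟨ρ x w, ?_⟩
      have := congrArg (fun f : End K V => f w) hcx
      simp only [Module.End.mul_apply] at this
      simp only [hE, LinearMap.sub_apply, Module.End.one_apply, map_sub]
      rw [this]
  obtain ⟨W₁, hW₁, hmin⟩ := (wellFounded_lt (α := Submodule K V)).has_min 𝒮 h𝒮
  obtain ⟨hW₁ne, hW₁E, hW₁Y, hW₁x⟩ := hW₁
  -- Schur for operators commuting with everything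
  have hschur : ∀ a : End K V, (∀ v ∈ W₁, a v ∈ W₁) → (∀ y ∈ Y, a * ρ y = ρ y * a) →
      a * ρ x = ρ x * a → ∃ s : K, ∀ v ∈ W₁, a v = s • v := by
    intro a haW hay hax
    haveI : Nontrivial W₁ := Submodule.nontrivial_iff_ne_bot.mpr hW₁ne
    let a₁ : End K W₁ := a.restrict haW
    obtain ⟨s, hs⟩ := Module.End.exists_eigenvalue a₁
    refine ⟨s, ?_⟩
    let U : Submodule K V := (Module.End.eigenspace a₁ s).map W₁.subtype
    have hUle : U ≤ W₁ := by
      rintro _ ⟨z, _, rfl⟩
      exact z.2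
    have hUmem : ∀ z ∈ U, ∃ hz : z ∈ W₁, a z = s • z := by
      rintro _ ⟨z, hz, rfl⟩
      refine ⟨z.2, ?_⟩
      have hz' : a₁ z = s • z := Module.End.mem_eigenspace_iff.mp hz
      exact congrArg Subtype.val hz'
    have hUmk : ∀ z ∈ W₁, a z = s • z → z ∈ U := by
      intro z hz haz
      exact ⟨⟨z, hz⟩, Module.End.mem_eigenspace_iff.mpr (Subtype.ext haz), rfl⟩
    have hUS : U ∈ 𝒮 := by
      refine ⟨?_, hUle.trans hW₁E, ?_, ?_⟩
      · intro h0
        apply hs
        rw [eq_bot_iff]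
        intro z hz
        have h1 : (z : V) ∈ U := ⟨z, hz, rfl⟩
        rw [h0, Submodule.mem_bot] at h1
        rw [Submodule.mem_bot]
        exact Subtype.ext h1
      · intro y hy z hz
        obtain ⟨hz1, hz2⟩ := hUmem z hz
        apply hUmk _ (hW₁Y y hy z hz1)
        have := congrArg (fun f : End K V => f z) (hay y hy)
        simp only [Module.End.mul_apply] at this
        rw [this, hz2, map_smul]
      · intro z hz
        obtain ⟨hz1, hz2⟩ := hUmem z hz
        apply hUmk _ (hW₁x z hz1)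
        have := congrArg (fun f : End K V => f z) hax
        simp only [Module.End.mul_apply] at this
        rw [this, hz2, map_smul]
    have hUeq : U = W₁ := by
      by_contra hne
      exact hmin _ hUS (lt_of_le_of_ne hUle hne)
    intro v hv
    have : v ∈ U := by rw [hUeq]; exact hv
    exact (hUmem v this).2
  -- `C` acts by scalars
  have hscal : ∀ c' ∈ C, ∃ s : K, ∀ v ∈ W₁, ρ (c' : Y) v = s • v := by
    intro c' hc'
    apply hschur
    · intro v hv
      exact hW₁Y _ (c' : Y).2 v hv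
    · intro y hy
      have := hcentral c' hc' ⟨y, hy⟩
      have h1 : (c' : Γ) * y = y * c' := congrArg Subtype.val this
      rw [← map_mul, ← map_mul, h1]
    · have h1 : x * (c' : Γ) * x⁻¹ = c' := congrArg Subtype.val (hσC c' hc')
      have h2 : x * (c' : Γ) = c' * x := by
        calc x * (c' : Γ) = x * c' * x⁻¹ * x := by group
          _ = c' * x := by rw [h1]
      rw [← map_mul, ← map_mul, h2]
  have hcs : ∃ s : K, s ≠ 1 ∧ ∀ v ∈ W₁, ρ (c : Y) v = s • v := by
    obtain ⟨s, hs⟩ := hscal c hc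
    refine ⟨s, ?_, hs⟩
    rintro rfl
    apply hW₁ne
    rw [eq_bot_iff]
    intro v hv
    rw [Submodule.mem_bot]
    obtain ⟨w, rfl⟩ := hW₁E hv
    apply hE2
    have := hs _ hv
    rw [one_smul] at this
    simp only [hE, LinearMap.sub_apply, Module.End.one_apply]
    simp only [hE, LinearMap.sub_apply, Module.End.one_apply] at this
    rw [this]
    simp
  have hnd := H7 W₁ hW₁ne hW₁Y hW₁x hscal hcs
  -- now the restriction
  let ρ₁ : Y →* End K W₁ :=
    { toFun := fun y => (ρ (y : Γ)).restrict (hW₁Y y y.2)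
      map_one' := by
        ext v
        simp
      map_mul' := by
        intro a b
        ext v
        simp }
  have hρ₁ : ∀ y (v : W₁), ((ρ₁ y v : W₁) : V) = ρ (y : Γ) v := fun y v => rfl
  haveI : Nontrivial W₁ := Submodule.nontrivial_iff_ne_bot.mpr hW₁ne
  have h₁ : IsHeis ρ₁ C := by
    refine ⟨?_, hcomm, ?_⟩
    · intro c' hc'
      obtain ⟨s, hs⟩ := hscal c' hc'
      refine ⟨s, ?_⟩
      ext v
      rw [hρ₁, hs _ v.2]
      simp
    · intro y hy
      obtain ⟨u, v, hv, hne⟩ := hnd y hy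
      refine ⟨u, ?_⟩
      intro h1
      apply hne
      have h2 := congrArg (fun f : End K W₁ => ((f ⟨v, hv⟩ : W₁) : V)) h1
      simpa [hρ₁] using h2
  have hYcard : (Fintype.card Y : K) ≠ 0 := by
    rwa [← Nat.card_eq_fintype_card]
  obtain ⟨N, hN, hcard⟩ := heis_num h₁ hYcard
  exact ⟨N, hN.trans (Submodule.finrank_le W₁), hcard⟩

/-- The abelian case: the joint eigenvectors form a long independent orbit. -/
theorem eq_bot_of_abelian [Finite Γ] [IsAlgClosed K] [FiniteDimensional K V] (ρ : Γ →* End K V)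
    (hρ : Function.Injective ρ) {r : ℕ} (hr : r.Prime) (x : Γ) (hx : x ^ r = 1) (Y : Subgroup Γ)
    (hYK : (Nat.card Y : K) ≠ 0) (hxY : ∀ y ∈ Y, x * y * x⁻¹ ∈ Y)
    (hfp : ∀ y ∈ Y, x * y * x⁻¹ = y → y = 1) (hab : ∀ a ∈ Y, ∀ b ∈ Y, a * b = b * a)
    (hlarge : finrank K V < r) : Y = ⊥ := by
  classical
  by_contra hY
  obtain ⟨y₀, hy₀, hy₀1⟩ := Y.bot_or_exists_ne_one.resolve_left hY
  have hρy₀ : ρ y₀ ≠ 1 := by
    intro h
    exact hy₀1 (hρ (h.trans (map_one ρ).symm))
  set E : End K V := ρ y₀ - 1 with hE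
  have hcY : ∀ y ∈ Y, ρ y * ρ y₀ = ρ y₀ * ρ y := by
    intro y hy
    rw [← map_mul, ← map_mul, hab y hy y₀ hy₀]
  have hcard : y₀ ^ Nat.card Y = 1 := by
    have := pow_card_eq_one' (x := (⟨y₀, hy₀⟩ : Y))
    exact congrArg Subtype.val this
  have hE2 : ∀ w, E (E w) = 0 → E w = 0 := by
    intro w hw
    have hk : ∀ n : ℕ, ((ρ y₀) ^ n) w = w + (n : K) • E w := by
      intro n
      induction n with
      | zero => simp
      | succ n ih =>
        rw [pow_succ', Module.End.mul_apply, ih, map_add, map_smul]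
        have e1 : ρ y₀ w = w + E w := by simp [hE]
        have e2 : ρ y₀ (E w) = E w + E (E w) := by simp [hE]
        rw [e1, e2, hw]
        push_cast
        simp only [add_zero, add_smul, one_smul]
        abel
    have h1 := hk (Nat.card Y)
    rw [← map_pow, hcard, map_one, Module.End.one_apply] at h1
    have h2 : (Nat.card Y : K) • E w = 0 := by
      have := congrArg (fun z => z - w) h1
      simpa using this.symm
    exact (smul_eq_zero.mp h2).resolve_left hYK
  have hW₀ : LinearMap.range E ≠ ⊥ := by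
    intro h0
    apply hρy₀
    rw [LinearMap.range_eq_bot] at h0
    exact sub_eq_zero.mp h0
  let 𝒮 : Set (Submodule K V) := {U | U ≠ ⊥ ∧ U ≤ LinearMap.range E ∧ ∀ y ∈ Y, ∀ v ∈ U, ρ y v ∈ U}
  have h𝒮 : 𝒮.Nonempty := by
    refine ⟨_, hW₀, le_rfl, ?_⟩
    rintro y hy _ ⟨w, rfl⟩
    refine ⟨ρ y w, ?_⟩
    have := congrArg (fun f : End K V => f w) (hcY y hy)
    simp only [Module.End.mul_apply] at this
    simp only [hE, LinearMap.sub_apply, Module.End.one_apply, map_sub]
    rw [this]
  obtain ⟨W₁, ⟨hW₁ne, hW₁E, hW₁Y⟩, hmin⟩ := (wellFounded_lt (α := Submodule K V)).has_min 𝒮 h𝒮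
  -- every element of `Y` is a scalar on `W₁`
  have hscal : ∀ y ∈ Y, ∃ s : K, ∀ v ∈ W₁, ρ y v = s • v := by
    intro y hy
    haveI : Nontrivial W₁ := Submodule.nontrivial_iff_ne_bot.mpr hW₁ne
    let a₁ : End K W₁ := (ρ y).restrict (hW₁Y y hy)
    obtain ⟨s, hs⟩ := Module.End.exists_eigenvalue a₁
    refine ⟨s, ?_⟩
    let U : Submodule K V := (Module.End.eigenspace a₁ s).map W₁.subtype
    have hUle : U ≤ W₁ := by
      rintro _ ⟨z, _, rfl⟩
      exact z.2
    have hUmem : ∀ z ∈ U, ∃ hz : z ∈ W₁, ρ y z = s • z := by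
      rintro _ ⟨z, hz, rfl⟩
      refine ⟨z.2, ?_⟩
      have hz' : a₁ z = s • z := Module.End.mem_eigenspace_iff.mp hz
      exact congrArg Subtype.val hz'
    have hUmk : ∀ z ∈ W₁, ρ y z = s • z → z ∈ U := by
      intro z hz haz
      exact ⟨⟨z, hz⟩, Module.End.mem_eigenspace_iff.mpr (Subtype.ext haz), rfl⟩
    have hUS : U ∈ 𝒮 := by
      refine ⟨?_, hUle.trans hW₁E, ?_⟩
      · intro h0
        apply hs
        rw [eq_bot_iff]
        intro z hz
        have h1 : (z : V) ∈ U := ⟨z, hz, rfl⟩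
        rw [h0, Submodule.mem_bot] at h1
        rw [Submodule.mem_bot]
        exact Subtype.ext h1
      · intro u hu z hz
        obtain ⟨hz1, hz2⟩ := hUmem z hz
        apply hUmk _ (hW₁Y u hu z hz1)
        rw [← Module.End.mul_apply, ← map_mul, hab y hy u hu, map_mul, Module.End.mul_apply, hz2, map_smul]
    have hUeq : U = W₁ := by
      by_contra hne
      exact hmin _ hUS (lt_of_le_of_ne hUle hne)
    intro v hv
    have : v ∈ U := by rw [hUeq]; exact hv
    exact (hUmem v this).2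
  choose! sc hsc using hscal
  obtain ⟨v₀, hv₀, hv₀0⟩ := Submodule.exists_mem_ne_zero_of_ne_bot hW₁ne
  have hsc_unique : ∀ y ∈ Y, ∀ s : K, ρ y v₀ = s • v₀ → sc y = s := by
    intro y hy s hs
    have h1 := hsc y hy v₀ hv₀
    rw [hs] at h1
    have h2 : (s - sc y) • v₀ = 0 := by rw [sub_smul, h1, sub_self]
    exact (sub_eq_zero.mp ((smul_eq_zero.mp h2).resolve_right hv₀0)).symm
  -- the weight
  let lam : Y →* K :=
    { toFun := fun y => sc y
      map_one' := by
        apply hsc_unique 1 (one_mem Y)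
        simp
      map_mul' := by
        intro a b
        apply hsc_unique _ (mul_mem a.2 b.2)
        simp only [Subgroup.coe_mul, map_mul, Module.End.mul_apply]
        rw [hsc b b.2 v₀ hv₀, map_smul, hsc a a.2 v₀ hv₀, smul_smul, mul_comm] }
  have hlam : ∀ y : Y, ρ (y : Γ) v₀ = lam y • v₀ := fun y => hsc y y.2 v₀ hv₀
  have hlamy₀ : lam ⟨y₀, hy₀⟩ ≠ 1 := by
    intro h1
    have h2 : ∀ v ∈ W₁, E v = 0 := by
      intro v hv
      have h3 := hsc y₀ hy₀ v hv
      have h4 : sc y₀ = 1 := h1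
      simp only [hE, LinearMap.sub_apply, Module.End.one_apply, h3, h4, one_smul, sub_self]
    obtain ⟨w, hw⟩ := hW₁E hv₀
    apply hv₀0
    rw [← hw]
    apply hE2
    rw [hw]
    exact h2 v₀ hv₀
  -- conjugation by `x⁻¹`
  have hxinv : x⁻¹ = x ^ (r - 1) := by
    have h1 : x ^ (r - 1) * x = 1 := by
      rw [← pow_succ, Nat.sub_add_cancel hr.one_lt.le, hx]
    exact inv_eq_of_mul_eq_one_left h1
  have hxpow : ∀ (n : ℕ), ∀ y ∈ Y, x ^ n * y * (x ^ n)⁻¹ ∈ Y := by
    intro n
    induction n with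
    | zero => intro y hy; simpa using hy
    | succ n ih =>
      intro y hy
      have h1 := hxY _ (ih y hy)
      have e : x ^ (n + 1) * y * (x ^ (n + 1))⁻¹ = x * (x ^ n * y * (x ^ n)⁻¹) * x⁻¹ := by
        rw [pow_succ']
        group
      rw [e]
      exact h1
  have hxinvY : ∀ (n : ℕ), ∀ y ∈ Y, (x ^ n)⁻¹ * y * x ^ n ∈ Y := by
    intro n y hy
    have h1 := hxpow (n * (r - 1)) y hy
    have e : x ^ (n * (r - 1)) = (x ^ n)⁻¹ := by
      rw [mul_comm, pow_mul, ← hxinv, inv_pow]
    rw [e, inv_inv] at h1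
    exact h1
  -- the twisted weights
  let τ : ℕ → Y →* Y := fun n =>
    { toFun := fun y => ⟨(x ^ n)⁻¹ * y * x ^ n, hxinvY n y y.2⟩
      map_one' := by
        apply Subtype.ext
        simp
      map_mul' := by
        intro a b
        apply Subtype.ext
        simp only [Subgroup.coe_mul]
        group }
  have hτ : ∀ (n : ℕ) (y : Y), ((τ n y : Y) : Γ) = (x ^ n)⁻¹ * y * x ^ n := fun _ _ => rfl
  have hτadd : ∀ (m n : ℕ) (y : Y), τ n (τ m y) = τ (m + n) y := by
    intro m n y
    apply Subtype.ext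
    rw [hτ, hτ, hτ, pow_add]
    group
  let lams : Fin r → (Y →* K) := fun i => lam.comp (τ i)
  let vs : Fin r → V := fun i => ρ (x ^ (i : ℕ)) v₀
  have hvs : ∀ (i : Fin r) (y : Y), ρ (y : Γ) (vs i) = lams i y • vs i := by
    intro i y
    show ρ (y : Γ) (ρ (x ^ (i : ℕ)) v₀) = lam (τ i y) • ρ (x ^ (i : ℕ)) v₀
    rw [← map_smul, ← hlam, ← Module.End.mul_apply, ← Module.End.mul_apply, ← map_mul, ← map_mul, hτ]
    congr 2
    group
  have hvs0 : ∀ i : Fin r, vs i ≠ 0 := by
    intro i h0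
    apply hv₀0
    have h1 : ρ (x ^ (i : ℕ))⁻¹ (ρ (x ^ (i : ℕ)) v₀) = v₀ := by
      rw [← Module.End.mul_apply, ← map_mul, inv_mul_cancel, map_one]
      rfl
    rw [← h1]
    show ρ (x ^ (i : ℕ))⁻¹ (vs i) = 0
    rw [h0, map_zero]
  -- the weights are distinct
  have hτr : ∀ y : Y, τ r y = y := by
    intro y
    apply Subtype.ext
    rw [hτ, hx]
    simp
  have hτ1fix : ∀ y : Y, τ 1 y = y → y = 1 := by
    intro y hy
    have h1 : (x ^ 1)⁻¹ * (y : Γ) * x ^ 1 = y := congrArg Subtype.val hy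
    rw [pow_one] at h1
    have h2 : x * (y : Γ) * x⁻¹ = y := by
      calc x * (y : Γ) * x⁻¹ = x * (x⁻¹ * y * x) * x⁻¹ := by rw [h1]
        _ = y := by group
    exact Subtype.ext (hfp y y.2 h2)
  have hlamτ1 : ¬ ∀ y : Y, lam (τ 1 y) = lam y := by
    intro h
    let d : Y → Y := fun y => τ 1 y * y⁻¹
    have hd : Function.Injective d := by
      intro a b hab'
      have h1 : τ 1 (a * b⁻¹) = a * b⁻¹ := by
        have habc : ∀ u v : Y, u * v = v * u := fun u v => Subtype.ext (hab u u.2 v v.2)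
        have h2 : τ 1 a * a⁻¹ = τ 1 b * b⁻¹ := hab'
        rw [map_mul, map_inv]
        calc τ 1 a * (τ 1 b)⁻¹ = τ 1 a * a⁻¹ * a * (τ 1 b)⁻¹ := by group
          _ = τ 1 b * b⁻¹ * a * (τ 1 b)⁻¹ := by rw [h2]
          _ = a * b⁻¹ * (τ 1 b * (τ 1 b)⁻¹) := by
            rw [habc (τ 1 b * b⁻¹) a, mul_assoc, habc (τ 1 b * b⁻¹) _]
            group
          _ = a * b⁻¹ := by group
      have h3 := hτ1fix _ h1
      exact mul_inv_eq_one.mp h3
    have hds : Function.Surjective d := Finite.surjective_of_injective hd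
    obtain ⟨y, hy⟩ := hds ⟨y₀, hy₀⟩
    apply hlamy₀
    rw [← hy]
    show lam (τ 1 y * y⁻¹) = 1
    rw [map_mul, map_inv, h y]
    exact mul_inv_cancel₀ (by
      intro h0
      have h1 : lam y * lam y⁻¹ = lam (y * y⁻¹) := (map_mul lam y y⁻¹).symm
      rw [h0, zero_mul, mul_inv_cancel, map_one] at h1
      exact zero_ne_one h1)
  have hlams : Function.Injective lams := by
    intro i j hij
    by_contra hne
    wlog hlt : (i : ℕ) < j generalizing i j
    · exact this hij.symm (fun h => hne h.symm) (by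
        have : (i : ℕ) ≠ j := fun h => hne (Fin.ext h)
        omega)
    set k : ℕ := (j : ℕ) - i with hk
    have hk0 : 0 < k := by omega
    have hkr : k < r := by have := j.2; omega
    have h1 : ∀ y : Y, lam (τ k y) = lam y := by
      intro y
      -- apply the equality at the conjugate of `y`
      have h2 := DFunLike.congr_fun hij (τ (r - (i : ℕ)) y)
      show lam (τ k y) = lam y
      have hi : (i : ℕ) ≤ r := i.2.le
      have e1 : τ (i : ℕ) (τ (r - (i : ℕ)) y) = y := by
        rw [hτadd, Nat.sub_add_cancel hi, hτr]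
      have e2 : τ (j : ℕ) (τ (r - (i : ℕ)) y) = τ k y := by
        rw [hτadd]
        have e3 : r - (i : ℕ) + j = r + k := by omega
        rw [e3, ← hτadd, hτr]
      change lam (τ (i : ℕ) (τ (r - (i : ℕ)) y)) = lam (τ (j : ℕ) (τ (r - (i : ℕ)) y)) at h2
      rw [e1, e2] at h2
      exact h2.symm
    have h2 : ∀ (m : ℕ) (y : Y), lam (τ (m * k) y) = lam y := by
      intro m
      induction m with
      | zero =>
        intro y
        have : τ (0 * k) y = y := by
          apply Subtype.ext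
          rw [hτ]
          simp
        rw [this]
      | succ m ih =>
        intro y
        have : τ ((m + 1) * k) y = τ k (τ (m * k) y) := by
          rw [hτadd]
          congr 2
          ring
        rw [this, h1, ih]
    apply hlamτ1
    intro y
    -- `k` is invertible modulo `r`
    have hcop : Nat.Coprime k r := by
      exact Nat.Coprime.symm ((Nat.Prime.coprime_iff_not_dvd hr).2 (Nat.not_dvd_of_pos_of_lt hk0 hkr))
    obtain ⟨a, ha⟩ := Nat.exists_mul_mod_eq_one_of_coprime hcop hr.one_lt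
    have h3 : ∀ (q : ℕ) (y : Y), τ (q * r + 1) y = τ 1 y := by
      intro q
      induction q with
      | zero => intro y; simp
      | succ q ih =>
        intro y
        have e : (q + 1) * r + 1 = (q * r + 1) + r := by ring
        rw [e, ← hτadd, hτr, ih]
    have e4 : k * a = (k * a / r) * r + 1 := by
      have := Nat.div_add_mod (k * a) r
      rw [ha.2] at this
      rw [mul_comm (k * a / r) r]
      exact this.symm
    have e5 := h2 a y
    rw [mul_comm a k, e4, h3] at e5
    exact e5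
  have hind : LinearIndependent K vs := by
    rw [Fintype.linearIndependent_iff]
    intro a ha i
    have hdedekind : LinearIndependent K (fun i : Fin r => ((lams i : Y →* K) : Y → K)) :=
      (linearIndependent_monoidHom Y K).comp lams hlams
    rw [Fintype.linearIndependent_iff] at hdedekind
    by_contra hai
    obtain ⟨f, hf⟩ : ∃ f : Dual K V, f (vs i) ≠ 0 := by
      by_contra hcon
      push Not at hcon
      exact hvs0 i ((Module.forall_dual_apply_eq_zero_iff K (vs i)).mp hcon)
    have h1 := hdedekind (fun j => a j * f (vs j)) (by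
      funext y
      have h2 := congrArg (fun w => f (ρ (y : Γ) w)) ha
      simp only [map_sum, map_smul, map_zero, hvs, smul_eq_mul] at h2
      simp only [Finset.sum_apply, Pi.smul_apply, smul_eq_mul, Pi.zero_apply]
      rw [← h2]
      refine Finset.sum_congr rfl fun j _ => ?_
      ring) i
    exact (mul_ne_zero hai hf) h1
  have hle := hind.fintype_card_le_finrank
  rw [Fintype.card_fin] at hle
  omega

/-- **The Hall-Higman type lemma for large primes.** -/
theorem centralizes_of_large [Finite Γ] [IsAlgClosed K] [FiniteDimensional K V] (ρ : Γ →* End K V)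
    (hρ : Function.Injective ρ) {p r : ℕ} [hp : Fact p.Prime] (hr : r.Prime) (hpr : p ≠ r)
    (hpK : (p : K) ≠ 0) (x : Γ) (hx : x ^ r = 1) (hlarge : finrank K V + 1 < r)
    (Y : Subgroup Γ) (hYp : IsPGroup p Y) (hxY : ∀ y ∈ Y, x * y * x⁻¹ ∈ Y) :
    ∀ y ∈ Y, x * y * x⁻¹ = y := by
  classical
  induction Y using WellFoundedLT.induction with
  | _ Y IH =>
  by_contra hcon
  push Not at hcon
  obtain ⟨y₀, hy₀, hy₀ne⟩ := hcon
  letI : Fintype Y := Fintype.ofFinite _
  set σ : MulAut Y := conjAutOf Y x hxY with hσ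
  have hσr : σ ^ r = 1 := conjAutOf_pow_eq_one Y x hxY hx
  have hσapp : ∀ y : Y, ((σ y : Y) : Γ) = x * y * x⁻¹ := fun y => rfl
  have hxr1 : x⁻¹ = x ^ (r - 1) := by
    have h1 : x ^ (r - 1) * x = 1 := by
      rw [← pow_succ, Nat.sub_add_cancel hr.one_lt.le, hx]
    exact inv_eq_of_mul_eq_one_left h1
  -- proper invariant subgroups are fixed
  have hIH : ∀ Z : Subgroup Y, Z ≠ ⊤ → (∀ z ∈ Z, σ z ∈ Z) → ∀ z ∈ Z, σ z = z := by
    intro Z hZ hZσ z hz
    have hlt : Z.map Y.subtype < Y := by
      refine lt_of_le_of_ne (by rintro _ ⟨a, -, rfl⟩; exact a.2) ?_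
      intro h
      apply hZ
      rw [eq_top_iff]
      intro a _
      have : (a : Γ) ∈ Z.map Y.subtype := by rw [h]; exact a.2
      obtain ⟨b, hb, hba⟩ := this
      have : b = a := Subtype.ext hba
      rwa [← this]
    have hp' : IsPGroup p (Z.map Y.subtype) := by
      refine IsPGroup.of_injective (ϕ := ((Z.map Y.subtype).inclusion hlt.le)) hYp ?_
      exact Subgroup.inclusion_injective _
    have hinv : ∀ a ∈ Z.map Y.subtype, x * a * x⁻¹ ∈ Z.map Y.subtype := by
      rintro _ ⟨a, ha, rfl⟩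
      exact ⟨σ a, hZσ a ha, rfl⟩
    have := IH _ hlt hp' hinv (z : Γ) ⟨z, hz, rfl⟩
    exact Subtype.ext this
  have hcardσ : (Nat.card (Subgroup.zpowers σ)).Coprime p := by
    rw [Nat.card_zpowers]
    have h1 : orderOf σ ∣ r := orderOf_dvd_of_pow_eq_one hσr
    exact Nat.Coprime.coprime_dvd_left h1 ((Nat.coprime_primes hr hp.out).mpr hpr.symm)
  let act : Subgroup.zpowers σ →* MulAut Y := (Subgroup.zpowers σ).subtype
  have hactapp : ∀ (b : Subgroup.zpowers σ) (g : Y), act b g = (b : MulAut Y) g := fun _ _ => rfl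
  have hbσ : (⟨σ, Subgroup.mem_zpowers σ⟩ : Subgroup.zpowers σ) ∈ (⊤ : Subgroup (Subgroup.zpowers σ)) :=
    Subgroup.mem_top _
  -- `[Y, x] = Y`
  have hgen : AutAction.commClosure act = ⊤ := by
    by_contra hne
    have hinv : ∀ z ∈ AutAction.commClosure act, σ z ∈ AutAction.commClosure act := by
      intro z hz
      induction hz using Subgroup.closure_induction with
      | mem w hw =>
        obtain ⟨g, b, rfl⟩ := hw
        apply Subgroup.subset_closure
        refine ⟨σ g, b, ?_⟩
        obtain ⟨b, k, rfl⟩ := b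
        have hcomm : σ ((σ ^ k) g) = (σ ^ k) (σ g) := by
          rw [← MulAut.mul_apply, ← MulAut.mul_apply, ← zpow_one_add, ← zpow_add_one, add_comm]
        simp only [map_mul, map_inv, hactapp]
        congr 1
      | one => simp
      | mul a b _ _ ha hb => rw [map_mul]; exact mul_mem ha hb
      | inv a _ ha => rw [map_inv]; exact inv_mem ha
    apply hy₀ne
    have hfixed := hIH _ hne hinv
    have h1 : ∀ g : Y, σ (g⁻¹ * σ g) = g⁻¹ * σ g := fun g =>
      hfixed _ (Subgroup.subset_closure ⟨g, ⟨σ, Subgroup.mem_zpowers σ⟩, rfl⟩)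
    have h2 := AutAction.fixed_of_diff_fixed hYp act ⟨σ, Subgroup.mem_zpowers σ⟩ (by
      rw [Subgroup.orderOf_mk]
      rw [Nat.card_zpowers] at hcardσ
      exact hcardσ) ⟨y₀, hy₀⟩ (h1 _)
    exact congrArg Subtype.val h2
  -- the fixed subgroup
  let C : Subgroup Y :=
    { carrier := {c | σ c = c}
      one_mem' := map_one σ
      mul_mem' := by
        intro a b ha hb
        show σ (a * b) = a * b
        rw [map_mul, show σ a = a from ha, show σ b = b from hb]
      inv_mem' := by
        intro a ha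
        show σ a⁻¹ = a⁻¹
        rw [map_inv, show σ a = a from ha] }
  have hCmem : ∀ c, c ∈ C ↔ σ c = c := fun _ => Iff.rfl
  have hCfix : ∀ c ∈ C, ∀ b : Subgroup.zpowers σ, act b c = c := by
    rintro c hc ⟨_, k, rfl⟩
    show (σ ^ k) c = c
    have hmem : (σ ^ k) c = c := by
      have h1 : ∀ n : ℕ, (σ ^ n) c = c := by
        intro n
        induction n with
        | zero => rfl
        | succ n ih =>
          rw [pow_succ', MulAut.mul_apply, ih]
          exact hc
      have h2 : ∀ n : ℕ, (σ ^ (-(n : ℤ))) c = c := by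
        intro n
        rw [zpow_neg, zpow_natCast]
        calc (σ ^ n)⁻¹ c = (σ ^ n)⁻¹ ((σ ^ n) c) := by rw [h1 n]
          _ = c := by rw [← MulAut.mul_apply, inv_mul_cancel]; rfl
      obtain ⟨n, rfl | rfl⟩ := Int.eq_nat_or_neg k
      · rw [zpow_natCast]; exact h1 n
      · exact h2 n
    exact hmem
  have hcommproper : commutator Y ≠ ⊤ := by
    intro h
    haveI : Nontrivial Y := ⟨⟨y₀, hy₀⟩, 1, fun h1 => by
      have h2 : y₀ = 1 := congrArg Subtype.val h1
      subst h2
      simp at hy₀ne⟩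
    have hnil : Group.IsNilpotent Y := hYp.isNilpotent
    have := Three.commutator_ne_of_isNilpotent (T := ⊤) (U := ⊤)
      (hYp.to_subgroup ⊤).isNilpotent le_rfl top_ne_bot
    exact this (by rw [commutator_def] at h; exact h)
  have hcomminv : ∀ z ∈ commutator Y, σ z ∈ commutator Y := by
    intro z hz
    have h1 : (commutator Y).map σ.toMonoidHom ≤ commutator Y := by
      rw [commutator_def, Subgroup.map_commutator]
      apply Subgroup.commutator_mono <;> exact le_top
    exact h1 ⟨z, hz, rfl⟩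
  have hcommfix := hIH _ hcommproper hcomminv
  have hcomm : ∀ u y : Y, u * y * u⁻¹ * y⁻¹ ∈ C := by
    intro u y
    refine hcommfix _ ?_
    exact Subgroup.commutator_mem_commutator (Subgroup.mem_top u) (Subgroup.mem_top y)
  have hcentral : ∀ c ∈ C, ∀ g : Y, c * g = g * c := by
    intro c hc g
    have hz : c ∈ Subgroup.center Y := by
      refine AutAction.mem_center_of_fixed act hgen (hCfix c hc) ?_
      intro g' b
      apply hCfix
      exact hcomm g' c
    exact ((Subgroup.mem_center_iff.mp hz) g).symm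
  have hfpf : ∀ y : Y, σ y * y⁻¹ ∈ C → y ∈ C := by
    intro y hy
    have h1 : y⁻¹ * σ y = σ y * y⁻¹ := by
      have := hcentral _ hy y⁻¹
      calc y⁻¹ * σ y = y⁻¹ * (σ y * y⁻¹) * y := by group
        _ = (σ y * y⁻¹) * y⁻¹ * y := by rw [← this]
        _ = σ y * y⁻¹ := by group
    have h2 := AutAction.fixed_of_diff_fixed hYp act ⟨σ, Subgroup.mem_zpowers σ⟩ (by
      rw [Subgroup.orderOf_mk]
      rw [Nat.card_zpowers] at hcardσ
      exact hcardσ) y (by
        show σ (y⁻¹ * σ y) = y⁻¹ * σ y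
        rw [h1]
        exact hy)
    exact h2
  have hCtop : C ≠ ⊤ := by
    intro h
    apply hy₀ne
    have h1 : (⟨y₀, hy₀⟩ : Y) ∈ C := by rw [h]; exact Subgroup.mem_top _
    exact congrArg Subtype.val h1
  have hYKcard : (Nat.card Y : K) ≠ 0 := by
    obtain ⟨n, hn⟩ := IsPGroup.iff_card.mp hYp
    rw [hn]
    push_cast
    exact pow_ne_zero _ hpK
  by_cases hCbot : C = ⊥
  · -- abelian case
    have : Y = ⊥ := by
      refine eq_bot_of_abelian ρ hρ hr x hx Y hYKcard hxY ?_ ?_ (by omega)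
      · intro y hy hfy
        have h1 : (⟨y, hy⟩ : Y) ∈ C := Subtype.ext hfy
        rw [hCbot, Subgroup.mem_bot] at h1
        exact congrArg Subtype.val h1
      · intro a ha b hb
        have h1 := hcomm ⟨a, ha⟩ ⟨b, hb⟩
        rw [hCbot, Subgroup.mem_bot] at h1
        have h2 : a * b * a⁻¹ * b⁻¹ = 1 := congrArg Subtype.val h1
        calc a * b = (a * b * a⁻¹ * b⁻¹) * (b * a) := by group
          _ = b * a := by rw [h2, one_mul]
    subst this
    apply hy₀ne
    rw [Subgroup.mem_bot.mp hy₀]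
    simp
  obtain ⟨c, hc, hc1⟩ := C.bot_or_exists_ne_one.resolve_left hCbot
  have hρc : ρ (c : Γ) ≠ 1 := by
    intro h
    apply hc1
    apply Subtype.ext
    apply hρ
    rw [h, Subgroup.coe_one, map_one]
  have hpow : ∀ (n : ℕ), ∀ v, (ρ x ^ n) v = ρ (x ^ n) v := by
    intro n v
    rw [map_pow]
  have key : ∃ N, N ≤ finrank K V ∧ Nat.card (Y ⧸ C) = N ^ 2 := by
    refine exists_num ρ x hx Y hxY C hYKcard (fun c hc => hc) hcentral hcomm c hc hρc ?_
    intro W₁ hW₁ne hW₁Y hW₁x hscal hcs y hy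
    have hW₁xi : ∀ v ∈ W₁, ρ x⁻¹ v ∈ W₁ := by
      intro v hv
      rw [hxr1, map_pow]
      have : ∀ n : ℕ, ∀ v ∈ W₁, (ρ x ^ n) v ∈ W₁ := by
        intro n
        induction n with
        | zero => intro v hv; simpa using hv
        | succ n ih =>
          intro v hv
          rw [pow_succ', Module.End.mul_apply]
          exact hW₁x _ (ih v hv)
      exact this _ v hv
    -- conjugation by `x⁻¹`
    have hxiY : ∀ u ∈ Y, x⁻¹ * u * x ∈ Y := by
      intro u hu
      have h1 : ((σ ^ (r - 1)) ⟨u, hu⟩ : Y).1 ∈ Y := ((σ ^ (r - 1)) ⟨u, hu⟩).2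
      rw [conjAutOf_pow_coe, ← hxr1, inv_inv] at h1
      exact h1
    let R : Subgroup Y :=
      { carrier := {z | ∀ u : Y, ∀ v ∈ W₁, ρ (u : Γ) (ρ (z : Γ) v) = ρ (z : Γ) (ρ (u : Γ) v)}
        one_mem' := by
          intro u v _
          simp
        mul_mem' := by
          intro a b ha hb u v hv
          simp only [Subgroup.coe_mul, map_mul, Module.End.mul_apply]
          rw [ha u _ (hW₁Y _ b.2 v hv), hb u v hv]
        inv_mem' := by
          intro a ha u v hv
          have h1 := ha u _ (hW₁Y _ (inv_mem a.2) v hv)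
          have e : ρ (a : Γ) (ρ (a : Γ)⁻¹ v) = v := by
            rw [← Module.End.mul_apply, ← map_mul, mul_inv_cancel, map_one]
            rfl
          have e' : ∀ w, ρ (a : Γ)⁻¹ (ρ (a : Γ) w) = w := by
            intro w
            rw [← Module.End.mul_apply, ← map_mul, inv_mul_cancel, map_one]
            rfl
          simp only [Subgroup.coe_inv]
          rw [e] at h1
          rw [h1, e'] }
    have hRmem : ∀ z, z ∈ R ↔ ∀ u : Y, ∀ v ∈ W₁, ρ (u : Γ) (ρ (z : Γ) v) = ρ (z : Γ) (ρ (u : Γ) v) :=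
      fun _ => Iff.rfl
    have hRinv : ∀ z ∈ R, σ z ∈ R := by
      intro z hz u v hv
      have hu' := hz ⟨x⁻¹ * u * x, hxiY u u.2⟩ _ (hW₁xi v hv)
      simp only at hu'
      have e : ∀ w, ρ x (ρ x⁻¹ w) = w := by
        intro w
        rw [← Module.End.mul_apply, ← map_mul, mul_inv_cancel, map_one]
        rfl
      rw [hσapp]
      simp only [map_mul, Module.End.mul_apply] at hu' ⊢
      rw [e] at hu'
      have h1 := congrArg (ρ x) hu'
      rw [e] at h1
      exact h1
    by_cases hRtop : R = ⊤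
    · exfalso
      obtain ⟨s, hs1, hs⟩ := hcs
      have hcomm' : c ∈ commutator Y :=
        AutAction.mem_commutator_of_fixed hYp act hcardσ hgen (hCfix c hc)
      -- elements acting trivially
      let T : Subgroup Y :=
        { carrier := {z | ∀ v ∈ W₁, ρ (z : Γ) v = v}
          one_mem' := by intro v _; simp
          mul_mem' := by
            intro a b ha hb v hv
            simp only [Subgroup.coe_mul, map_mul, Module.End.mul_apply]
            rw [hb v hv, ha v hv]
          inv_mem' := by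
            intro a ha v hv
            have h1 := ha _ (hW₁Y _ (inv_mem a.2) v hv)
            have e : ρ (a : Γ) (ρ (a : Γ)⁻¹ v) = v := by
              rw [← Module.End.mul_apply, ← map_mul, mul_inv_cancel, map_one]
              rfl
            rw [e] at h1
            simp only [Subgroup.coe_inv]
            exact h1.symm }
      have hTcomm : commutator Y ≤ T := by
        rw [commutator_def, Subgroup.commutator_le]
        intro u _ z _ v hv
        have hzR : z ∈ R := by rw [hRtop]; exact Subgroup.mem_top z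
        have hi : ∀ (a : Γ) (w : V), ρ a (ρ a⁻¹ w) = w := by
          intro a w
          rw [← Module.End.mul_apply, ← map_mul, mul_inv_cancel, map_one]
          rfl
        have hw : ρ (z : Γ)⁻¹ v ∈ W₁ := hW₁Y _ (inv_mem z.2) v hv
        have h1 := (hRmem z).mp hzR u⁻¹ _ hw
        simp only [Subgroup.coe_inv] at h1
        rw [hi] at h1
        show ρ ((u : Γ) * z * (u : Γ)⁻¹ * (z : Γ)⁻¹) v = v
        simp only [map_mul, Module.End.mul_apply]
        rw [← h1, hi]
      have hcT := hTcomm hcomm'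
      obtain ⟨v, hv, hv0⟩ := Submodule.exists_mem_ne_zero_of_ne_bot hW₁ne
      have h1 := hcT v hv
      rw [hs v hv] at h1
      have h2 : (s - 1) • v = 0 := by rw [sub_smul, one_smul, h1, sub_self]
      rcases smul_eq_zero.mp h2 with h3 | h3
      · exact hs1 (sub_eq_zero.mp h3)
      · exact hv0 h3
    · -- `R` is fixed
      have hRC : ∀ z ∈ R, z ∈ C := hIH R hRtop hRinv
      have hyR : y ∉ R := fun h => hy (hRC y h)
      rw [hRmem] at hyR
      push Not at hyR
      obtain ⟨u, v, hv, hne⟩ := hyR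
      refine ⟨u, ρ (y : Γ) (ρ (u : Γ) v), hW₁Y _ y.2 _ (hW₁Y _ u.2 _ hv), ?_⟩
      intro h
      apply hne
      simp only [Subgroup.coe_mul, Subgroup.coe_inv, map_mul, Module.End.mul_apply] at h
      have e1 : ρ (y : Γ)⁻¹ (ρ (y : Γ) (ρ (u : Γ) v)) = ρ (u : Γ) v := by
        rw [← Module.End.mul_apply, ← map_mul, inv_mul_cancel, map_one]
        rfl
      have e2 : ρ (u : Γ)⁻¹ (ρ (u : Γ) v) = v := by
        rw [← Module.End.mul_apply, ← map_mul, inv_mul_cancel, map_one]
        rfl
      rw [e1, e2] at h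
      exact h
  obtain ⟨N, hNle, hN⟩ := key
  -- `σ` acts on `Y / C` with the only fixed point `1`
  haveI hCn : C.Normal := by
    refine ⟨fun c' hc' g => ?_⟩
    have := hcentral c' hc' g
    rw [← this]
    simpa using hc'
  have hmap : C.map (σ : Y ≃* Y).toMonoidHom = C := by
    ext c'
    constructor
    · rintro ⟨a, ha, rfl⟩
      have : σ a = a := ha
      show σ a ∈ C
      rw [this]
      exact ha
    · intro hc'
      exact ⟨c', hc', hc'⟩
  let f : (Y ⧸ C) ≃* (Y ⧸ C) := QuotientGroup.congr C C σ hmap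
  have hfmk : ∀ y : Y, f (y : Y ⧸ C) = ((σ y : Y) : Y ⧸ C) := fun y => rfl
  have hfpow : ∀ (n : ℕ) (y : Y), ((f ^ n : MulAut (Y ⧸ C)) (y : Y ⧸ C)) = (((σ ^ n) y : Y) : Y ⧸ C) := by
    intro n
    induction n with
    | zero => intro y; rfl
    | succ n ih =>
      intro y
      rw [pow_succ, MulAut.mul_apply, hfmk, ih, pow_succ, MulAut.mul_apply]
  let F : Function.End (Y ⧸ C) := fun q => f q
  have hFpow : ∀ (n : ℕ) (q : Y ⧸ C), (F ^ n) q = ((f ^ n : MulAut (Y ⧸ C)) q) := by
    intro n q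
    induction n generalizing q with
    | zero => rfl
    | succ n ih =>
      rw [pow_succ]
      show (F ^ n) (f q) = _
      rw [ih, pow_succ, MulAut.mul_apply]
  haveI : Fact r.Prime := ⟨hr⟩
  have hFr : F ^ r ^ 1 = 1 := by
    funext q
    rw [pow_one, hFpow]
    induction q using QuotientGroup.induction_on with
    | H y =>
      rw [hfpow, hσr]
      rfl
  have hmod := Equiv.Perm.card_fixedPoints_modEq (p := r) (n := 1) hFr
  letI : Fintype (Y ⧸ C) := Fintype.ofFinite _
  letI : Fintype F.fixedPoints := Fintype.ofFinite _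
  have hfixone : Fintype.card F.fixedPoints = 1 := by
    rw [Fintype.card_eq_one_iff]
    refine ⟨⟨1, by show f 1 = 1; exact map_one f⟩, ?_⟩
    rintro ⟨q, hq⟩
    apply Subtype.ext
    induction q using QuotientGroup.induction_on with
    | H y =>
      have h1 : f (y : Y ⧸ C) = (y : Y ⧸ C) := hq
      rw [hfmk] at h1
      have h2 := QuotientGroup.eq.mp h1
      -- `(σ y)⁻¹ * y ∈ C`
      have h3 : σ y * y⁻¹ ∈ C := by
        have h4 := inv_mem h2
        have h5 := hCn.conj_mem _ h4 y
        have e : y * ((σ y)⁻¹ * y)⁻¹ * y⁻¹ = σ y * y⁻¹ * (y * y⁻¹) := by group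
        rw [e] at h5
        simpa using h5
      have h6 := hfpf y h3
      show ((y : Y) : Y ⧸ C) = 1
      exact (QuotientGroup.eq_one_iff y).mpr h6
  have hfix2 : Nat.card F.fixedPoints = 1 := by
    rw [Nat.card_eq_fintype_card]; exact hfixone
  simp only [← Nat.card_eq_fintype_card] at hmod
  rw [hfix2, hN] at hmod
  have hN1 : N ≠ 1 := by
    rintro rfl
    rw [one_pow] at hN
    apply hCtop
    exact Subgroup.index_eq_one.mp hN
  have hN0 : N ≠ 0 := by
    rintro rfl
    have h0 : Nat.card (Y ⧸ C) ≠ 0 := Nat.card_pos.ne'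
    rw [hN] at h0
    simp at h0
  have hdvd : r ∣ (N - 1) * (N + 1) := by
    have h1 : r ∣ N ^ 2 - 1 := (Nat.modEq_iff_dvd' (Nat.one_le_pow _ _ (by omega))).mp hmod.symm
    have h2 : N ^ 2 - 1 = (N - 1) * (N + 1) := by
      obtain ⟨M, rfl⟩ : ∃ M, N = M + 1 := ⟨N - 1, by omega⟩
      simp only [Nat.add_sub_cancel]
      have : (M + 1) ^ 2 = M * (M + 1 + 1) + 1 := by ring
      rw [this]
      simp
    rwa [h2] at h1
  rcases (Nat.Prime.dvd_mul hr).mp hdvd with h1 | h1
  · have := Nat.le_of_dvd (by omega) h1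
    omega
  · have := Nat.le_of_dvd (by omega) h1
    omega

/-- The same over an arbitrary field, without faithfulness. -/
theorem centralizes_of_large_general [Finite Γ] [FiniteDimensional K V] (ρ : Γ →* End K V)
    {p r : ℕ} [hp : Fact p.Prime] (hr : r.Prime) (hpr : p ≠ r)
    (hpK : (p : K) ≠ 0) (x : Γ) (hx : x ^ r = 1) (hlarge : finrank K V + 1 < r)
    (Y : Subgroup Γ) (hYp : IsPGroup p Y) (hxY : ∀ y ∈ Y, x * y * x⁻¹ ∈ Y) :
    ∀ y ∈ Y, ρ (x * y * x⁻¹) = ρ y := by
  classical
  let L := AlgebraicClosure K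
  let W := TensorProduct K L V
  let bc : End K V →* End L W := (Module.End.baseChangeHom K L V : End K V →ₐ[K] End L W).toMonoidHom
  have hbc : ∀ f : End K V, bc f = f.baseChange L := fun _ => rfl
  have hbcinj : Function.Injective bc := LinearMap.baseChangeHom_injective K V L
  let ρL : Γ →* End L W := bc.comp ρ
  let ρu : Γ →* (End L W)ˣ := ρL.toHomUnits
  let Γ' : Subgroup (End L W)ˣ := ρu.range
  let π : Γ →* Γ' := ρu.rangeRestrict
  have hπ : Function.Surjective π := MonoidHom.rangeRestrict_surjective ρu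
  let ρ' : Γ' →* End L W := (Units.coeHom (End L W)).comp Γ'.subtype
  have hρ'inj : Function.Injective ρ' := by
    intro a b hab
    apply Subtype.ext
    exact Units.ext hab
  have hρ'π : ∀ g : Γ, ρ' (π g) = bc (ρ g) := fun _ => rfl
  haveI : Finite Γ' := Finite.of_surjective π hπ
  have hpL : (p : L) ≠ 0 := by
    intro h
    apply hpK
    have : algebraMap K L (p : K) = 0 := by rw [map_natCast]; exact h
    exact (map_eq_zero_iff _ (algebraMap K L).injective).mp this
  have hY' : IsPGroup p (Y.map π) := hYp.map π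
  have hxY' : ∀ y ∈ Y.map π, π x * y * (π x)⁻¹ ∈ Y.map π := by
    rintro _ ⟨y, hy, rfl⟩
    exact ⟨x * y * x⁻¹, hxY y hy, by simp [map_mul, map_inv]⟩
  have hxr' : (π x) ^ r = 1 := by rw [← map_pow, hx, map_one]
  have hfr : finrank L W = finrank K V := Module.finrank_baseChange
  intro y hy
  have key := centralizes_of_large ρ' hρ'inj hr hpr hpL (π x) hxr' (by rw [hfr]; exact hlarge) (Y.map π) hY' hxY'
    (π y) ⟨y, hy, rfl⟩
  apply hbcinj
  rw [← hρ'π, ← hρ'π]
  congr 1
  rw [map_mul, map_mul, map_inv]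
  exact key

end Cfsg.Agent.Lib.Perm.HHLarge
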