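import Mathlib
import Cfsg.Agent.Lib.OddOrder.HHGroup
import Cfsg.Agent.Lib.OddOrder.BG4E
import Cfsg.Agent.Lib.Classical.Spectra.Ppd
import Cfsg.Agent.Lib.Basic.PCore

/-!
# Solvable odd linear groups with at most two orbits on nonzero vectors

A solvable linear group `G` of odd order over `ZMod p` (`p` odd) whose orbits on nonzero vectors are
`O` and `-O` lies in `ΓL(1, p ^ f)`: an element of primitive prime divisor order `r` has no fixed
vectors, it centralizes every normal `s`-subgroup (Hall–Higman type lemma for `s ≠ r, p`, the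
commutativity of the centralizer for `s = r`, triviality of `O_p` for `s = p`), hence it lies in the
Fitting subgroup and the centralizer algebra of it is normalized by `G`.
-/

set_option autoImplicit false
set_option linter.style.haveILetI false
set_option linter.unusedSectionVars false

namespace Cfsg.Agent.Lib.Perm.Kantor

open Module

section Count

variable {p : ℕ} [hp : Fact p.Prime] {V : Type*} [AddCommGroup V] [Module (ZMod p) V] [Finite V]

/-- Fixed point count for a linear map of prime order on an invariant subspace. -/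
theorem card_modEq_fixed {r : ℕ} [Fact r.Prime] (z : End (ZMod p) V) (hz : z ^ r = 1)
    (U : Submodule (ZMod p) V) (hU : ∀ u ∈ U, z u ∈ U) :
    Nat.card U ≡ Nat.card (U ⊓ LinearMap.ker (z - 1) : Submodule (ZMod p) V) [MOD r] := by
  classical
  letI : Fintype U := Fintype.ofFinite _
  let f : Function.End U := fun u => ⟨z u, hU u u.2⟩
  have hpow : ∀ (n : ℕ) (u : U), (((f ^ n : Function.End U) u : U) : V) = (z ^ n) u := by
    intro n
    induction n with
    | zero =>
      intro u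
      rw [pow_zero, pow_zero]
      rfl
    | succ n ih =>
      intro u
      have h0 : (f ^ (n + 1) : Function.End U) u = (f ^ n : Function.End U) (f u) := by
        rw [pow_succ]
        rfl
      rw [h0, ih, pow_succ]
      rfl
  have hf : f ^ r ^ 1 = 1 := by
    funext u
    apply Subtype.ext
    rw [pow_one, hpow, hz]
    rfl
  have h := Equiv.Perm.card_fixedPoints_modEq (f := f) hf
  have h1 : Nat.card U = Fintype.card U := Nat.card_eq_fintype_card
  have h2 : Nat.card (U ⊓ LinearMap.ker (z - 1) : Submodule (ZMod p) V) =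
      Fintype.card (Function.fixedPoints f) := by
    rw [← Nat.card_eq_fintype_card]
    refine Nat.card_congr ⟨fun u => ⟨⟨u.1, u.2.1⟩, ?_⟩, fun u => ⟨u.1.1, u.1.2, ?_⟩, ?_, ?_⟩
    · have h3 : (z - 1) u.1 = 0 := LinearMap.mem_ker.mp u.2.2
      apply Subtype.ext
      show z u.1 = u.1
      rw [LinearMap.sub_apply, Module.End.one_apply, sub_eq_zero] at h3
      exact h3
    · have h3 : z u.1.1 = u.1.1 := congrArg Subtype.val u.2
      show u.1.1 ∈ LinearMap.ker (z - 1)
      rw [LinearMap.mem_ker, LinearMap.sub_apply, Module.End.one_apply, sub_eq_zero]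
      exact h3
    · intro u
      rfl
    · intro u
      rfl
  rw [h1, h2]
  exact h

/-- A power relation modulo a primitive prime divisor. -/
theorem eq_or_le_of_modEq {r f j c : ℕ} (hrp : ¬ r ∣ p) (hr : r.Prime)
    (hppd : ∀ i, 0 < i → r ∣ p ^ i - 1 → f ≤ i) (hcj : c ≤ j) (h : p ^ j ≡ p ^ c [MOD r]) :
    j = c ∨ f ≤ j - c := by
  by_cases hjc : j = c
  · exact Or.inl hjc
  · right
    apply hppd _ (by omega)
    have hp1 := hp.out.one_lt
    have h1 : p ^ c ≤ p ^ j := Nat.pow_le_pow_right hp.out.pos hcj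
    have h2 : r ∣ p ^ j - p ^ c := (Nat.modEq_iff_dvd' h1).mp h.symm
    have h3 : p ^ j - p ^ c = p ^ c * (p ^ (j - c) - 1) := by
      rw [Nat.mul_sub, mul_one, ← pow_add]
      congr 2
      omega
    rw [h3] at h2
    exact (hr.dvd_mul.mp h2).resolve_left fun h4 => hrp (hr.dvd_of_dvd_pow h4)

variable (V) in
/-- The cardinality of a subspace. -/
theorem card_submodule (U : Submodule (ZMod p) V) :
    Nat.card U = p ^ finrank (ZMod p) U := by
  haveI : Module.Finite (ZMod p) U := Module.Finite.of_finite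
  rw [Module.natCard_eq_pow_finrank (K := ZMod p), Nat.card_zmod]

/-- **No fixed vectors.** -/
theorem eq_zero_of_fixed {r f : ℕ} [hr : Fact r.Prime] (hrp : ¬ r ∣ p)
    (hppd : ∀ i, 0 < i → r ∣ p ^ i - 1 → f ≤ i) (hf : finrank (ZMod p) V = f) (hf0 : 0 < f)
    (z : End (ZMod p) V) (hz : z ^ r = 1) (hz1 : z ≠ 1) (v : V) (hv : z v = v) : v = 0 := by
  haveI : Module.Finite (ZMod p) V := Module.Finite.of_finite
  have h1 := card_modEq_fixed z hz ⊤ (fun _ _ => Submodule.mem_top)
  rw [card_submodule, card_submodule, finrank_top, hf, top_inf_eq] at h1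
  have hle : finrank (ZMod p) (LinearMap.ker (z - 1)) ≤ f := by
    rw [← hf]
    exact Submodule.finrank_le _
  rcases eq_or_le_of_modEq hrp hr.out hppd hle h1 with h2 | h2
  · exfalso
    apply hz1
    have h3 : LinearMap.ker (z - 1) = ⊤ := Submodule.eq_top_of_finrank_eq (h2.symm.trans hf.symm ▸ rfl)
    have h4 : z - 1 = 0 := LinearMap.ker_eq_top.mp h3
    exact sub_eq_zero.mp h4
  · have h3 : finrank (ZMod p) (LinearMap.ker (z - 1)) = 0 := by omega
    have h4 : LinearMap.ker (z - 1) = ⊥ := Submodule.finrank_eq_zero.mp h3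
    have h5 : v ∈ LinearMap.ker (z - 1) := by
      rw [LinearMap.mem_ker, LinearMap.sub_apply, Module.End.one_apply, hv, sub_self]
    rw [h4] at h5
    exact (Submodule.mem_bot _).mp h5

/-- **Irreducibility.** -/
theorem eq_top_of_invariant {r f : ℕ} [hr : Fact r.Prime] (hrp : ¬ r ∣ p)
    (hppd : ∀ i, 0 < i → r ∣ p ^ i - 1 → f ≤ i) (hf : finrank (ZMod p) V = f) (hf0 : 0 < f)
    (z : End (ZMod p) V) (hz : z ^ r = 1) (hz1 : z ≠ 1) (U : Submodule (ZMod p) V)
    (hU : ∀ u ∈ U, z u ∈ U) (hU0 : U ≠ ⊥) : U = ⊤ := by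
  haveI : Module.Finite (ZMod p) V := Module.Finite.of_finite
  have h1 := card_modEq_fixed z hz U hU
  have hbot : U ⊓ LinearMap.ker (z - 1) = ⊥ := by
    rw [eq_bot_iff]
    intro u hu
    have h2 : (z - 1) u = 0 := LinearMap.mem_ker.mp hu.2
    rw [LinearMap.sub_apply, Module.End.one_apply, sub_eq_zero] at h2
    exact (Submodule.mem_bot _).mpr (eq_zero_of_fixed hrp hppd hf hf0 z hz hz1 u h2)
  rw [hbot, card_submodule, card_submodule, finrank_bot] at h1
  rcases eq_or_le_of_modEq hrp hr.out hppd (Nat.zero_le _) h1 with h2 | h2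
  · exact absurd (Submodule.finrank_eq_zero.mp h2) hU0
  · apply Submodule.eq_top_of_finrank_eq
    have h3 := Submodule.finrank_le U
    omega

/-- Commuting with a generator. -/
theorem commute_of_mem_adjoin {z a b : End (ZMod p) V} (ha : Commute a z)
    (hb : b ∈ Algebra.adjoin (ZMod p) ({z} : Set (End (ZMod p) V))) : Commute a b := by
  induction hb using Algebra.adjoin_induction with
  | mem x hx =>
    rw [Set.mem_singleton_iff] at hx
    rw [hx]
    exact ha
  | algebraMap c => exact (Algebra.commutes c a).symm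
  | add x y _ _ hx hy => exact hx.add_right hy
  | mul x y _ _ hx hy => exact hx.mul_right hy

/-- The algebra generated by one element is commutative. -/
theorem commute_adjoin {z a b : End (ZMod p) V}
    (ha : a ∈ Algebra.adjoin (ZMod p) ({z} : Set (End (ZMod p) V)))
    (hb : b ∈ Algebra.adjoin (ZMod p) ({z} : Set (End (ZMod p) V))) : Commute a b :=
  commute_of_mem_adjoin (commute_of_mem_adjoin (Commute.refl z) ha).symm hb

/-- Every vector is a multiple of a given nonzero vector. -/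
theorem exists_mem_adjoin {r f : ℕ} [hr : Fact r.Prime] (hrp : ¬ r ∣ p)
    (hppd : ∀ i, 0 < i → r ∣ p ^ i - 1 → f ≤ i) (hf : finrank (ZMod p) V = f) (hf0 : 0 < f)
    (z : End (ZMod p) V) (hz : z ^ r = 1) (hz1 : z ≠ 1) {v₀ : V} (hv₀ : v₀ ≠ 0) (w : V) :
    ∃ c ∈ Algebra.adjoin (ZMod p) ({z} : Set (End (ZMod p) V)), c v₀ = w := by
  let K := Algebra.adjoin (ZMod p) ({z} : Set (End (ZMod p) V))
  let U : Submodule (ZMod p) V := K.toSubmodule.map (LinearMap.applyₗ v₀)
  have hmem : ∀ y, y ∈ U ↔ ∃ c ∈ K, c v₀ = y := by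
    intro y
    constructor
    · rintro ⟨c, hc, rfl⟩
      exact ⟨c, hc, rfl⟩
    · rintro ⟨c, hc, rfl⟩
      exact ⟨c, hc, rfl⟩
  have hzK : z ∈ K := Algebra.subset_adjoin rfl
  have hU : ∀ u ∈ U, z u ∈ U := by
    intro u hu
    obtain ⟨c, hc, rfl⟩ := (hmem u).mp hu
    exact (hmem _).mpr ⟨z * c, K.mul_mem hzK hc, rfl⟩
  have hU0 : U ≠ ⊥ := by
    intro h
    have h1 : v₀ ∈ U := (hmem _).mpr ⟨1, K.one_mem, rfl⟩
    rw [h] at h1
    exact hv₀ ((Submodule.mem_bot _).mp h1)
  have h2 := eq_top_of_invariant hrp hppd hf hf0 z hz hz1 U hU hU0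
  exact (hmem w).mp (h2 ▸ Submodule.mem_top)

/-- The centralizer of `z` is the algebra generated by `z`. -/
theorem mem_adjoin_of_commute {r f : ℕ} [hr : Fact r.Prime] (hrp : ¬ r ∣ p)
    (hppd : ∀ i, 0 < i → r ∣ p ^ i - 1 → f ≤ i) (hf : finrank (ZMod p) V = f) (hf0 : 0 < f)
    (z : End (ZMod p) V) (hz : z ^ r = 1) (hz1 : z ≠ 1) {y : End (ZMod p) V} (hy : Commute y z) :
    y ∈ Algebra.adjoin (ZMod p) ({z} : Set (End (ZMod p) V)) := by
  have hne : ∃ v₀ : V, v₀ ≠ 0 := by
    by_contra hcon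
    push Not at hcon
    apply hz1
    ext v
    rw [hcon v, map_zero, map_zero]
  obtain ⟨v₀, hv₀⟩ := hne
  obtain ⟨c, hc, hcv⟩ := exists_mem_adjoin hrp hppd hf hf0 z hz hz1 hv₀ (y v₀)
  have : y = c := by
    ext w
    obtain ⟨c', hc', rfl⟩ := exists_mem_adjoin hrp hppd hf hf0 z hz hz1 hv₀ w
    have h1 : Commute y c' := commute_of_mem_adjoin hy hc'
    have h2 : Commute c c' := commute_adjoin hc hc'
    calc y (c' v₀) = (y * c') v₀ := rfl
      _ = (c' * y) v₀ := by rw [h1.eq]
      _ = c' (c v₀) := by rw [Module.End.mul_apply, hcv]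
      _ = (c' * c) v₀ := rfl
      _ = (c * c') v₀ := by rw [h2.eq]
      _ = c (c' v₀) := rfl
  rw [this]
  exact hc

/-- Elements commuting with `z` commute with each other. -/
theorem commute_of_commute {r f : ℕ} [hr : Fact r.Prime] (hrp : ¬ r ∣ p)
    (hppd : ∀ i, 0 < i → r ∣ p ^ i - 1 → f ≤ i) (hf : finrank (ZMod p) V = f) (hf0 : 0 < f)
    (z : End (ZMod p) V) (hz : z ^ r = 1) (hz1 : z ≠ 1) {a b : End (ZMod p) V}
    (ha : Commute a z) (hb : Commute b z) : Commute a b :=
  commute_adjoin (mem_adjoin_of_commute hrp hppd hf hf0 z hz hz1 ha)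
    (mem_adjoin_of_commute hrp hppd hf hf0 z hz hz1 hb)

/-- Nonzero elements of the algebra are injective. -/
theorem eq_zero_of_mem_adjoin {r f : ℕ} [hr : Fact r.Prime] (hrp : ¬ r ∣ p)
    (hppd : ∀ i, 0 < i → r ∣ p ^ i - 1 → f ≤ i) (hf : finrank (ZMod p) V = f) (hf0 : 0 < f)
    (z : End (ZMod p) V) (hz : z ^ r = 1) (hz1 : z ≠ 1) {c : End (ZMod p) V}
    (hc : c ∈ Algebra.adjoin (ZMod p) ({z} : Set (End (ZMod p) V))) (hc0 : c ≠ 0) (v : V)
    (hv : c v = 0) : v = 0 := by
  have hU : ∀ u ∈ LinearMap.ker c, z u ∈ LinearMap.ker c := by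
    intro u hu
    rw [LinearMap.mem_ker] at hu ⊢
    have h1 : Commute c z := commute_of_mem_adjoin (Commute.refl z) hc |>.symm
    calc c (z u) = (c * z) u := rfl
      _ = (z * c) u := by rw [h1.eq]
      _ = z (c u) := rfl
      _ = 0 := by rw [hu, map_zero]
  by_contra hv0
  apply hc0
  have h2 : LinearMap.ker c ≠ ⊥ := by
    intro h
    have h3 : v ∈ LinearMap.ker c := hv
    rw [h] at h3
    exact hv0 ((Submodule.mem_bot _).mp h3)
  exact LinearMap.ker_eq_top.mp (eq_top_of_invariant hrp hppd hf hf0 z hz hz1 _ hU h2)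

/-- A generator of the multiplicative group of a finite subalgebra without zero divisors. -/
theorem exists_generator (K : Subalgebra (ZMod p) (End (ZMod p) V))
    (hcomm : ∀ a ∈ K, ∀ b ∈ K, a * b = b * a) (hne : (1 : End (ZMod p) V) ≠ 0)
    (hdom : ∀ a ∈ K, ∀ b ∈ K, a * b = 0 → a = 0 ∨ b = 0) :
    ∃ c₀ ∈ K, c₀ ≠ 0 ∧ ∀ c ∈ K, c ≠ 0 → ∃ k : ℕ, c = c₀ ^ k := by
  classical
  haveI : Module.Finite (ZMod p) V := Module.Finite.of_finite
  haveI : Finite (End (ZMod p) V) := Module.finite_of_finite (ZMod p)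
  letI : CommRing K := { K.toRing with mul_comm := fun a b => Subtype.ext (hcomm _ a.2 _ b.2) }
  haveI : Nontrivial K := ⟨⟨0, 1, fun h => hne (congrArg Subtype.val h).symm⟩⟩
  haveI : NoZeroDivisors K := ⟨by
    intro a b hab
    rcases hdom _ a.2 _ b.2 (congrArg Subtype.val hab) with h | h
    · exact Or.inl (Subtype.ext h)
    · exact Or.inr (Subtype.ext h)⟩
  haveI : IsDomain K := NoZeroDivisors.to_isDomain K
  letI : Fintype K := Fintype.ofFinite K
  letI : Field K := Fintype.fieldOfDomain K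
  obtain ⟨u, hu⟩ := IsCyclic.exists_generator (α := Kˣ)
  refine ⟨((u : Kˣ) : K).1, ((u : Kˣ) : K).2, ?_, ?_⟩
  · intro h
    exact u.ne_zero (Subtype.ext h)
  · intro c hc hc0
    have h0 : (⟨c, hc⟩ : K) ≠ 0 := fun h => hc0 (congrArg Subtype.val h)
    have h1 := hu (Units.mk0 _ h0)
    obtain ⟨k, hk⟩ := (mem_powers_iff_mem_zpowers).mpr h1
    refine ⟨k, ?_⟩
    have h2 : ((u : K)) ^ k = ⟨c, hc⟩ := by
      have := congrArg Units.val hk
      simpa using this
    have h3 : (((u : K)) ^ k : K).1 = c := congrArg Subtype.val h2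
    have h4 : ∀ n : ℕ, (((u : K)) ^ n : K).1 = ((u : K)).1 ^ n := by
      intro n
      induction n with
      | zero => rw [pow_zero, pow_zero]; rfl
      | succ n ih =>
        rw [pow_succ, pow_succ, ← ih]
        rfl
    rw [← h3, h4]

end Count

section Group

variable {p : ℕ} [hp : Fact p.Prime] {V : Type*} [AddCommGroup V] [Module (ZMod p) V] [Finite V]
variable {G : Type*} [Group G] [Finite G]

/-- The orbits of `G` on nonzero vectors are `O` and `-O`. -/
def HalfTrans (ρ : G →* End (ZMod p) V) : Prop :=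
  ∀ u v : V, u ≠ 0 → v ≠ 0 → ∃ g, ρ g u = v ∨ ρ g u = -v

theorem eq_zero_of_apply_eq_neg (ρ : G →* End (ZMod p) V) (hodd : Odd (Nat.card G)) (hp2 : p ≠ 2)
    (g : G) (u : V) (hu : ρ g u = -u) : u = 0 := by
  have h1 : ∀ n : ℕ, ρ (g ^ n) u = (-1 : ZMod p) ^ n • u := by
    intro n
    induction n with
    | zero => simp
    | succ n ih =>
      rw [pow_succ, map_mul, Module.End.mul_apply, hu, map_neg, ih, pow_succ, mul_smul, neg_smul, one_smul,
        smul_neg]
  have hord : Odd (orderOf g) := Odd.of_dvd_nat hodd (orderOf_dvd_natCard g)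
  have h2 := h1 (orderOf g)
  rw [pow_orderOf_eq_one, map_one, Module.End.one_apply, hord.neg_one_pow, neg_smul, one_smul] at h2
  have h3 : (2 : ZMod p) • u = 0 := by
    rw [two_smul]
    nth_rewrite 1 [h2]
    exact neg_add_cancel u
  have h4 : (2 : ZMod p) ≠ 0 := by
    intro h
    have h5 : ((2 : ℕ) : ZMod p) = 0 := by exact_mod_cast h
    rw [ZMod.natCast_eq_zero_iff] at h5
    exact hp2 ((Nat.prime_dvd_prime_iff_eq hp.out Nat.prime_two).mp h5)
  exact (smul_eq_zero.mp h3).resolve_left h4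

/-- The order count. -/
theorem exists_odd_card (ρ : G →* End (ZMod p) V) (hT : HalfTrans ρ) (hodd : Odd (Nat.card G))
    (hp2 : p ≠ 2) {u : V} (hu : u ≠ 0) :
    ∃ m, Odd m ∧ Nat.card V = 2 * m + 1 ∧ m ∣ Nat.card G := by
  classical
  letI : MulAction G V := MulAction.compHom V ρ
  have hsmul : ∀ (g : G) (v : V), g • v = ρ g v := fun _ _ => rfl
  haveI : Fintype V := Fintype.ofFinite V
  let O : Finset V := Finset.univ.filter (fun v => v ∈ MulAction.orbit G u)
  have hO : ∀ v, v ∈ O ↔ ∃ g, ρ g u = v := by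
    intro v
    simp only [O, Finset.mem_filter, Finset.mem_univ, true_and, MulAction.mem_orbit_iff, hsmul]
  have hcardO : O.card = Nat.card (MulAction.orbit G u) := by
    rw [Nat.card_eq_fintype_card, ← Fintype.card_coe]
    apply Fintype.card_congr
    exact Equiv.subtypeEquivRight (fun v => by simp [O])
  have hdvd : O.card ∣ Nat.card G := by
    rw [hcardO]
    have h1 := MulAction.index_stabilizer (G := G) u
    rw [Set.ncard_eq_toFinset_card'] at h1
    rw [Nat.card_eq_fintype_card]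
    rw [Set.toFinset_card] at h1
    rw [← h1]
    exact Subgroup.index_dvd_card _
  refine ⟨O.card, Odd.of_dvd_nat hodd hdvd, ?_, hdvd⟩
  let T : Finset V := O.image (fun v => -v)
  have hT' : ∀ v, v ∈ T ↔ ∃ g, ρ g u = -v := by
    intro v
    simp only [T, Finset.mem_image, hO]
    constructor
    · rintro ⟨_, ⟨g, rfl⟩, rfl⟩
      exact ⟨g, by rw [neg_neg]⟩
    · rintro ⟨g, hg⟩
      exact ⟨_, ⟨g, rfl⟩, by rw [hg, neg_neg]⟩
  have hcardT : T.card = O.card := Finset.card_image_of_injective _ neg_injective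
  have hinj : ∀ (g : G) (v : V), ρ g v = 0 → v = 0 := by
    intro g v hv
    have h1 : ρ (g⁻¹ * g) v = 0 := by rw [map_mul, Module.End.mul_apply, hv, map_zero]
    rwa [inv_mul_cancel, map_one, Module.End.one_apply] at h1
  have h0O : (0 : V) ∉ O := by
    intro h
    obtain ⟨g, hg⟩ := (hO 0).mp h
    exact hu (hinj g u hg)
  have h0T : (0 : V) ∉ T := by
    intro h
    obtain ⟨g, hg⟩ := (hT' 0).mp h
    rw [neg_zero] at hg
    exact hu (hinj g u hg)
  have hdisj : Disjoint O T := by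
    rw [Finset.disjoint_left]
    intro v hv hv'
    obtain ⟨g, hg⟩ := (hO v).mp hv
    obtain ⟨g', hg'⟩ := (hT' v).mp hv'
    have h1 : ρ (g'⁻¹ * g) u = -u := by
      rw [map_mul, Module.End.mul_apply, hg]
      have h2 : ρ g'⁻¹ (ρ g' u) = u := by
        rw [← Module.End.mul_apply, ← map_mul, inv_mul_cancel, map_one, Module.End.one_apply]
      rw [hg', map_neg] at h2
      rw [← h2, neg_neg]
    exact hu (eq_zero_of_apply_eq_neg ρ hodd hp2 _ u h1)
  have hunion : insert (0 : V) (O ∪ T) = Finset.univ := by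
    ext v
    simp only [Finset.mem_insert, Finset.mem_union, Finset.mem_univ, iff_true]
    by_cases hv : v = 0
    · exact Or.inl hv
    · right
      obtain ⟨g, hg | hg⟩ := hT u v hu hv
      · exact Or.inl ((hO v).mpr ⟨g, hg⟩)
      · exact Or.inr ((hT' v).mpr ⟨g, hg⟩)
  have h1 := congrArg Finset.card hunion
  rw [Finset.card_insert_of_notMem (by simp [h0O, h0T]), Finset.card_union_of_disjoint hdisj, hcardT,
    Finset.card_univ] at h1
  rw [Nat.card_eq_fintype_card, ← h1]
  ring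

/-- `O_p` is trivial. -/
theorem eq_bot_of_isPGroup (ρ : G →* End (ZMod p) V) (hρ : Function.Injective ρ) (hT : HalfTrans ρ)
    (hpV : p ∣ Nat.card V) (S : Subgroup G) (hS : S.Normal) (hSp : IsPGroup p S) : S = ⊥ := by
  classical
  letI : MulAction S V := MulAction.compHom V (ρ.comp S.subtype)
  have hsmul : ∀ (s : S) (v : V), s • v = ρ s v := fun _ _ => rfl
  obtain ⟨w, hw, hw0⟩ := hSp.exists_fixed_point_of_prime_dvd_card_of_fixed_point V hpV
    (a := (0 : V)) (by
      rw [MulAction.mem_fixedPoints]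
      intro s
      rw [hsmul, map_zero])
  have hw1 : ∀ s : S, ρ s w = w := fun s => (MulAction.mem_fixedPoints.mp hw) s
  rw [eq_bot_iff]
  intro s hs
  rw [Subgroup.mem_bot]
  apply hρ
  rw [map_one]
  ext v
  rw [Module.End.one_apply]
  have key : ∀ g : G, ρ s (ρ g w) = ρ g w := by
    intro g
    have hmem : g⁻¹ * s * g ∈ S := by
      have h0 := hS.conj_mem s hs g⁻¹
      rwa [inv_inv] at h0
    have h1 : ρ (g⁻¹ * s * g) w = w := hw1 ⟨_, hmem⟩
    have h2 : ρ s * ρ g = ρ g * ρ (g⁻¹ * s * g) := by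
      rw [← map_mul, ← map_mul]
      congr 1
      group
    calc ρ s (ρ g w) = (ρ s * ρ g) w := rfl
      _ = (ρ g * ρ (g⁻¹ * s * g)) w := by rw [h2]
      _ = ρ g (ρ (g⁻¹ * s * g) w) := rfl
      _ = ρ g w := by rw [h1]
  by_cases hv : v = 0
  · rw [hv, map_zero]
  · obtain ⟨g, hg | hg⟩ := hT w v (Ne.symm hw0) hv
    · rw [← hg]
      exact key g
    · have h1 := key g
      rw [hg, map_neg] at h1
      exact neg_injective h1

/-- `r`-subgroups are abelian. -/
theorem commute_of_isPGroup {r f : ℕ} [hr : Fact r.Prime] (hrp : ¬ r ∣ p)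
    (hppd : ∀ i, 0 < i → r ∣ p ^ i - 1 → f ≤ i) (hf : finrank (ZMod p) V = f) (hf0 : 0 < f)
    (ρ : G →* End (ZMod p) V) (hρ : Function.Injective ρ) (T : Subgroup G) (hTp : IsPGroup r T)
    {a b : G} (ha : a ∈ T) (hb : b ∈ T) : a * b = b * a := by
  classical
  by_cases hnt : Nontrivial T
  · haveI := hTp.center_nontrivial
    have hZp : IsPGroup r (Subgroup.center T) := hTp.to_subgroup _
    obtain ⟨n, hn0, hn⟩ := hZp.nontrivial_iff_card.mp inferInstance
    have hdvd : r ∣ Nat.card (Subgroup.center T) := by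
      rw [hn]
      exact dvd_pow_self _ hn0.ne'
    obtain ⟨z, hz⟩ := exists_prime_orderOf_dvd_card' r hdvd
    let w : G := ((z : T) : G)
    have hw : w ^ r = 1 := by
      have h1 := pow_orderOf_eq_one z
      rw [hz] at h1
      have h2 := congrArg (fun y : Subgroup.center T => ((y : T) : G)) h1
      simpa using h2
    have hw1 : ρ w ≠ 1 := by
      intro h
      have h1 : w = 1 := hρ (h.trans (map_one ρ).symm)
      have h2 : z = 1 := Subtype.ext (Subtype.ext h1)
      rw [h2, orderOf_one] at hz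
      exact hr.out.one_lt.ne hz
    have hwr : (ρ w) ^ r = 1 := by rw [← map_pow, hw, map_one]
    have hcomm : ∀ c ∈ T, Commute (ρ c) (ρ w) := by
      intro c hc
      have h1 := (Subgroup.mem_center_iff.mp z.2) ⟨c, hc⟩
      have h2 : c * w = w * c := congrArg Subtype.val h1
      show ρ c * ρ w = ρ w * ρ c
      rw [← map_mul, ← map_mul, h2]
    have h3 := commute_of_commute hrp hppd hf hf0 (ρ w) hwr hw1 (hcomm a ha) (hcomm b hb)
    apply hρ
    rw [map_mul, map_mul]
    exact h3.eq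
  · rw [not_nontrivial_iff_subsingleton] at hnt
    have h1 : (⟨a, ha⟩ : T) = ⟨b, hb⟩ := Subsingleton.elim _ _
    have h2 : a = b := congrArg Subtype.val h1
    rw [h2]

/-- The key statement: the centralizer algebra of an element of primitive prime divisor order. -/
theorem normalizes_adjoin {r f : ℕ} [hr : Fact r.Prime] (hrp : ¬ r ∣ p)
    (hppd : ∀ i, 0 < i → r ∣ p ^ i - 1 → f ≤ i) (hf : finrank (ZMod p) V = f) (hf0 : 0 < f)
    (hodd : Odd (Nat.card G)) [Group.IsSolvable G] (hp2 : p ≠ 2)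
    (ρ : G →* End (ZMod p) V) (hρ : Function.Injective ρ) (hT : HalfTrans ρ) (hpV : p ∣ Nat.card V)
    (x : G) (hx : orderOf x = r) (g : G) {c : End (ZMod p) V}
    (hc : c ∈ Algebra.adjoin (ZMod p) ({ρ x} : Set (End (ZMod p) V))) :
    ρ g * c * ρ g⁻¹ ∈ Algebra.adjoin (ZMod p) ({ρ x} : Set (End (ZMod p) V)) := by
  classical
  haveI : Module.Finite (ZMod p) V := Module.Finite.of_finite
  have hxr : x ^ r = 1 := by rw [← hx]; exact pow_orderOf_eq_one x
  have hz : (ρ x) ^ r = 1 := by rw [← map_pow, hxr, map_one]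
  have hz1 : ρ x ≠ 1 := by
    intro h
    have h1 : x = 1 := hρ (h.trans (map_one ρ).symm)
    rw [h1, orderOf_one] at hx
    exact hr.out.one_lt.ne hx
  have hfix : ∀ v, ρ x v = v → v = 0 := eq_zero_of_fixed hrp hppd hf hf0 (ρ x) hz hz1
  -- `x` centralizes every `O_s(G)`
  have hcore : ∀ (s : ℕ), s.Prime → ∀ y ∈ Cfsg.pCore s G, x * y * x⁻¹ = y := by
    intro s hs y hy
    haveI : Fact s.Prime := ⟨hs⟩
    have hSp : IsPGroup s (Cfsg.pCore s G) := Cfsg.Agent.Lib.Basic.PCore.pCore_isPGroup s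
    have hSn : (Cfsg.pCore s G).Normal := inferInstance
    by_cases hsp : s = p
    · subst hsp
      have h1 := eq_bot_of_isPGroup ρ hρ hT hpV _ hSn hSp
      rw [h1, Subgroup.mem_bot] at hy
      rw [hy]
      group
    by_cases hs2 : s = 2
    · subst hs2
      have h1 : Nat.card (Cfsg.pCore 2 G) ∣ Nat.card G := Subgroup.card_subgroup_dvd_card _
      obtain ⟨k, hk⟩ := IsPGroup.iff_card.mp hSp
      have h2 : Odd (2 ^ k) := Odd.of_dvd_nat hodd (hk ▸ h1)
      have h3 : k = 0 := by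
        by_contra h
        exact (Nat.not_even_iff_odd.mpr h2) ((Nat.even_pow' h).mpr even_two)
      rw [h3, pow_zero] at hk
      have h4 : (⟨y, hy⟩ : Cfsg.pCore 2 G) = 1 :=
        (Nat.card_eq_one_iff_unique.mp hk).1.elim _ _
      have h5 : y = 1 := congrArg Subtype.val h4
      rw [h5]
      group
    by_cases hsr : s = r
    · subst hsr
      have hxp : IsPGroup s (Subgroup.zpowers x) := by
        rw [IsPGroup.iff_card, Nat.card_zpowers, hx]
        exact ⟨1, (pow_one s).symm⟩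
      have hT2 : IsPGroup s (Cfsg.pCore s G ⊔ Subgroup.zpowers x : Subgroup G) :=
        IsPGroup.to_sup_of_normal_left hSp hxp
      have h1 := commute_of_isPGroup hrp hppd hf hf0 ρ hρ _ hT2
        (Subgroup.mem_sup_right (Subgroup.mem_zpowers x)) (Subgroup.mem_sup_left hy)
      rw [h1]
      group
    · have hcast : ∀ {u : ℕ}, u.Prime → u ≠ p → ((u : ℕ) : ZMod p) ≠ 0 := by
        intro u hu hup h
        rw [ZMod.natCast_eq_zero_iff] at h
        exact hup ((Nat.prime_dvd_prime_iff_eq hp.out hu).mp h).symm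
      have hnorm : ∀ y ∈ Cfsg.pCore s G, x * y * x⁻¹ ∈ Cfsg.pCore s G :=
        fun y hy => hSn.conj_mem y hy x
      have h1 := Cfsg.Agent.Lib.OddOrder.HHGroup.centralizes_of_no_fixed_general ρ (p := s) (r := r) hr.out hsr
        hs2 (hcast hs hsp) (hcast hr.out (fun h => hrp (h ▸ dvd_rfl))) x hxr hfix _ hSp hnorm y hy
      exact hρ h1
  -- hence the Fitting subgroup
  have hF : ∀ y ∈ Cfsg.fittingSubgroup G, x * y = y * x := by
    intro y hy
    rw [Cfsg.Agent.Lib.Basic.PCore.fittingSubgroup_eq_iSup_pCore] at hy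
    have hle : (⨆ s : (Nat.card G).primeFactors, Cfsg.pCore s.1 G) ≤
        Subgroup.centralizer ({x} : Set G) := by
      refine iSup_le fun s => ?_
      intro y hy
      rw [Subgroup.mem_centralizer_singleton_iff]
      have h1 := hcore s.1 (Nat.prime_of_mem_primeFactors s.2) y hy
      rw [mul_inv_eq_iff_eq_mul] at h1
      exact h1.symm
    have h2 := hle hy
    rw [Subgroup.mem_centralizer_singleton_iff] at h2
    exact h2.symm
  have hxF : x ∈ Cfsg.fittingSubgroup G := by
    apply Cfsg.Agent.Lib.OddOrder.BG4.centralizer_fitting_le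
    rw [Subgroup.mem_centralizer_iff]
    intro y hy
    exact (hF y hy).symm
  have hFn : (Cfsg.fittingSubgroup G).Normal := inferInstance
  have hconj : ∀ g : G, Commute (ρ (g * x * g⁻¹)) (ρ x) := by
    intro g
    have h1 := hF _ (hFn.conj_mem x hxF g)
    show _ * _ = _ * _
    rw [← map_mul, ← map_mul, h1]
  have hgen := mem_adjoin_of_commute hrp hppd hf hf0 (ρ x) hz hz1 (hconj g)
  induction hc using Algebra.adjoin_induction with
  | mem y hy =>
    rw [Set.mem_singleton_iff] at hy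
    rw [hy, ← map_mul, ← map_mul]
    exact hgen
  | algebraMap a =>
    rw [← Algebra.commutes a (ρ g), mul_assoc, ← map_mul, mul_inv_cancel, map_one, mul_one]
    exact Subalgebra.algebraMap_mem _ a
  | add y z _ _ hy hz' =>
    rw [mul_add, add_mul]
    exact Subalgebra.add_mem _ hy hz'
  | mul y z _ _ hy hz' =>
    have h1 : ρ g * (y * z) * ρ g⁻¹ = (ρ g * y * ρ g⁻¹) * (ρ g * z * ρ g⁻¹) := by
      have h2 : ρ g⁻¹ * ρ g = 1 := by rw [← map_mul, inv_mul_cancel, map_one]
      calc ρ g * (y * z) * ρ g⁻¹ = ρ g * y * 1 * (z * ρ g⁻¹) := by noncomm_ring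
        _ = ρ g * y * (ρ g⁻¹ * ρ g) * (z * ρ g⁻¹) := by rw [h2]
        _ = _ := by noncomm_ring
    rw [h1]
    exact Subalgebra.mul_mem _ hy hz'

/-- **Singer coordinates** for `f ≥ 3`. -/
theorem exists_singer_of_three {f : ℕ} (hf : finrank (ZMod p) V = f) (hf3 : 3 ≤ f)
    (hodd : Odd (Nat.card G)) [Group.IsSolvable G] (hp2 : p ≠ 2)
    (ρ : G →* End (ZMod p) V) (hρ : Function.Injective ρ) (hT : HalfTrans ρ) :
    ∃ (A : V ≃+ V) (v₀ : V), v₀ ≠ 0 ∧ (∀ w : V, w ≠ 0 → ∃ k : ℕ, A^[k] v₀ = w) ∧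
      ∀ g : G, ∃ j : ℕ, ∀ w, ρ g (A w) = A^[j] (ρ g w) := by
  classical
  haveI : Module.Finite (ZMod p) V := Module.Finite.of_finite
  have hf0 : 0 < f := by omega
  obtain ⟨u, hu⟩ : ∃ u : V, u ≠ 0 := by
    by_contra hcon
    push Not at hcon
    haveI : Subsingleton V := ⟨fun a b => by rw [hcon a, hcon b]⟩
    rw [finrank_zero_of_subsingleton] at hf
    omega
  obtain ⟨m, hm, hVm, hmG⟩ := exists_odd_card ρ hT hodd hp2 hu
  have hp3 : 3 ≤ p := by
    have := hp.out.two_le
    omega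
  obtain ⟨r, hr, hprim⟩ := Cfsg.Agent.Lib.Classical.Spectra.Ppd.exists_ppd (m := f) (q := p) (by omega) hp3
  haveI hrF : Fact r.Prime := ⟨hr⟩
  have hrp : ¬ r ∣ p := by
    intro h
    have h1 : (p : ZMod r) = 0 := (ZMod.natCast_eq_zero_iff _ _).mpr h
    have h2 := hprim.pow_eq_one
    rw [h1, zero_pow (by omega)] at h2
    exact zero_ne_one h2
  have hpow : ∀ i : ℕ, r ∣ p ^ i - 1 → (p : ZMod r) ^ i = 1 := by
    intro i hi
    have h1 : 1 ≤ p ^ i := Nat.one_le_pow _ _ hp.out.pos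
    have h2 : ((p ^ i - 1 : ℕ) : ZMod r) = 0 := (ZMod.natCast_eq_zero_iff _ _).mpr hi
    rw [Nat.cast_sub h1, Nat.cast_pow, Nat.cast_one, sub_eq_zero] at h2
    exact h2
  have hppd : ∀ i, 0 < i → r ∣ p ^ i - 1 → f ≤ i := fun i hi0 hi =>
    Nat.le_of_dvd hi0 (hprim.dvd_of_pow_eq_one _ (hpow i hi))
  have hdvdf : r ∣ p ^ f - 1 := by
    have h1 : 1 ≤ p ^ f := Nat.one_le_pow _ _ hp.out.pos
    rw [← ZMod.natCast_eq_zero_iff, Nat.cast_sub h1, Nat.cast_pow, Nat.cast_one, sub_eq_zero]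
    exact hprim.pow_eq_one
  have hrf : f < r := by
    have h1 : (p : ZMod r) ≠ 0 := fun h => hrp ((ZMod.natCast_eq_zero_iff _ _).mp h)
    have h2 := ZMod.pow_card_sub_one_eq_one h1
    have h3 := hprim.dvd_of_pow_eq_one _ h2
    have h4 := Nat.le_of_dvd (by have := hr.two_le; omega) h3
    have := hr.two_le
    omega
  have hVcard : Nat.card V = p ^ f := by
    rw [Module.natCard_eq_pow_finrank (K := ZMod p), Nat.card_zmod, hf]
  have hrm : r ∣ m := by
    have h1 : p ^ f - 1 = 2 * m := by omega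
    rw [h1] at hdvdf
    refine (hr.dvd_mul.mp hdvdf).resolve_left fun h => ?_
    have := Nat.le_of_dvd (by norm_num) h
    omega
  have hpV : p ∣ Nat.card V := by
    rw [hVcard]
    exact dvd_pow_self _ (by omega)
  obtain ⟨x, hx⟩ := exists_prime_orderOf_dvd_card' r (hrm.trans hmG)
  have hxr : x ^ r = 1 := by rw [← hx]; exact pow_orderOf_eq_one x
  have hz : (ρ x) ^ r = 1 := by rw [← map_pow, hxr, map_one]
  have hz1 : ρ x ≠ 1 := by
    intro h
    have h1 : x = 1 := hρ (h.trans (map_one ρ).symm)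
    rw [h1, orderOf_one] at hx
    exact hr.one_lt.ne hx
  have h10 : (1 : End (ZMod p) V) ≠ 0 := by
    intro h
    apply hu
    have := congrArg (fun c : End (ZMod p) V => c u) h
    simpa using this
  obtain ⟨c₀, hc₀, hc₀0, hgen⟩ := exists_generator (Algebra.adjoin (ZMod p) ({ρ x} : Set (End (ZMod p) V)))
    (fun a ha b hb => (commute_adjoin ha hb).eq) h10 (by
      intro a ha b hb hab
      by_cases ha0 : a = 0
      · exact Or.inl ha0
      · right
        ext w
        have h1 : a (b w) = 0 := by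
          have := congrArg (fun c : End (ZMod p) V => c w) hab
          simpa using this
        rw [eq_zero_of_mem_adjoin hrp hppd hf hf0 (ρ x) hz hz1 ha ha0 _ h1]
        rfl)
  have hc₀inj : Function.Injective c₀ := by
    rw [injective_iff_map_eq_zero]
    exact eq_zero_of_mem_adjoin hrp hppd hf hf0 (ρ x) hz hz1 hc₀ hc₀0
  let A : V ≃+ V := AddEquiv.ofBijective c₀.toAddMonoidHom ⟨hc₀inj, Finite.surjective_of_injective hc₀inj⟩
  have hA : ∀ w, A w = c₀ w := fun _ => rfl
  have hAk : ∀ (k : ℕ) (w : V), A^[k] w = (c₀ ^ k) w := by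
    intro k
    induction k with
    | zero => intro w; rfl
    | succ k ih =>
      intro w
      rw [Function.iterate_succ_apply, ih, hA, pow_succ, Module.End.mul_apply]
  refine ⟨A, u, hu, fun w hw => ?_, fun g => ?_⟩
  · obtain ⟨c, hc, hcu⟩ := exists_mem_adjoin hrp hppd hf hf0 (ρ x) hz hz1 hu w
    have hc0 : c ≠ 0 := by
      rintro rfl
      exact hw hcu.symm
    obtain ⟨k, rfl⟩ := hgen c hc hc0
    exact ⟨k, by rw [hAk, hcu]⟩
  · have hc1 := normalizes_adjoin hrp hppd hf hf0 hodd hp2 ρ hρ hT hpV x hx g hc₀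
    have hinv : ρ g⁻¹ * ρ g = 1 := by rw [← map_mul, inv_mul_cancel, map_one]
    have hinv' : ρ g * ρ g⁻¹ = 1 := by rw [← map_mul, mul_inv_cancel, map_one]
    have hc10 : ρ g * c₀ * ρ g⁻¹ ≠ 0 := by
      intro h
      apply hc₀0
      calc c₀ = (ρ g⁻¹ * ρ g) * c₀ * (ρ g⁻¹ * ρ g) := by rw [hinv, one_mul, mul_one]
        _ = ρ g⁻¹ * (ρ g * c₀ * ρ g⁻¹) * ρ g := by noncomm_ring
        _ = 0 := by rw [h, mul_zero, zero_mul]
    obtain ⟨j, hj⟩ := hgen _ hc1 hc10
    refine ⟨j, fun w => ?_⟩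
    rw [hAk, ← hj, hA]
    show ρ g (c₀ w) = ρ g (c₀ (ρ g⁻¹ (ρ g w)))
    congr 2
    rw [← Module.End.mul_apply, hinv, Module.End.one_apply]

/-- **Singer coordinates** for `f = 1`. -/
theorem exists_singer_of_one (hf : finrank (ZMod p) V = 1) (ρ : G →* End (ZMod p) V) :
    ∃ (A : V ≃+ V) (v₀ : V), v₀ ≠ 0 ∧ (∀ w : V, w ≠ 0 → ∃ k : ℕ, A^[k] v₀ = w) ∧
      ∀ g : G, ∃ j : ℕ, ∀ w, ρ g (A w) = A^[j] (ρ g w) := by
  classical
  obtain ⟨v₀, hv₀, hspan⟩ := finrank_eq_one_iff'.mp hf
  obtain ⟨t, ht⟩ := IsCyclic.exists_generator (α := (ZMod p)ˣ)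
  let A : V ≃+ V := DistribMulAction.toAddEquiv V t
  have hA : ∀ w, A w = t • w := fun _ => rfl
  have hAk : ∀ (k : ℕ) (w : V), A^[k] w = ((t ^ k : (ZMod p)ˣ) : ZMod p) • w := by
    intro k
    induction k with
    | zero => intro w; simp
    | succ k ih =>
      intro w
      rw [Function.iterate_succ_apply, ih, hA, Units.smul_def, pow_succ, Units.val_mul, mul_smul]
  refine ⟨A, v₀, hv₀, fun w hw => ?_, fun g => ⟨1, fun w => ?_⟩⟩
  · obtain ⟨c, rfl⟩ := hspan w
    have hc : c ≠ 0 := by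
      rintro rfl
      exact hw (zero_smul _ _)
    obtain ⟨k, hk⟩ := (mem_powers_iff_mem_zpowers).mpr (ht (Units.mk0 c hc))
    refine ⟨k, ?_⟩
    rw [hAk]
    have h1 : ((t ^ k : (ZMod p)ˣ) : ZMod p) = c := by
      have := congrArg Units.val hk
      simpa using this
    rw [h1]
  · rw [Function.iterate_one, hA, hA, Units.smul_def, Units.smul_def, map_smul]

/-- **Singer coordinates.** -/
theorem exists_singer {f : ℕ} (hf : finrank (ZMod p) V = f) (hf0 : f ≠ 0) (hf2 : f ≠ 2)
    (hodd : Odd (Nat.card G)) [Group.IsSolvable G] (hp2 : p ≠ 2)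
    (ρ : G →* End (ZMod p) V) (hρ : Function.Injective ρ) (hT : HalfTrans ρ) :
    ∃ (A : V ≃+ V) (v₀ : V), v₀ ≠ 0 ∧ (∀ w : V, w ≠ 0 → ∃ k : ℕ, A^[k] v₀ = w) ∧
      ∀ g : G, ∃ j : ℕ, ∀ w, ρ g (A w) = A^[j] (ρ g w) := by
  by_cases hf1 : f = 1
  · subst hf1
    exact exists_singer_of_one hf ρ
  · exact exists_singer_of_three hf (by omega) hodd hp2 ρ hρ hT

end Group

end Cfsg.Agent.Lib.Perm.Kantor
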