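import Mathlib
import Cfsg.Agent.Lib.Perm.KantorCore
import Cfsg.Agent.Lib.Perm.SingerCoords
import Cfsg.Agent.Lib.Perm.HHLarge
import Cfsg.Agent.Lib.Perm.Gamma1Count

/-!
# Solvable linear groups transitive on the lines and on the planes

A solvable group `G ≤ GL(n, p)`, `n ≥ 3`, transitive on the one-dimensional and on the two-dimensional
subspaces lies in `ΓL(1, p ^ n)`, and `n = 3` or `(n, p) = (5, 2)`.
-/

set_option autoImplicit false
set_option linter.style.haveILetI false
set_option linter.unusedSectionVars false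
set_option linter.unusedVariables false

namespace Cfsg.Agent.Lib.Perm.Gamma1

open Module Cfsg.Agent.Lib.Perm.Kantor

variable {p : ℕ} [hp : Fact p.Prime] {V : Type*} [AddCommGroup V] [Module (ZMod p) V] [Finite V]
variable {G : Type*} [Group G] [Finite G]

/-- Transitive on lines. -/
def LineTrans (ρ : G →* End (ZMod p) V) : Prop :=
  ∀ u v : V, u ≠ 0 → v ≠ 0 → ∃ g, ∃ c : ZMod p, ρ g u = c • v

/-- Transitive on planes. -/
def PlaneTrans (ρ : G →* End (ZMod p) V) : Prop :=
  ∀ U W : Submodule (ZMod p) V, finrank (ZMod p) U = 2 → finrank (ZMod p) W = 2 →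
    ∃ g, U.map (ρ g) = W

theorem rho_inv_apply (ρ : G →* End (ZMod p) V) (g : G) (v : V) : ρ g⁻¹ (ρ g v) = v := by
  rw [← Module.End.mul_apply, ← map_mul, inv_mul_cancel, map_one, Module.End.one_apply]

theorem rho_apply_inv (ρ : G →* End (ZMod p) V) (g : G) (v : V) : ρ g (ρ g⁻¹ v) = v := by
  rw [← Module.End.mul_apply, ← map_mul, mul_inv_cancel, map_one, Module.End.one_apply]

theorem rho_injective (ρ : G →* End (ZMod p) V) (g : G) : Function.Injective (ρ g) :=
  Function.LeftInverse.injective (rho_inv_apply ρ g)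

/-- A normal subgroup fixing a nonzero vector is trivial. -/
theorem eq_bot_of_fixed (ρ : G →* End (ZMod p) V) (hρ : Function.Injective ρ) (hT : LineTrans ρ)
    (S : Subgroup G) (hS : S.Normal) {w : V} (hw0 : w ≠ 0) (hw : ∀ s ∈ S, ρ s w = w) : S = ⊥ := by
  classical
  rw [eq_bot_iff]
  intro s hs
  rw [Subgroup.mem_bot]
  apply hρ
  rw [map_one]
  ext v
  rw [Module.End.one_apply]
  have key : ∀ g : G, ρ s (ρ g w) = ρ g w := by
    intro g
    have hmem : g⁻¹ * s * g ∈ S := by
      have h0 := hS.conj_mem s hs g⁻¹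
      rwa [inv_inv] at h0
    have h1 : ρ (g⁻¹ * s * g) w = w := hw _ hmem
    have h2 : ρ s * ρ g = ρ g * ρ (g⁻¹ * s * g) := by
      rw [← map_mul, ← map_mul]
      congr 1
      group
    calc ρ s (ρ g w) = (ρ s * ρ g) w := rfl
      _ = (ρ g * ρ (g⁻¹ * s * g)) w := by rw [h2]
      _ = ρ g (ρ (g⁻¹ * s * g) w) := rfl
      _ = ρ g w := by rw [h1]
  by_cases hv : v = 0
  · rw [hv, map_zero]
  · obtain ⟨g, c, hg⟩ := hT w v hw0 hv
    have hc : c ≠ 0 := by
      rintro rfl
      rw [zero_smul] at hg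
      exact hw0 (rho_injective ρ g (hg.trans (map_zero _).symm))
    have h1 := key g
    rw [hg, map_smul] at h1
    exact smul_right_injective V hc h1

/-- `O_p` is trivial. -/
theorem eq_bot_of_isPGroup' (ρ : G →* End (ZMod p) V) (hρ : Function.Injective ρ) (hT : LineTrans ρ)
    (hpV : p ∣ Nat.card V) (S : Subgroup G) (hS : S.Normal) (hSp : IsPGroup p S) : S = ⊥ := by
  classical
  letI : MulAction S V := MulAction.compHom V (ρ.comp S.subtype)
  have hsmul : ∀ (s : S) (v : V), s • v = ρ s v := fun _ _ => rfl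
  obtain ⟨w, hw, hw0⟩ := hSp.exists_fixed_point_of_prime_dvd_card_of_fixed_point V hpV
    (a := (0 : V)) (by
      rw [MulAction.mem_fixedPoints]
      intro s
      rw [hsmul, map_zero])
  exact eq_bot_of_fixed ρ hρ hT S hS (Ne.symm hw0) fun s hs =>
    (MulAction.mem_fixedPoints.mp hw) ⟨s, hs⟩

section Count

theorem card_V {n : ℕ} (hn : finrank (ZMod p) V = n) : Nat.card V = p ^ n := by
  haveI : Module.Finite (ZMod p) V := Module.Finite.of_finite
  rw [Module.natCard_eq_pow_finrank (K := ZMod p), Nat.card_zmod, hn]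

theorem twoSub_nonempty {n : ℕ} (hn : finrank (ZMod p) V = n) (hn3 : 3 ≤ n) :
    Nonempty (TwoSub p V) := by
  by_contra h
  rw [not_nonempty_iff] at h
  have h1 := card_twoSub (p := p) V
  rw [Nat.card_of_isEmpty, zero_mul, card_V hn] at h1
  have hp1 := hp.out.one_lt
  have h2 : p ^ 1 < p ^ n := Nat.pow_lt_pow_right hp1 (by omega)
  rw [pow_one] at h2
  have h3 : 1 < p ^ n := by omega
  have h4 := Nat.mul_pos (Nat.sub_pos_of_lt h3) (Nat.sub_pos_of_lt h2)
  omega

/-- The number of planes divides the order of a plane transitive group. -/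
theorem card_twoSub_dvd {n : ℕ} (hn : finrank (ZMod p) V = n) (hn3 : 3 ≤ n)
    (ρ : G →* End (ZMod p) V) (hT2 : PlaneTrans ρ) : Nat.card (TwoSub p V) ∣ Nat.card G := by
  classical
  have hfr : ∀ (g : G) (U : TwoSub p V), finrank (ZMod p) (U.1.map (ρ g)) = 2 := by
    intro g U
    exact (Submodule.equivMapOfInjective (ρ g) (rho_injective ρ g) U.1).finrank_eq.symm.trans U.2
  letI act : MulAction G (TwoSub p V) :=
    { smul := fun g U => ⟨U.1.map (ρ g), hfr g U⟩
      one_smul := fun U => by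
        apply Subtype.ext
        show U.1.map (ρ 1) = U.1
        rw [map_one]
        exact Submodule.map_id _
      mul_smul := fun a b U => by
        apply Subtype.ext
        show U.1.map (ρ (a * b)) = (U.1.map (ρ b)).map (ρ a)
        rw [map_mul]
        exact Submodule.map_comp _ _ _ }
  haveI : MulAction.IsPretransitive G (TwoSub p V) := ⟨fun U W => by
    obtain ⟨g, hg⟩ := hT2 U.1 W.1 U.2 W.2
    exact ⟨g, Subtype.ext hg⟩⟩
  obtain ⟨a⟩ := twoSub_nonempty (p := p) hn hn3
  rw [← MulAction.index_stabilizer_of_transitive G a]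
  exact Subgroup.index_dvd_card _

/-- A primitive prime divisor for `n` or `n - 1` divides the number of planes. -/
theorem dvd_twoSub {n e r : ℕ} (hn : finrank (ZMod p) V = n) (hn3 : 3 ≤ n) (hr : r.Prime)
    (hprim : IsPrimitiveRoot (p : ZMod r) e) (he3 : 3 ≤ e) (he : e = n ∨ e + 1 = n) :
    r ∣ Nat.card (TwoSub p V) := by
  have hp1 : 1 ≤ p := hp.out.pos
  have hdvd := prim_dvd_iff hp1 hr hprim
  have h1 := card_twoSub (p := p) V
  rw [card_V hn] at h1
  have hsplit : p ^ n - p = p * (p ^ (n - 1) - 1) := by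
    rw [Nat.mul_sub, mul_one, ← pow_succ']
    congr 2
    omega
  have h2 : r ∣ (p ^ n - 1) * (p ^ n - p) := by
    rcases he with rfl | rfl
    · exact Dvd.dvd.mul_right ((hdvd _).mpr dvd_rfl) _
    · apply Dvd.dvd.mul_left
      rw [hsplit]
      apply Dvd.dvd.mul_left
      exact (hdvd _).mpr (by simp)
  rw [← h1] at h2
  have hnp := prim_not_dvd hr (by omega) hprim
  have h3 : ¬ r ∣ (p ^ 2 - 1) * (p ^ 2 - p) := by
    intro h
    rcases hr.dvd_mul.mp h with h | h
    · have := Nat.le_of_dvd (by norm_num) ((hdvd _).mp h)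
      omega
    · have hsplit2 : p ^ 2 - p = p * (p ^ 1 - 1) := by
        rw [Nat.mul_sub, mul_one, ← pow_succ']
      rw [hsplit2] at h
      rcases hr.dvd_mul.mp h with h | h
      · exact hnp h
      · have := Nat.le_of_dvd (by norm_num) ((hdvd _).mp h)
        omega
  exact (hr.dvd_mul.mp h2).resolve_right h3

end Count

section Fitting

/-- An element centralizing all `O_s(G)` lies in the Fitting subgroup. -/
theorem mem_fitting [Group.IsSolvable G] (x : G)
    (hcore : ∀ s : ℕ, s.Prime → ∀ y ∈ Cfsg.pCore s G, x * y * x⁻¹ = y) :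
    (∀ y ∈ Cfsg.fittingSubgroup G, x * y = y * x) ∧ x ∈ Cfsg.fittingSubgroup G := by
  have hF : ∀ y ∈ Cfsg.fittingSubgroup G, x * y = y * x := by
    intro y hy
    rw [Cfsg.Agent.Lib.Basic.PCore.fittingSubgroup_eq_iSup_pCore] at hy
    have hle : (⨆ s : (Nat.card G).primeFactors, Cfsg.pCore s.1 G) ≤
        Subgroup.centralizer ({x} : Set G) := by
      refine iSup_le fun s => ?_
      intro y hy
      rw [Subgroup.mem_centralizer_singleton_iff]
      have h1 := hcore s.1 (Nat.prime_of_mem_primeFactors s.2) y hy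
      rw [mul_inv_eq_iff_eq_mul] at h1
      exact h1.symm
    have h2 := hle hy
    rw [Subgroup.mem_centralizer_singleton_iff] at h2
    exact h2.symm
  refine ⟨hF, ?_⟩
  apply Cfsg.Agent.Lib.OddOrder.BG4.centralizer_fitting_le
  rw [Subgroup.mem_centralizer_iff]
  intro y hy
  exact (hF y hy).symm

/-- An element of large prime order centralizes `O_s(G)` for all `s ≠ r`. -/
theorem centralizes_pCore {r : ℕ} (hr : r.Prime) (hrp : r ≠ p) (ρ : G →* End (ZMod p) V)
    (hρ : Function.Injective ρ) (hT : LineTrans ρ) (hpV : p ∣ Nat.card V)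
    (hlarge : finrank (ZMod p) V + 1 < r) (x : G) (hxr : x ^ r = 1) (s : ℕ) (hs : s.Prime)
    (hsr : s ≠ r) : ∀ y ∈ Cfsg.pCore s G, x * y * x⁻¹ = y := by
  intro y hy
  haveI : Module.Finite (ZMod p) V := Module.Finite.of_finite
  haveI : Fact s.Prime := ⟨hs⟩
  have hSp : IsPGroup s (Cfsg.pCore s G) := Cfsg.Agent.Lib.Basic.PCore.pCore_isPGroup s
  have hSn : (Cfsg.pCore s G).Normal := inferInstance
  by_cases hsp : s = p
  · subst hsp
    have h1 := eq_bot_of_isPGroup' ρ hρ hT hpV _ hSn hSp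
    rw [h1, Subgroup.mem_bot] at hy
    rw [hy]
    group
  · have hcast : ((s : ℕ) : ZMod p) ≠ 0 := by
      intro h
      rw [ZMod.natCast_eq_zero_iff] at h
      exact hsp ((Nat.prime_dvd_prime_iff_eq hp.out hs).mp h).symm
    have hnorm : ∀ y ∈ Cfsg.pCore s G, x * y * x⁻¹ ∈ Cfsg.pCore s G :=
      fun y hy => hSn.conj_mem y hy x
    exact hρ (Cfsg.Agent.Lib.Perm.HHLarge.centralizes_of_large_general ρ hr hsr hcast x hxr hlarge _ hSp
      hnorm y hy)

/-- There is no element of large prime order `r`, with `p` of order `n - 1` modulo `r`. -/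
theorem false_of_pred {n r : ℕ} [Group.IsSolvable G] (hn : finrank (ZMod p) V = n) (hn3 : 3 ≤ n)
    (hr : r.Prime) (hrp : r ≠ p) (ρ : G →* End (ZMod p) V)
    (hρ : Function.Injective ρ) (hT : LineTrans ρ) (hlarge : n + 1 < r)
    (hprim : IsPrimitiveRoot (p : ZMod r) (n - 1)) (hdvd : r ∣ Nat.card G) : False := by
  classical
  haveI : Fact r.Prime := ⟨hr⟩
  have hVc := card_V hn
  have hpV : p ∣ Nat.card V := by
    rw [hVc]
    exact dvd_pow_self _ (by omega)
  obtain ⟨x, hx⟩ := exists_prime_orderOf_dvd_card' r hdvd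
  have hxr : x ^ r = 1 := by rw [← hx]; exact pow_orderOf_eq_one x
  -- `O_r(G) ≠ 1`
  have hne : Cfsg.pCore r G ≠ ⊥ := by
    intro hbot
    have hc : ∀ s : ℕ, s.Prime → ∀ y ∈ Cfsg.pCore s G, x * y * x⁻¹ = y := by
      intro s hs y hy
      by_cases hsr : s = r
      · subst hsr
        rw [hbot, Subgroup.mem_bot] at hy
        rw [hy]
        group
      · exact centralizes_pCore hr hrp ρ hρ hT hpV (by omega) x hxr s hs hsr y hy
    have hxF := (mem_fitting x hc).2
    have h1 := Cfsg.Agent.Lib.Basic.PCore.mem_pCore_of_normal_nilpotent inferInstance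
      Cfsg.Agent.Lib.Basic.PCore.fittingSubgroup_isNilpotent hxF hr (k := 1) (by rw [hx, pow_one])
    rw [hbot, Subgroup.mem_bot] at h1
    rw [h1, orderOf_one] at hx
    exact hr.one_lt.ne hx
  -- fixed points
  set D := Cfsg.pCore r G with hD
  have hDp : IsPGroup r D := Cfsg.Agent.Lib.Basic.PCore.pCore_isPGroup r
  have hDn : D.Normal := inferInstance
  letI : MulAction D V := MulAction.compHom V (ρ.comp D.subtype)
  have hsmul : ∀ (s : D) (v : V), s • v = ρ s v := fun _ _ => rfl
  have h0fix : (0 : V) ∈ MulAction.fixedPoints D V := by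
    rw [MulAction.mem_fixedPoints]
    intro s
    rw [hsmul, map_zero]
  have hmod := hDp.card_modEq_card_fixedPoints V
  have honly : ∀ w ∈ MulAction.fixedPoints D V, w = 0 := by
    intro w hw
    by_contra hw0
    exact hne (eq_bot_of_fixed ρ hρ hT D hDn hw0 fun s hs =>
      (MulAction.mem_fixedPoints.mp hw) ⟨s, hs⟩)
  have hone : Nat.card (MulAction.fixedPoints D V) = 1 := by
    rw [Nat.card_eq_one_iff_unique]
    refine ⟨⟨fun a b => Subtype.ext ((honly a a.2).trans (honly b b.2).symm)⟩, ⟨⟨0, h0fix⟩⟩⟩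
  rw [hone, hVc] at hmod
  have h2 : (p : ZMod r) ^ n = 1 := by
    have := (ZMod.natCast_eq_natCast_iff _ _ r).mpr hmod
    simpa using this
  have h3 := hprim.dvd_of_pow_eq_one _ h2
  have h4 : n - 1 ∣ 1 := by
    have h5 : n - 1 ∣ n - (n - 1) := Nat.dvd_sub h3 dvd_rfl
    have h6 : n - (n - 1) = 1 := by omega
    rwa [h6] at h5
  have := Nat.le_of_dvd (by norm_num) h4
  omega

/-- The degree is prime. -/
theorem prime_of_trans {n : ℕ} [Group.IsSolvable G] (hn : finrank (ZMod p) V = n) (hn3 : 3 ≤ n)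
    (ρ : G →* End (ZMod p) V) (hρ : Function.Injective ρ) (hT : LineTrans ρ) (hT2 : PlaneTrans ρ) :
    n.Prime := by
  by_contra hnp
  have hn4 : 4 ≤ n := by
    by_contra h
    have : n = 3 := by omega
    rw [this] at hnp
    exact hnp Nat.prime_three
  have hne : ¬ (p = 2 ∧ n - 1 = 6) := by
    rintro ⟨-, h⟩
    have : n = 7 := by omega
    rw [this] at hnp
    exact hnp (by norm_num)
  obtain ⟨r, hr, hprim⟩ := exists_prim hp.out (by omega : 3 ≤ n - 1) hne
  have hrp : r ≠ p := by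
    rintro rfl
    exact prim_not_dvd hr (by omega) hprim dvd_rfl
  have hd := prim_dvd_sub_one hr (by omega) hprim
  obtain ⟨k, hk⟩ := hd
  have hr2 := hr.two_le
  have hlarge : n + 1 < r := by
    have hk0 : k ≠ 0 := by
      rintro rfl
      omega
    have hk1 : k ≠ 1 := by
      rintro rfl
      have : r = n := by omega
      rw [this] at hr
      exact hnp hr
    have hk2 : 2 ≤ k := by omega
    have : (n - 1) * 2 ≤ (n - 1) * k := Nat.mul_le_mul_left _ hk2
    omega
  have hdvd : r ∣ Nat.card G :=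
    (dvd_twoSub hn hn3 hr hprim (by omega) (Or.inr (by omega))).trans (card_twoSub_dvd hn hn3 ρ hT2)
  exact false_of_pred hn hn3 hr hrp ρ hρ hT hlarge hprim hdvd

end Fitting

section Coords

/-- The centralizer algebra of an element of primitive prime divisor order is normalized. -/
theorem normalizes_adjoin' {r n : ℕ} [hr : Fact r.Prime] [Group.IsSolvable G] (hrp : ¬ r ∣ p)
    (hppd : ∀ i, 0 < i → r ∣ p ^ i - 1 → n ≤ i) (hf : finrank (ZMod p) V = n) (hf0 : 0 < n)
    (hlarge : n + 1 < r)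
    (ρ : G →* End (ZMod p) V) (hρ : Function.Injective ρ) (hT : LineTrans ρ) (hpV : p ∣ Nat.card V)
    (x : G) (hx : orderOf x = r) (g : G) {c : End (ZMod p) V}
    (hc : c ∈ Algebra.adjoin (ZMod p) ({ρ x} : Set (End (ZMod p) V))) :
    ρ g * c * ρ g⁻¹ ∈ Algebra.adjoin (ZMod p) ({ρ x} : Set (End (ZMod p) V)) := by
  classical
  haveI : Module.Finite (ZMod p) V := Module.Finite.of_finite
  have hxr : x ^ r = 1 := by rw [← hx]; exact pow_orderOf_eq_one x
  have hz : (ρ x) ^ r = 1 := by rw [← map_pow, hxr, map_one]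
  have hz1 : ρ x ≠ 1 := by
    intro h
    have h1 : x = 1 := hρ (h.trans (map_one ρ).symm)
    rw [h1, orderOf_one] at hx
    exact hr.out.one_lt.ne hx
  have hrp' : r ≠ p := fun h => hrp (h ▸ dvd_rfl)
  -- `x` centralizes every `O_s(G)`
  have hcore : ∀ (s : ℕ), s.Prime → ∀ y ∈ Cfsg.pCore s G, x * y * x⁻¹ = y := by
    intro s hs y hy
    haveI : Fact s.Prime := ⟨hs⟩
    have hSp : IsPGroup s (Cfsg.pCore s G) := Cfsg.Agent.Lib.Basic.PCore.pCore_isPGroup s
    have hSn : (Cfsg.pCore s G).Normal := inferInstance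
    by_cases hsr : s = r
    · subst hsr
      have hxp : IsPGroup s (Subgroup.zpowers x) := by
        rw [IsPGroup.iff_card, Nat.card_zpowers, hx]
        exact ⟨1, (pow_one s).symm⟩
      have hT2 : IsPGroup s (Cfsg.pCore s G ⊔ Subgroup.zpowers x : Subgroup G) :=
        IsPGroup.to_sup_of_normal_left hSp hxp
      have h1 := commute_of_isPGroup hrp hppd hf hf0 ρ hρ _ hT2
        (Subgroup.mem_sup_right (Subgroup.mem_zpowers x)) (Subgroup.mem_sup_left hy)
      rw [h1]
      group
    · exact centralizes_pCore hr.out hrp' ρ hρ hT hpV (by omega) x hxr s hs hsr y hy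
  -- hence the Fitting subgroup
  obtain ⟨hF, hxF⟩ := mem_fitting x hcore
  have hFn : (Cfsg.fittingSubgroup G).Normal := inferInstance
  have hconj : ∀ g : G, Commute (ρ (g * x * g⁻¹)) (ρ x) := by
    intro g
    have h1 := hF _ (hFn.conj_mem x hxF g)
    show _ * _ = _ * _
    rw [← map_mul, ← map_mul, h1]
  have hgen := mem_adjoin_of_commute hrp hppd hf hf0 (ρ x) hz hz1 (hconj g)
  induction hc using Algebra.adjoin_induction with
  | mem y hy =>
    rw [Set.mem_singleton_iff] at hy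
    rw [hy, ← map_mul, ← map_mul]
    exact hgen
  | algebraMap a =>
    rw [← Algebra.commutes a (ρ g), mul_assoc, ← map_mul, mul_inv_cancel, map_one, mul_one]
    exact Subalgebra.algebraMap_mem _ a
  | add y z _ _ hy hz' =>
    rw [mul_add, add_mul]
    exact Subalgebra.add_mem _ hy hz'
  | mul y z _ _ hy hz' =>
    have h1 : ρ g * (y * z) * ρ g⁻¹ = (ρ g * y * ρ g⁻¹) * (ρ g * z * ρ g⁻¹) := by
      have h2 : ρ g⁻¹ * ρ g = 1 := by rw [← map_mul, inv_mul_cancel, map_one]
      calc ρ g * (y * z) * ρ g⁻¹ = ρ g * y * 1 * (z * ρ g⁻¹) := by noncomm_ring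
        _ = ρ g * y * (ρ g⁻¹ * ρ g) * (z * ρ g⁻¹) := by rw [h2]
        _ = _ := by noncomm_ring
    rw [h1]
    exact Subalgebra.mul_mem _ hy hz'

/-- **Singer coordinates.** -/
theorem exists_singer' {f : ℕ} (hf : finrank (ZMod p) V = f) (hf3 : 3 ≤ f) (hfp : f.Prime)
    [Group.IsSolvable G]
    (ρ : G →* End (ZMod p) V) (hρ : Function.Injective ρ) (hT : LineTrans ρ) (hT2 : PlaneTrans ρ) :
    ∃ (A : V ≃+ V) (v₀ : V), v₀ ≠ 0 ∧ (∀ w : V, w ≠ 0 → ∃ k : ℕ, A^[k] v₀ = w) ∧
      ∀ g : G, ∃ j : ℕ, ∀ w, ρ g (A w) = A^[j] (ρ g w) := by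
  classical
  haveI : Module.Finite (ZMod p) V := Module.Finite.of_finite
  have hf0 : 0 < f := by omega
  obtain ⟨u, hu⟩ : ∃ u : V, u ≠ 0 := by
    by_contra hcon
    push Not at hcon
    haveI : Subsingleton V := ⟨fun a b => by rw [hcon a, hcon b]⟩
    rw [finrank_zero_of_subsingleton] at hf
    omega
  have hne : ¬ (p = 2 ∧ f = 6) := by
    rintro ⟨-, rfl⟩
    exact absurd hfp (by norm_num)
  obtain ⟨r, hr, hprim⟩ := exists_prim hp.out hf3 hne
  haveI hrF : Fact r.Prime := ⟨hr⟩
  have hrp : ¬ r ∣ p := prim_not_dvd hr hf0 hprim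
  have hppd : ∀ i, 0 < i → r ∣ p ^ i - 1 → f ≤ i := fun i hi0 hi =>
    Nat.le_of_dvd hi0 ((prim_dvd_iff hp.out.pos hr hprim i).mp hi)
  have hVcard : Nat.card V = p ^ f := card_V hf
  have hpV : p ∣ Nat.card V := by
    rw [hVcard]
    exact dvd_pow_self _ (by omega)
  have hlarge : f + 1 < r := by
    obtain ⟨k, hk⟩ := prim_dvd_sub_one hr hf0 hprim
    have hr2 := hr.two_le
    have hk0 : k ≠ 0 := by
      rintro rfl
      omega
    have hk1 : k ≠ 1 := by
      rintro rfl
      have hr' : r = f + 1 := by omega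
      have hfodd : Odd f := hfp.odd_of_ne_two (by omega)
      have hev : Even r := by
        rw [hr']
        exact hfodd.add_one
      have := hr.eq_two_or_odd'
      rcases this with h | h
      · omega
      · exact (Nat.not_even_iff_odd.mpr h) hev
    have hk2 : 2 ≤ k := by omega
    have : f * 2 ≤ f * k := Nat.mul_le_mul_left _ hk2
    omega
  have hdvd : r ∣ Nat.card G :=
    (dvd_twoSub hf hf3 hr hprim hf3 (Or.inl rfl)).trans (card_twoSub_dvd hf hf3 ρ hT2)
  obtain ⟨x, hx⟩ := exists_prime_orderOf_dvd_card' r hdvd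
  have hxr : x ^ r = 1 := by rw [← hx]; exact pow_orderOf_eq_one x
  have hz : (ρ x) ^ r = 1 := by rw [← map_pow, hxr, map_one]
  have hz1 : ρ x ≠ 1 := by
    intro h
    have h1 : x = 1 := hρ (h.trans (map_one ρ).symm)
    rw [h1, orderOf_one] at hx
    exact hr.one_lt.ne hx
  have h10 : (1 : End (ZMod p) V) ≠ 0 := by
    intro h
    apply hu
    have := congrArg (fun c : End (ZMod p) V => c u) h
    simpa using this
  obtain ⟨c₀, hc₀, hc₀0, hgen⟩ := exists_generator (Algebra.adjoin (ZMod p) ({ρ x} : Set (End (ZMod p) V)))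
    (fun a ha b hb => (commute_adjoin ha hb).eq) h10 (by
      intro a ha b hb hab
      by_cases ha0 : a = 0
      · exact Or.inl ha0
      · right
        ext w
        have h1 : a (b w) = 0 := by
          have := congrArg (fun c : End (ZMod p) V => c w) hab
          simpa using this
        rw [eq_zero_of_mem_adjoin hrp hppd hf hf0 (ρ x) hz hz1 ha ha0 _ h1]
        rfl)
  have hc₀inj : Function.Injective c₀ := by
    rw [injective_iff_map_eq_zero]
    exact eq_zero_of_mem_adjoin hrp hppd hf hf0 (ρ x) hz hz1 hc₀ hc₀0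
  let A : V ≃+ V := AddEquiv.ofBijective c₀.toAddMonoidHom ⟨hc₀inj, Finite.surjective_of_injective hc₀inj⟩
  have hA : ∀ w, A w = c₀ w := fun _ => rfl
  have hAk : ∀ (k : ℕ) (w : V), A^[k] w = (c₀ ^ k) w := by
    intro k
    induction k with
    | zero => intro w; rfl
    | succ k ih =>
      intro w
      rw [Function.iterate_succ_apply, ih, hA, pow_succ, Module.End.mul_apply]
  refine ⟨A, u, hu, fun w hw => ?_, fun g => ?_⟩
  · obtain ⟨c, hc, hcu⟩ := exists_mem_adjoin hrp hppd hf hf0 (ρ x) hz hz1 hu w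
    have hc0 : c ≠ 0 := by
      rintro rfl
      exact hw hcu.symm
    obtain ⟨k, rfl⟩ := hgen c hc hc0
    exact ⟨k, by rw [hAk, hcu]⟩
  · have hc1 := normalizes_adjoin' hrp hppd hf hf0 hlarge ρ hρ hT hpV x hx g hc₀
    have hinv : ρ g⁻¹ * ρ g = 1 := by rw [← map_mul, inv_mul_cancel, map_one]
    have hinv' : ρ g * ρ g⁻¹ = 1 := by rw [← map_mul, mul_inv_cancel, map_one]
    have hc10 : ρ g * c₀ * ρ g⁻¹ ≠ 0 := by
      intro h
      apply hc₀0
      calc c₀ = (ρ g⁻¹ * ρ g) * c₀ * (ρ g⁻¹ * ρ g) := by rw [hinv, one_mul, mul_one]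
        _ = ρ g⁻¹ * (ρ g * c₀ * ρ g⁻¹) * ρ g := by noncomm_ring
        _ = 0 := by rw [h, mul_zero, zero_mul]
    obtain ⟨j, hj⟩ := hgen _ hc1 hc10
    refine ⟨j, fun w => ?_⟩
    rw [hAk, ← hj, hA]
    show ρ g (c₀ w) = ρ g (c₀ (ρ g⁻¹ (ρ g w)))
    congr 2
    rw [← Module.End.mul_apply, hinv, Module.End.one_apply]

/-- Coordinates in the Galois field. -/
theorem exists_coords' {f : ℕ} (hf : finrank (ZMod p) V = f) (hf3 : 3 ≤ f) (hfp : f.Prime)
    [Group.IsSolvable G]
    (ρ : G →* End (ZMod p) V) (hρ : Function.Injective ρ) (hT : LineTrans ρ) (hT2 : PlaneTrans ρ) :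
    ∃ e : V ≃+ GaloisField p f, ∀ g : G, ∃ (c : (GaloisField p f)ˣ) (σ : GaloisField p f ≃+* GaloisField p f),
      ∀ w, e (ρ g w) = c * σ (e w) := by
  haveI : Module.Finite (ZMod p) V := Module.Finite.of_finite
  have hf0 : f ≠ 0 := by omega
  obtain ⟨A, v₀, hv₀, htr, hnorm⟩ := exists_singer' hf hf3 hfp ρ hρ hT hT2
  have hc : Nat.card (GaloisField p f) = Nat.card V := by
    rw [GaloisField.card p f hf0, Module.natCard_eq_pow_finrank (K := ZMod p), Nat.card_zmod, hf]
  haveI : Finite (GaloisField p f) := Nat.finite_of_card_ne_zero (by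
    rw [GaloisField.card p f hf0]
    exact pow_ne_zero _ hp.out.ne_zero)
  obtain ⟨e, -, he⟩ := Cfsg.Agent.Lib.Perm.SingerCoords.exists_coords hc A v₀ hv₀ htr
  refine ⟨e, fun g => ?_⟩
  obtain ⟨j, hj⟩ := hnorm g
  let B : V ≃+ V :=
    { toFun := ρ g
      invFun := ρ g⁻¹
      left_inv := fun w => by
        rw [← Module.End.mul_apply, ← map_mul, inv_mul_cancel, map_one, Module.End.one_apply]
      right_inv := fun w => by
        rw [← Module.End.mul_apply, ← map_mul, mul_inv_cancel, map_one, Module.End.one_apply]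
      map_add' := map_add _ }
  have hB : ∀ w, B w = ρ g w := fun _ => rfl
  obtain ⟨σ, hσ⟩ := he B j (fun w => hj w)
  have hne : e (B v₀) ≠ 0 := by
    intro h
    exact hv₀ ((map_eq_zero_iff B B.injective).mp ((map_eq_zero_iff e e.injective).mp h))
  exact ⟨Units.mk0 _ hne, σ, fun w => hσ w⟩

end Coords

section Bound

/-- The automorphism group of the Galois field. -/
theorem card_ringEquiv_le {n : ℕ} (hn : n ≠ 0) :
    Nat.card (GaloisField p n ≃+* GaloisField p n) ≤ n := by
  classical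
  haveI : Finite (GaloisField p n) := Nat.finite_of_card_ne_zero (by
    rw [GaloisField.card p n hn]
    exact pow_ne_zero _ hp.out.ne_zero)
  have hfix : ∀ (σ : GaloisField p n ≃+* GaloisField p n) (r : ZMod p),
      σ (algebraMap (ZMod p) (GaloisField p n) r) = algebraMap (ZMod p) (GaloisField p n) r := by
    intro σ r
    exact RingHom.congr_fun (Subsingleton.elim ((σ : GaloisField p n →+* GaloisField p n).comp
      (algebraMap (ZMod p) (GaloisField p n))) (algebraMap (ZMod p) (GaloisField p n))) r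
  let F : (GaloisField p n ≃+* GaloisField p n) → (GaloisField p n ≃ₐ[ZMod p] GaloisField p n) :=
    fun σ => AlgEquiv.ofRingEquiv (f := σ) (hfix σ)
  have hF : Function.Injective F := by
    intro σ τ h
    ext x
    exact congrArg (fun a : GaloisField p n ≃ₐ[ZMod p] GaloisField p n => a x) h
  haveI : FiniteDimensional (ZMod p) (GaloisField p n) := Module.Finite.of_finite
  have h1 := Nat.card_le_card_of_injective F hF
  rw [IsGalois.card_aut_eq_finrank, GaloisField.finrank p hn] at h1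
  exact h1

/-- The count of planes in `ΓL₁`. -/
theorem card_bound {n : ℕ} (hn : finrank (ZMod p) V = n) (hn3 : 3 ≤ n)
    (e : V ≃+ GaloisField p n) (ρ : G →* End (ZMod p) V) (hT2 : PlaneTrans ρ)
    (he : ∀ g : G, ∃ (c : (GaloisField p n)ˣ) (σ : GaloisField p n ≃+* GaloisField p n),
      ∀ w, e (ρ g w) = c * σ (e w)) :
    Nat.card (TwoSub p V) * (p - 1) ≤ (p ^ n - 1) * n := by
  classical
  have hn0 : n ≠ 0 := by omega
  haveI : Finite (GaloisField p n) := Nat.finite_of_card_ne_zero (by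
    rw [GaloisField.card p n hn0]
    exact pow_ne_zero _ hp.out.ne_zero)
  choose cc ss hcs using he
  obtain ⟨S₀⟩ := twoSub_nonempty (p := p) hn hn3
  choose gU hgU using fun U : TwoSub p V => hT2 S₀.1 U.1 S₀.2 U.2
  let ι : (ZMod p)ˣ →* (GaloisField p n)ˣ := Units.map (algebraMap (ZMod p) (GaloisField p n))
  have hι : ∀ d : (ZMod p)ˣ, ((ι d : (GaloisField p n)ˣ) : GaloisField p n) =
      algebraMap (ZMod p) (GaloisField p n) d := fun _ => rfl
  have he_smul : ∀ (a : ZMod p) (v : V), e (a • v) = algebraMap (ZMod p) (GaloisField p n) a * e v := by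
    intro a v
    have h1 := (e.toAddMonoidHom.toZModLinearMap p).map_smul a v
    rw [Algebra.smul_def] at h1
    exact h1
  let F : TwoSub p V × (ZMod p)ˣ → (GaloisField p n)ˣ × (GaloisField p n ≃+* GaloisField p n) :=
    fun q => (cc (gU q.1) * ι q.2, ss (gU q.1))
  have hF : Function.Injective F := by
    rintro ⟨U, d⟩ ⟨W, d'⟩ h
    have h1 : cc (gU U) * ι d = cc (gU W) * ι d' := congrArg Prod.fst h
    have h2 : ss (gU U) = ss (gU W) := congrArg Prod.snd h
    have hUW : U = W := by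
      apply Subtype.ext
      apply Submodule.eq_of_le_of_finrank_eq
      · intro u hu
        rw [← hgU U] at hu
        obtain ⟨w, hw, rfl⟩ := hu
        have h3 : cc (gU U) = cc (gU W) * ι (d' * d⁻¹) := by
          rw [map_mul, map_inv, ← mul_assoc, ← h1, mul_inv_cancel_right]
        have h4 : ρ (gU U) w = ((d' * d⁻¹ : (ZMod p)ˣ) : ZMod p) • ρ (gU W) w := by
          apply e.injective
          rw [he_smul, hcs, hcs, h2, h3, Units.val_mul, hι]
          ring
        show ρ (gU U) w ∈ W.1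
        rw [h4]
        apply W.1.smul_mem
        rw [← hgU W]
        exact ⟨w, hw, rfl⟩
      · rw [U.2, W.2]
    subst hUW
    have h5 : ι d = ι d' := mul_left_cancel h1
    have h6 : algebraMap (ZMod p) (GaloisField p n) d = algebraMap (ZMod p) (GaloisField p n) d' :=
      congrArg Units.val h5
    have h7 : d = d' := Units.ext ((algebraMap (ZMod p) (GaloisField p n)).injective h6)
    rw [h7]
  haveI : Finite (GaloisField p n ≃+* GaloisField p n) :=
    Finite.of_injective (fun σ => (σ : GaloisField p n → GaloisField p n)) DFunLike.coe_injective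
  have h1 := Nat.card_le_card_of_injective F hF
  rw [Nat.card_prod, Nat.card_prod, Nat.card_units, Nat.card_units, GaloisField.card p n hn0, Nat.card_zmod] at h1
  calc Nat.card (TwoSub p V) * (p - 1) ≤ (p ^ n - 1) * Nat.card (GaloisField p n ≃+* GaloisField p n) := h1
    _ ≤ (p ^ n - 1) * n := Nat.mul_le_mul_left _ (card_ringEquiv_le hn0)

theorem three_pow_gt (k : ℕ) (hk : 2 ≤ k) : k + 3 < 3 ^ k := by
  induction k, hk using Nat.le_induction with
  | base => norm_num
  | succ k hk ih =>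
    rw [pow_succ]
    omega

theorem two_pow_gt (k : ℕ) (hk : 3 ≤ k) : k + 3 < 2 ^ k := by
  induction k, hk using Nat.le_induction with
  | base => norm_num
  | succ k hk ih =>
    rw [pow_succ]
    omega

/-- The arithmetic. -/
theorem arith {p n Y : ℕ} (hp : p.Prime) (hn3 : 3 ≤ n) (hnp : n.Prime)
    (h1 : Y * ((p ^ 2 - 1) * (p ^ 2 - p)) = (p ^ n - 1) * (p ^ n - p))
    (h2 : Y * (p - 1) ≤ (p ^ n - 1) * n) : n = 3 ∨ (n = 5 ∧ p = 2) := by
  by_contra hcon
  push Not at hcon
  have hp2 := hp.two_le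
  have hn3' : n ≠ 3 := hcon.1
  have hn4 : n ≠ 4 := by
    rintro rfl
    exact absurd hnp (by norm_num)
  obtain ⟨k, rfl⟩ : ∃ k, n = k + 3 := ⟨n - 3, by omega⟩
  have hk2 : 2 ≤ k := by omega
  obtain ⟨a, rfl⟩ : ∃ a, p = a + 1 := ⟨p - 1, by omega⟩
  have ha : 1 ≤ a := by omega
  have hpk : 1 ≤ (a + 1) ^ k := Nat.one_le_pow _ _ (by omega)
  -- write things out
  have e1 : (a + 1) ^ 2 - 1 = a * (a + 2) := by
    have : (a + 1) ^ 2 = a * (a + 2) + 1 := by ring
    omega
  have e2 : (a + 1) ^ 2 - (a + 1) = (a + 1) * a := by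
    have : (a + 1) ^ 2 = (a + 1) * a + (a + 1) := by ring
    omega
  have hA : 1 ≤ (a + 1) ^ (k + 3) := Nat.one_le_pow _ _ (by omega)
  set A := (a + 1) ^ (k + 3) - 1 with hAdef
  have hApos : 0 < A := by
    have : (a + 1) ^ (k + 3) = (a + 1) ^ k * (a + 1) * (a + 1) * (a + 1) := by ring
    have h5 : 2 * 2 * 2 ≤ (a + 1) ^ k * (a + 1) * (a + 1) * (a + 1) := by
      have h6 : 2 * 2 ≤ (a + 1) * (a + 1) := Nat.mul_le_mul (by omega) (by omega)
      have h7 : 1 * (2 * 2) ≤ (a + 1) ^ k * ((a + 1) * (a + 1)) := Nat.mul_le_mul hpk h6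
      have h8 : 1 * (2 * 2) * 2 ≤ (a + 1) ^ k * ((a + 1) * (a + 1)) * (a + 1) :=
        Nat.mul_le_mul h7 (by omega)
      calc 2 * 2 * 2 = 1 * (2 * 2) * 2 := by norm_num
        _ ≤ _ := h8
        _ = _ := by ring
    omega
  set B := (a + 1) ^ (k + 2) - 1 with hBdef
  have hB1 : 1 ≤ (a + 1) ^ (k + 2) := Nat.one_le_pow _ _ (by omega)
  have e3 : (a + 1) ^ (k + 3) - (a + 1) = (a + 1) * B := by
    rw [hBdef, Nat.mul_sub, mul_one, ← pow_succ']
  rw [e1, e2, e3] at h1
  have h3 : Y * (a * (a + 2) * a) = A * B := by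
    apply Nat.eq_of_mul_eq_mul_left (by omega : 0 < a + 1)
    calc (a + 1) * (Y * (a * (a + 2) * a)) = Y * (a * (a + 2) * ((a + 1) * a)) := by ring
      _ = A * ((a + 1) * B) := h1
      _ = (a + 1) * (A * B) := by ring
  have h4 : A * B ≤ A * ((k + 3) * (a * (a + 2))) := by
    rw [← h3]
    have h5 : a + 1 - 1 = a := by omega
    rw [h5] at h2
    calc Y * (a * (a + 2) * a) = (Y * a) * (a * (a + 2)) := by ring
      _ ≤ (A * (k + 3)) * (a * (a + 2)) := Nat.mul_le_mul_right _ h2
      _ = _ := by ring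
  have h5 : B ≤ (k + 3) * (a * (a + 2)) := Nat.le_of_mul_le_mul_left h4 hApos
  have h6 : a * (a + 2) * (a + 1) ^ k ≤ B := by
    have h7 : (a + 1) ^ (k + 2) = (a * (a + 2) + 1) * (a + 1) ^ k := by ring
    rw [hBdef, h7]
    have h8 : (a * (a + 2) + 1) * (a + 1) ^ k = a * (a + 2) * (a + 1) ^ k + (a + 1) ^ k := by ring
    omega
  have h7 : a * (a + 2) * (a + 1) ^ k ≤ a * (a + 2) * (k + 3) := by
    calc _ ≤ B := h6
      _ ≤ _ := h5
      _ = _ := by ring
  have h8 : (a + 1) ^ k ≤ k + 3 :=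
    Nat.le_of_mul_le_mul_left h7 (Nat.mul_pos (by omega) (by omega))
  by_cases ha1 : a = 1
  · subst ha1
    have hk3 : 3 ≤ k := by
      by_contra h
      have : k = 2 := by omega
      subst this
      exact hcon.2 rfl rfl
    have := two_pow_gt k hk3
    norm_num at h8
    omega
  · have h9 : 3 ^ k ≤ (a + 1) ^ k := Nat.pow_le_pow_left (by omega) k
    have := three_pow_gt k hk2
    omega

/-- **The main theorem.** -/
theorem main {n : ℕ} [Group.IsSolvable G] (hn : finrank (ZMod p) V = n) (hn3 : 3 ≤ n)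
    (ρ : G →* End (ZMod p) V) (hρ : Function.Injective ρ) (hT : LineTrans ρ) (hT2 : PlaneTrans ρ) :
    (n = 3 ∨ (n = 5 ∧ p = 2)) ∧ ∃ e : V ≃+ GaloisField p n, ∀ g : G,
      ∃ (c : (GaloisField p n)ˣ) (σ : GaloisField p n ≃+* GaloisField p n),
        ∀ w, e (ρ g w) = c * σ (e w) := by
  have hnp := prime_of_trans hn hn3 ρ hρ hT hT2
  obtain ⟨e, he⟩ := exists_coords' hn hn3 hnp ρ hρ hT hT2
  refine ⟨?_, e, he⟩
  have h1 := card_twoSub (p := p) V
  rw [card_V hn] at h1
  exact arith hp.out hn3 hnp h1 (card_bound hn hn3 e ρ hT2 he)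

end Bound

end Cfsg.Agent.Lib.Perm.Gamma1
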