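import Mathlib

/-!
Descent scheme for multiple transitivity: if every pointwise stabilizer of an `r`-subset is transitive
on the complement, and there are at least `r + 2` points, then the group is `(r+1)`-transitive.
Also two counting lemmas for invariant finsets.
-/

set_option autoImplicit false

namespace Cfsg.Agent.Lib.Perm.Gleason

section Counting

variable {α Q : Type*} [DecidableEq α] [Group Q] [MulAction Q α]

/-- An invariant finset has, modulo `p`, as many points as fixed points of a `p`-group. -/
theorem card_modEq_filter_fixed [Finite α] {p : ℕ} [Fact p.Prime] (hQ : IsPGroup p Q) (O : Finset α)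
    (hO : ∀ (g : Q), ∀ y ∈ O, g • y ∈ O) [DecidablePred (· ∈ MulAction.fixedPoints Q α)] :
    O.card ≡ (O.filter (· ∈ MulAction.fixedPoints Q α)).card [MOD p] := by
  classical
  let O' : SubMulAction Q α := ⟨(O : Set α), fun g y hy => hO g y hy⟩
  have h := hQ.card_modEq_card_fixedPoints (α := O')
  have h1 : Nat.card O' = O.card := by
    rw [show Nat.card O' = Nat.card (O : Set α) from rfl]
    simp
  have h2 : Nat.card (MulAction.fixedPoints Q O') = (O.filter (· ∈ MulAction.fixedPoints Q α)).card := by
    have e : MulAction.fixedPoints Q O' ≃ {y // y ∈ O.filter (· ∈ MulAction.fixedPoints Q α)} :=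
      { toFun := fun y => ⟨y.1.1, Finset.mem_filter.mpr ⟨y.1.2, fun g => congrArg Subtype.val (y.2 g)⟩⟩
        invFun := fun y => ⟨⟨y.1, (Finset.mem_filter.mp y.2).1⟩, fun g => Subtype.ext ((Finset.mem_filter.mp y.2).2 g)⟩
        left_inv := fun y => rfl
        right_inv := fun y => rfl }
    rw [Nat.card_congr e, Nat.card_eq_fintype_card, Fintype.card_coe]
  rw [h1, h2] at h
  exact h

/-- An invariant finset all of whose orbits have size `d` has cardinality divisible by `d`. -/
theorem dvd_card_of_orbits [Finite α] (d : ℕ) (O : Finset α) (hO : ∀ (g : Q), ∀ y ∈ O, g • y ∈ O)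
    (horb : ∀ y ∈ O, Nat.card (MulAction.orbit Q y) = d) : d ∣ O.card := by
  classical
  induction O using Finset.strongInduction with
  | H O ih =>
  rcases O.eq_empty_or_nonempty with rfl | ⟨x, hx⟩
  · simp
  haveI := Fintype.ofFinite α
  let orb : Finset α := (MulAction.orbit Q x).toFinset
  have horbsub : orb ⊆ O := by
    intro y hy
    rw [Set.mem_toFinset] at hy
    obtain ⟨g, rfl⟩ := hy
    exact hO g x hx
  have hcard : orb.card = d := by
    rw [← horb x hx, Nat.card_eq_fintype_card, Set.toFinset_card]
  have hss : O \ orb ⊂ O := by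
    refine Finset.sdiff_ssubset horbsub ?_
    exact ⟨x, Set.mem_toFinset.mpr (MulAction.mem_orbit_self x)⟩
  have hinv : ∀ (g : Q), ∀ y ∈ O \ orb, g • y ∈ O \ orb := by
    intro g y hy
    rw [Finset.mem_sdiff] at hy ⊢
    refine ⟨hO g y hy.1, fun h => hy.2 ?_⟩
    rw [Set.mem_toFinset] at h ⊢
    obtain ⟨k, hk⟩ := h
    refine ⟨g⁻¹ * k, ?_⟩
    change (g⁻¹ * k) • x = y
    rw [mul_smul]
    have hk' : k • x = g • y := hk
    rw [hk', inv_smul_smul]
  have := ih (O \ orb) hss hinv (fun y hy => horb y (Finset.mem_sdiff.mp hy).1)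
  rw [← Finset.card_sdiff_add_card_eq_card horbsub, hcard]
  exact Dvd.dvd.add this (dvd_refl _)

end Counting

section Trans

variable {α : Type*} [Fintype α] [DecidableEq α] (G : Subgroup (Equiv.Perm α))

/-- The pointwise stabilizer in `G` of `t` is transitive on the complement of `t`. -/
def TransOff (t : Finset α) : Prop :=
  ∀ x y, x ∉ t → y ∉ t → ∃ g : G, (∀ a ∈ t, g • a = a) ∧ g • x = y

variable {G}

theorem transOff_descend {j : ℕ} (hj : j + 3 ≤ Fintype.card α)
    (h : ∀ t : Finset α, t.card = j + 1 → TransOff G t) (t : Finset α) (ht : t.card = j) :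
    TransOff G t := by
  intro x y hx hy
  by_cases hxy : x = y
  · exact ⟨1, fun a _ => one_smul _ _, by rw [hxy, one_smul]⟩
  have hcard : (insert x (insert y t)).card < Fintype.card α := by
    have := Finset.card_insert_le x (insert y t)
    have := Finset.card_insert_le y t
    omega
  obtain ⟨z, hz⟩ : ∃ z, z ∉ insert x (insert y t) := by
    by_contra hcon
    push Not at hcon
    have : insert x (insert y t) = Finset.univ := Finset.eq_univ_iff_forall.mpr hcon
    rw [this, Finset.card_univ] at hcard
    exact lt_irrefl _ hcard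
  simp only [Finset.mem_insert, not_or] at hz
  obtain ⟨hzx, hzy, hzt⟩ := hz
  have hT := h (insert z t) (by rw [Finset.card_insert_of_notMem hzt, ht])
  obtain ⟨g, hg1, hg2⟩ := hT x y (by
    simp only [Finset.mem_insert, not_or]
    exact ⟨Ne.symm hzx, hx⟩) (by
    simp only [Finset.mem_insert, not_or]
    exact ⟨Ne.symm hzy, hy⟩)
  exact ⟨g, fun a ha => hg1 a (Finset.mem_insert_of_mem ha), hg2⟩

theorem transOff_of_le {r : ℕ} (hr : r + 2 ≤ Fintype.card α)
    (h : ∀ t : Finset α, t.card = r → TransOff G t) :
    ∀ i, i ≤ r → ∀ t : Finset α, t.card = r - i → TransOff G t := by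
  intro i
  induction i with
  | zero => intro _ t ht; exact h t (by simpa using ht)
  | succ i ih =>
    intro hi t ht
    refine transOff_descend (j := r - (i + 1)) (by omega) ?_ t ht
    intro t' ht'
    exact ih (by omega) t' (by omega)

/-- The transitivity assembly. -/
theorem isMultiplyPretransitive_of_transOff {r : ℕ} (hr : r + 2 ≤ Fintype.card α)
    (h : ∀ t : Finset α, t.card = r → TransOff G t) :
    MulAction.IsMultiplyPretransitive G α (r + 1) := by
  have hall : ∀ t : Finset α, t.card ≤ r → TransOff G t := by
    intro t ht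
    exact transOff_of_le hr h (r - t.card) (by omega) t (by omega)
  have key : ∀ j, j ≤ r + 1 → ∀ x y : Fin j ↪ α, ∃ g : G, ∀ i, g • x i = y i := by
    intro j
    induction j with
    | zero => intro _ x y; exact ⟨1, fun i => i.elim0⟩
    | succ j ih =>
      intro hj x y
      obtain ⟨g, hg⟩ := ih (by omega) (Fin.castSuccEmb.trans x) (Fin.castSuccEmb.trans y)
      let t : Finset α := Finset.univ.image (fun i : Fin j => y (Fin.castSucc i))
      have htc : t.card ≤ r := by
        have : t.card ≤ (Finset.univ : Finset (Fin j)).card := Finset.card_image_le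
        simp only [Finset.card_univ, Fintype.card_fin] at this
        omega
      have hyj : y (Fin.last j) ∉ t := by
        intro hmem
        obtain ⟨i, -, hi⟩ := Finset.mem_image.mp hmem
        have := y.injective hi
        exact absurd this (Fin.castSucc_lt_last i).ne
      have hxj : g • x (Fin.last j) ∉ t := by
        intro hmem
        obtain ⟨i, -, hi⟩ := Finset.mem_image.mp hmem
        have h1 : g • x (Fin.castSucc i) = y (Fin.castSucc i) := hg i
        rw [← h1] at hi
        have h2 := smul_left_cancel g hi
        have := x.injective h2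
        exact absurd this (Fin.castSucc_lt_last i).ne
      obtain ⟨k, hk1, hk2⟩ := hall t htc _ _ hxj hyj
      refine ⟨k * g, fun i => ?_⟩
      refine Fin.lastCases ?_ (fun i => ?_) i
      · rw [mul_smul, hk2]
      · have h1 : g • x (Fin.castSucc i) = y (Fin.castSucc i) := hg i
        rw [mul_smul, h1]
        apply hk1
        exact Finset.mem_image_of_mem _ (Finset.mem_univ _)
  refine ⟨fun x y => ?_⟩
  obtain ⟨g, hg⟩ := key (r + 1) le_rfl x y
  refine ⟨g, ?_⟩
  ext i
  exact hg i

end Trans

end Cfsg.Agent.Lib.Perm.Gleason
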