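import Mathlib
import Cfsg.Agent.Lib.Perm.KantorCore
import Cfsg.Agent.Lib.Perm.SingerCoords
import Cfsg.Agent.Lib.Solvable.MinimalNormal
import Cfsg.Prelude.Def_Perm

/-!
# Kantor's theorem on 2-homogeneous groups that are not 2-transitive

Such a group has odd order; assuming solvability (Feit–Thompson) a minimal normal subgroup is regular
and elementary abelian, and the point stabilizer is a solvable linear group with orbits `O`, `-O` on
nonzero vectors, so it lies in `ΓL(1, p ^ f)` by `KantorCore`.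
-/

set_option autoImplicit false
set_option linter.style.haveILetI false
set_option linter.unusedSectionVars false

namespace Cfsg.Agent.Lib.Perm.Kantor

open Module MulAction
open scoped Pointwise

section Coords

variable {p : ℕ} [hp : Fact p.Prime] {V : Type*} [AddCommGroup V] [Module (ZMod p) V] [Finite V]
variable {G : Type*} [Group G] [Finite G]

/-- Coordinates in the Galois field. -/
theorem exists_coords_galois {f : ℕ} (hf : finrank (ZMod p) V = f) (hf0 : f ≠ 0) (hf2 : f ≠ 2)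
    (hodd : Odd (Nat.card G)) [Group.IsSolvable G] (hp2 : p ≠ 2)
    (ρ : G →* End (ZMod p) V) (hρ : Function.Injective ρ) (hT : HalfTrans ρ) :
    ∃ e : V ≃+ GaloisField p f, ∀ g : G, ∃ (c : (GaloisField p f)ˣ) (σ : GaloisField p f ≃+* GaloisField p f),
      ∀ w, e (ρ g w) = c * σ (e w) := by
  haveI : Module.Finite (ZMod p) V := Module.Finite.of_finite
  obtain ⟨A, v₀, hv₀, htr, hnorm⟩ := exists_singer hf hf0 hf2 hodd hp2 ρ hρ hT
  have hc : Nat.card (GaloisField p f) = Nat.card V := by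
    rw [GaloisField.card p f hf0, Module.natCard_eq_pow_finrank (K := ZMod p), Nat.card_zmod, hf]
  haveI : Finite (GaloisField p f) := Nat.finite_of_card_ne_zero (by
    rw [GaloisField.card p f hf0]
    exact pow_ne_zero _ hp.out.ne_zero)
  obtain ⟨e, -, he⟩ := Cfsg.Agent.Lib.Perm.SingerCoords.exists_coords hc A v₀ hv₀ htr
  refine ⟨e, fun g => ?_⟩
  obtain ⟨j, hj⟩ := hnorm g
  let B : V ≃+ V :=
    { toFun := ρ g
      invFun := ρ g⁻¹
      left_inv := fun w => by
        rw [← Module.End.mul_apply, ← map_mul, inv_mul_cancel, map_one, Module.End.one_apply]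
      right_inv := fun w => by
        rw [← Module.End.mul_apply, ← map_mul, mul_inv_cancel, map_one, Module.End.one_apply]
      map_add' := map_add _ }
  have hB : ∀ w, B w = ρ g w := fun _ => rfl
  obtain ⟨σ, hσ⟩ := he B j (fun w => hj w)
  have hne : e (B v₀) ≠ 0 := by
    intro h
    exact hv₀ ((map_eq_zero_iff B B.injective).mp ((map_eq_zero_iff e e.injective).mp h))
  exact ⟨Units.mk0 _ hne, σ, fun w => hσ w⟩

end Coords

section General

variable {Γ α : Type*} [Group Γ] [Finite Γ] [MulAction Γ α] [FaithfulSMul Γ α] [Finite α]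

/-- The order is odd. -/
theorem odd_card
    (hpair : ∀ a b c d : α, a ≠ b → c ≠ d → ∃ g : Γ, (g • a = c ∧ g • b = d) ∨ (g • a = d ∧ g • b = c))
    (hn2 : ¬ ∀ a b c d : α, a ≠ b → c ≠ d → ∃ g : Γ, g • a = c ∧ g • b = d) : Odd (Nat.card Γ) := by
  by_contra hcon
  rw [Nat.not_odd_iff_even, even_iff_two_dvd] at hcon
  obtain ⟨t, ht⟩ := exists_prime_orderOf_dvd_card' 2 hcon
  have ht1 : t ≠ 1 := by
    rintro rfl
    rw [orderOf_one] at ht
    omega
  have ht2 : t * t = 1 := by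
    have h1 := pow_orderOf_eq_one t
    rwa [ht, pow_two] at h1
  obtain ⟨a, ha⟩ : ∃ a : α, t • a ≠ a := by
    by_contra h
    push Not at h
    apply ht1
    apply FaithfulSMul.eq_of_smul_eq_smul (α := α)
    intro x
    rw [one_smul]
    exact h x
  apply hn2
  have hsw : t • t • a = a := by rw [← mul_smul, ht2, one_smul]
  have key : ∀ c d : α, c ≠ d → ∃ g : Γ, g • a = c ∧ g • (t • a) = d := by
    intro c d hcd
    obtain ⟨g, ⟨h1, h2⟩ | ⟨h1, h2⟩⟩ := hpair a (t • a) c d ha.symm hcd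
    · exact ⟨g, h1, h2⟩
    · refine ⟨g * t, ?_, ?_⟩
      · rw [mul_smul, h2]
      · rw [mul_smul, hsw, h1]
  intro c d c' d' hcd hcd'
  obtain ⟨g, h1, h2⟩ := key c d hcd
  obtain ⟨g', h1', h2'⟩ := key c' d' hcd'
  refine ⟨g' * g⁻¹, ?_, ?_⟩
  · rw [mul_smul, ← h1, inv_smul_smul, h1']
  · rw [mul_smul, ← h2, inv_smul_smul, h2']

/-- The theorem, given a regular normal abelian subgroup. -/
theorem main_of_regular {N : Type*} [CommGroup N] [Finite N] (ι : N →* Γ) (β : Γ →* MulAut N)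
    (hβ : ∀ g n, ι (β g n) = g * ι n * g⁻¹) {p : ℕ} [hp : Fact p.Prime] [Module (ZMod p) (Additive N)]
    (a : α) (hbij : Function.Bijective (fun n : N => ι n • a))
    (hpair : ∀ a b c d : α, a ≠ b → c ≠ d → ∃ g : Γ, (g • a = c ∧ g • b = d) ∨ (g • a = d ∧ g • b = c))
    (hodd : Odd (Nat.card Γ)) [Group.IsSolvable Γ] (hp2 : p ≠ 2) (b₀ : α) (hb₀ : b₀ ≠ a) :
    ∃ f : ℕ, Nat.card α = p ^ f ∧ p ^ f % 4 = 3 ∧ ∃ e : α ≃ GaloisField p f,
      (∀ g : Γ, ∃ (c : (GaloisField p f)ˣ) (b : GaloisField p f) (φ : GaloisField p f ≃+* GaloisField p f),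
        ∀ y, e (g • y) = c * φ (e y) + b) ∧
      ∀ b : GaloisField p f, ∃ g : Γ, ∀ x, e (g • x) = e x + b := by
  classical
  let W := Additive N
  let pt : W → α := fun w => ι w.toMul • a
  have hpt : Function.Bijective pt := by
    refine ⟨fun u v h => Additive.toMul.injective (hbij.1 h), fun y => ?_⟩
    obtain ⟨n, hn⟩ := hbij.2 y
    exact ⟨Additive.ofMul n, hn⟩
  have hpt0 : pt 0 = a := by
    show ι (1 : N) • a = a
    rw [map_one, one_smul]
  have hptadd : ∀ w w' : W, ι w.toMul • pt w' = pt (w + w') := by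
    intro w w'
    show ι w.toMul • ι w'.toMul • a = ι (w.toMul * w'.toMul) • a
    rw [map_mul, mul_smul]
  let H : Subgroup Γ := stabilizer Γ a
  have hH : ∀ h : H, (h : Γ) • a = a := fun h => h.2
  let ρ : H →* End (ZMod p) W :=
    { toFun := fun h => AddMonoidHom.toZModLinearMap p (MonoidHom.toAdditive (β h).toMonoidHom)
      map_one' := by
        apply LinearMap.ext
        intro w
        show Additive.ofMul (β ((1 : H) : Γ) w.toMul) = w
        rw [Subgroup.coe_one, map_one]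
        rfl
      map_mul' := by
        intro g h
        apply LinearMap.ext
        intro w
        show Additive.ofMul (β ((g * h : H) : Γ) w.toMul) = Additive.ofMul (β g (β h w.toMul))
        rw [Subgroup.coe_mul, map_mul]
        rfl }
  have hρapp : ∀ (h : H) (w : W), ρ h w = Additive.ofMul (β h w.toMul) := fun _ _ => rfl
  have hρpt : ∀ (h : H) (w : W), (h : Γ) • pt w = pt (ρ h w) := by
    intro h w
    show (h : Γ) • ι w.toMul • a = ι (β h w.toMul) • a
    rw [hβ, mul_smul, mul_smul, smul_left_cancel_iff, inv_smul_eq_iff.mpr (hH h).symm]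
  have hρinj : Function.Injective ρ := by
    intro h h' hh
    apply Subtype.ext
    apply FaithfulSMul.eq_of_smul_eq_smul (α := α)
    intro y
    obtain ⟨w, rfl⟩ := hpt.2 y
    rw [hρpt, hρpt, hh]
  have hT : HalfTrans ρ := by
    intro u v hu hv
    have hb : pt u ≠ a := fun h => hu (hpt.1 (h.trans hpt0.symm))
    have hc : pt v ≠ a := fun h => hv (hpt.1 (h.trans hpt0.symm))
    obtain ⟨g, ⟨h1, h2⟩ | ⟨h1, h2⟩⟩ := hpair a (pt u) a (pt v) hb.symm hc.symm
    · refine ⟨⟨g, h1⟩, Or.inl ?_⟩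
      apply hpt.1
      rw [← hρpt]
      exact h2
    · have h3 : (ι v.toMul)⁻¹ • pt v = a := inv_smul_eq_iff.mpr rfl
      have hmem : (ι v.toMul)⁻¹ * g ∈ H := by
        show ((ι v.toMul)⁻¹ * g) • a = a
        rw [mul_smul, h1, h3]
      refine ⟨⟨_, hmem⟩, Or.inr ?_⟩
      apply hpt.1
      rw [← hρpt]
      show ((ι v.toMul)⁻¹ * g) • pt u = pt (-v)
      rw [mul_smul, h2, ← hpt0, ← add_zero (-v), ← hptadd]
      show (ι v.toMul)⁻¹ • pt 0 = ι (v.toMul)⁻¹ • pt 0
      rw [map_inv]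
  haveI : Finite W := inferInstanceAs (Finite N)
  haveI : Module.Finite (ZMod p) W := Module.Finite.of_finite
  have hoddH : Odd (Nat.card H) := Odd.of_dvd_nat hodd (Subgroup.card_subgroup_dvd_card H)
  let f := finrank (ZMod p) W
  have hcardW : Nat.card W = p ^ f := by
    rw [Module.natCard_eq_pow_finrank (K := ZMod p), Nat.card_zmod]
  have hcardα : Nat.card α = p ^ f := by
    rw [← hcardW]
    exact (Nat.card_congr (Equiv.ofBijective pt hpt)).symm
  obtain ⟨u₀, hu₀⟩ := hpt.2 b₀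
  have hu₀0 : u₀ ≠ 0 := by
    rintro rfl
    exact hb₀ (hu₀.symm.trans hpt0)
  obtain ⟨m, hm, hWm, -⟩ := exists_odd_card ρ hT hoddH hp2 hu₀0
  have hmod : p ^ f % 4 = 3 := by
    rw [← hcardW, hWm]
    obtain ⟨k, rfl⟩ := hm
    omega
  have hf0 : f ≠ 0 := by
    intro h
    rw [h, pow_zero] at hmod
    omega
  have hf2 : f ≠ 2 := by
    intro h
    rw [h] at hmod
    have hpodd : p % 2 = 1 := Nat.odd_iff.mp (hp.out.odd_of_ne_two hp2)
    have h1 : p % 4 = 1 ∨ p % 4 = 3 := by omega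
    rw [pow_two, Nat.mul_mod] at hmod
    rcases h1 with h1 | h1 <;> rw [h1] at hmod <;> omega
  obtain ⟨e', he'⟩ := exists_coords_galois (G := H) (V := W) (f := f) rfl hf0 hf2 hoddH hp2 ρ hρinj hT
  let e₀ : W ≃ α := Equiv.ofBijective pt hpt
  have he₀ : ∀ w, e₀ w = pt w := fun _ => rfl
  let e : α ≃ GaloisField p f := e₀.symm.trans e'.toEquiv
  have hept : ∀ w, e (pt w) = e' w := by
    intro w
    show e' (e₀.symm (pt w)) = e' w
    rw [← he₀, Equiv.symm_apply_apply]
  refine ⟨f, hcardα, hmod, e, fun g => ?_, fun b => ?_⟩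
  · obtain ⟨v, hv⟩ := hpt.2 (g • a)
    have h3 : (ι v.toMul)⁻¹ • pt v = a := inv_smul_eq_iff.mpr rfl
    have hmem : (ι v.toMul)⁻¹ * g ∈ H := by
      show ((ι v.toMul)⁻¹ * g) • a = a
      rw [mul_smul, ← hv, h3]
    let h : H := ⟨_, hmem⟩
    obtain ⟨c, σ, hcσ⟩ := he' h
    refine ⟨c, e' v, σ, fun y => ?_⟩
    obtain ⟨w, rfl⟩ := hpt.2 y
    have h5 : g • pt w = pt (v + ρ h w) := by
      rw [← hptadd, ← hρpt]
      show g • pt w = ι v.toMul • ((ι v.toMul)⁻¹ * g) • pt w
      rw [mul_smul, smul_inv_smul]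
    rw [h5, hept, hept, map_add, hcσ, add_comm]
  · refine ⟨ι (e'.symm b).toMul, fun x => ?_⟩
    obtain ⟨w, rfl⟩ := hpt.2 x
    rw [hptadd, hept, hept, map_add, AddEquiv.apply_symm_apply, add_comm]

/-- The theorem for a group acting faithfully. -/
theorem main_general [Nontrivial Γ]
    (hpair : ∀ a b c d : α, a ≠ b → c ≠ d → ∃ g : Γ, (g • a = c ∧ g • b = d) ∨ (g • a = d ∧ g • b = c))
    (hn2 : ¬ ∀ a b c d : α, a ≠ b → c ≠ d → ∃ g : Γ, g • a = c ∧ g • b = d)
    (hFT : Odd (Nat.card Γ) → Group.IsSolvable Γ) :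
    Odd (Nat.card Γ) ∧ ∃ (p f : ℕ) (_ : Fact p.Prime), p ≠ 2 ∧ Nat.card α = p ^ f ∧ p ^ f % 4 = 3 ∧
      ∃ e : α ≃ GaloisField p f,
      (∀ g : Γ, ∃ (c : (GaloisField p f)ˣ) (b : GaloisField p f) (φ : GaloisField p f ≃+* GaloisField p f),
        ∀ y, e (g • y) = c * φ (e y) + b) ∧
      ∀ b : GaloisField p f, ∃ g : Γ, ∀ x, e (g • x) = e x + b := by
  have hodd := odd_card hpair hn2
  refine ⟨hodd, ?_⟩
  haveI := hFT hodd
  obtain ⟨N, hNmin⟩ := Cfsg.Agent.Lib.Solvable.MinimalNormal.exists_isMinNormal (G := Γ)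
  obtain ⟨p, hp, hNp, hNc, hNe⟩ := hNmin.exists_isPGroup
  haveI hpF : Fact p.Prime := ⟨hp⟩
  haveI hNn : N.Normal := hNmin.normal
  have hcomm : ∀ x y : N, x * y = y * x := fun x y => mul_comm' x y
  have hp2 : p ≠ 2 := by
    rintro rfl
    have h1 : Odd (Nat.card N) := Odd.of_dvd_nat hodd (Subgroup.card_subgroup_dvd_card N)
    obtain ⟨k, hk⟩ := IsPGroup.iff_card.mp hNp
    have hk0 : k ≠ 0 := by
      rintro rfl
      rw [pow_zero] at hk
      exact hNmin.ne_bot (Subgroup.card_eq_one.mp hk)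
    rw [hk] at h1
    exact (Nat.not_even_iff_odd.mpr h1) ((Nat.even_pow' hk0).mpr even_two)
  -- an element of `N` moving a point
  obtain ⟨n₀, hn₀, hn₀1⟩ : ∃ n₀ ∈ N, n₀ ≠ 1 := by
    obtain ⟨x, hx⟩ := Subgroup.ne_bot_iff_exists_ne_one.mp hNmin.ne_bot
    exact ⟨x.1, x.2, fun h => hx (Subtype.ext h)⟩
  obtain ⟨a₀, ha₀⟩ : ∃ a : α, n₀ • a ≠ a := by
    by_contra h
    push Not at h
    apply hn₀1
    apply FaithfulSMul.eq_of_smul_eq_smul (α := α)
    intro x
    rw [one_smul]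
    exact h x
  have htrans : ∀ a b : α, ∃ n ∈ N, n • a = b := by
    intro a b
    by_cases hab : a = b
    · exact ⟨1, N.one_mem, by rw [one_smul, hab]⟩
    obtain ⟨g, ⟨h1, h2⟩ | ⟨h1, h2⟩⟩ := hpair a₀ (n₀ • a₀) a b ha₀.symm hab
    · refine ⟨g * n₀ * g⁻¹, hNn.conj_mem _ hn₀ g, ?_⟩
      rw [mul_smul, mul_smul, ← h1, inv_smul_smul, h2]
    · refine ⟨(g * n₀ * g⁻¹)⁻¹, N.inv_mem (hNn.conj_mem _ hn₀ g), ?_⟩
      rw [inv_smul_eq_iff, mul_smul, mul_smul, ← h1, inv_smul_smul, h2]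
  have hreg : ∀ n ∈ N, n • a₀ = a₀ → n = 1 := by
    intro n hn hna
    apply FaithfulSMul.eq_of_smul_eq_smul (α := α)
    intro x
    rw [one_smul]
    obtain ⟨m, hm, rfl⟩ := htrans a₀ x
    have h1 : n * m = m * n := congrArg Subtype.val (hcomm ⟨n, hn⟩ ⟨m, hm⟩)
    rw [← mul_smul, h1, mul_smul, hna]
  letI : CommGroup N := { (inferInstance : Group N) with mul_comm := hcomm }
  letI : Module (ZMod p) (Additive N) := AddCommGroup.zmodModule (fun x => by
    show Additive.ofMul ((Additive.toMul x) ^ p) = 0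
    have h1 : (Additive.toMul x) ^ p = 1 := Subtype.ext (hNe _ (Additive.toMul x).2)
    rw [h1]
    rfl)
  have hbij : Function.Bijective (fun n : N => (N.subtype n : Γ) • a₀) := by
    constructor
    · intro n n' h
      have h1 : (n' : Γ)⁻¹ * n ∈ N := N.mul_mem (N.inv_mem n'.2) n.2
      have h2 : ((n' : Γ)⁻¹ * n) • a₀ = a₀ := by
        rw [mul_smul, inv_smul_eq_iff]
        exact h
      have h3 := hreg _ h1 h2
      apply Subtype.ext
      exact (inv_mul_eq_one.mp h3).symm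
    · intro y
      obtain ⟨n, hn, hy⟩ := htrans a₀ y
      exact ⟨⟨n, hn⟩, hy⟩
  obtain ⟨f, h1, h2, e, h3, h4⟩ := main_of_regular (N := N) N.subtype (MulAut.conjNormal) (fun g n => rfl) (p := p) a₀ hbij
    hpair hodd hp2 (n₀ • a₀) ha₀
  exact ⟨p, f, hpF, hp2, h1, h2, e, h3, h4⟩

end General

/-- The pair property from 2-homogeneity. -/
theorem pair_of_homogeneous {Γ α : Type*} [Group Γ] [MulAction Γ α] [DecidableEq α]
    (h2 : IsPretransitive Γ (Set.powersetCard α 2)) (a b c d : α) (hab : a ≠ b) (hcd : c ≠ d) :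
    ∃ g : Γ, (g • a = c ∧ g • b = d) ∨ (g • a = d ∧ g • b = c) := by
  classical
  let s : Set.powersetCard α 2 := Set.powersetCard.ofCard (Finset.card_pair hab)
  let t : Set.powersetCard α 2 := Set.powersetCard.ofCard (Finset.card_pair hcd)
  obtain ⟨g, hg⟩ := exists_smul_eq Γ s t
  have h1 : g • ({a, b} : Finset α) = {c, d} := by
    have h3 := congrArg (fun u : Set.powersetCard α 2 => (u : Finset α)) hg
    simp only [Set.powersetCard.coe_smul] at h3
    exact h3
  rw [Finset.smul_finset_insert, Finset.smul_finset_singleton] at h1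
  have h3 : g • a ∈ ({c, d} : Finset α) := by rw [← h1]; simp
  have h4 : g • b ∈ ({c, d} : Finset α) := by rw [← h1]; simp
  have hne : g • a ≠ g • b := fun h => hab (smul_left_cancel g h)
  simp only [Finset.mem_insert, Finset.mem_singleton] at h3 h4
  refine ⟨g, ?_⟩
  rcases h3 with h3 | h3 <;> rcases h4 with h4 | h4
  · exact absurd (h3.trans h4.symm) hne
  · exact Or.inl ⟨h3, h4⟩
  · exact Or.inr ⟨h3, h4⟩
  · exact absurd (h3.trans h4.symm) hne

/-- **Kantor's theorem**, given solvability of the group. -/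
theorem kantor_of_solvable {α : Type*} [Fintype α] [DecidableEq α] (G : Subgroup (Equiv.Perm α)) (hne : G ≠ ⊥)
    (h2 : MulAction.IsPretransitive G (Set.powersetCard α 2))
    (hn2 : ¬ MulAction.IsMultiplyPretransitive G α 2) (hFT : Odd (Nat.card G) → Group.IsSolvable G) :
    Odd (Nat.card G) ∧ ∃ (p f : ℕ) (_ : Fact p.Prime), p ≠ 2 ∧ Fintype.card α = p ^ f ∧ p ^ f % 4 = 3 ∧
      ∃ e : α ≃ GaloisField p f,
        (∀ g : G, e.symm.trans (((g : Equiv.Perm α)).trans e) ∈ Cfsg.semiaffineGroup (GaloisField p f)) ∧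
        ∀ b : GaloisField p f, ∃ g : G, ∀ x : α, e ((g : Equiv.Perm α) x) = e x + b := by
  haveI : Nontrivial G := (Subgroup.nontrivial_iff_ne_bot G).mpr hne
  have hn2' : ¬ ∀ a b c d : α, a ≠ b → c ≠ d → ∃ g : G, g • a = c ∧ g • b = d := fun h =>
    hn2 (MulAction.is_two_pretransitive_iff.mpr fun {a b c d} hab hcd => h a b c d hab hcd)
  obtain ⟨hodd, p, f, hp, hp2, hcard, hmod, e, h3, h4⟩ :=
    main_general (Γ := G) (α := α) (pair_of_homogeneous h2) hn2' hFT
  refine ⟨hodd, p, f, hp, hp2, by rw [← Nat.card_eq_fintype_card, hcard], hmod, e, fun g => ?_, fun b => ?_⟩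
  · obtain ⟨c, b, φ, h⟩ := h3 g
    refine ⟨c, b, φ, fun x => ?_⟩
    have h5 := h (e.symm x)
    rw [Equiv.apply_symm_apply] at h5
    exact h5
  · obtain ⟨g, hg⟩ := h4 b
    exact ⟨g, hg⟩

end Cfsg.Agent.Lib.Perm.Kantor
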