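import Mathlib

/-!
# Direct powers of a non-abelian simple group

Coordinate description of the automorphisms of `ι → T`, and Scott's lemma on subdirect subgroups.
-/

set_option autoImplicit false
set_option linter.unusedSectionVars false

namespace Cfsg.Agent.Lib.Perm.OnanProd

variable {T : Type*} [Group T] {ι : Type*} [DecidableEq ι]

/-- `T` has trivial centre, in elementwise form. -/
def CenterFree (T : Type*) [Group T] : Prop := ∀ x : T, (∀ s, x * s = s * x) → x = 1

theorem centerFree_of_simple [IsSimpleGroup T] (hT : ∃ a b : T, a * b ≠ b * a) : CenterFree T := by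
  intro x hx
  have h := IsSimpleGroup.eq_bot_or_eq_top_of_normal (Subgroup.center T) inferInstance
  rcases h with h | h
  · have : x ∈ Subgroup.center T := by
      rw [Subgroup.mem_center_iff]
      intro g
      exact (hx g).symm
    rw [h] at this
    simpa using this
  · exfalso
    obtain ⟨a, b, hab⟩ := hT
    have : a ∈ Subgroup.center T := by rw [h]; trivial
    rw [Subgroup.mem_center_iff] at this
    exact hab (this b).symm

/-- A nontrivial normal subgroup of `ι → T` contains a full coordinate subgroup. -/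
theorem exists_single_mem [IsSimpleGroup T] (hT : CenterFree T)
    (A : Subgroup (ι → T)) (hA : A.Normal) (hA1 : A ≠ ⊥) : ∃ i, ∀ t, Pi.mulSingle i t ∈ A := by
  have hnt : Nontrivial A := (Subgroup.nontrivial_iff_ne_bot A).mpr hA1
  obtain ⟨a, ha, ha1⟩ := Subgroup.exists_ne_one_of_nontrivial A
  · obtain ⟨i, hi⟩ : ∃ i, a i ≠ 1 := by
      by_contra hcon
      push Not at hcon
      exact ha1 (funext hcon)
    obtain ⟨s, hs⟩ : ∃ s, a i * s ≠ s * a i := by
      by_contra hcon
      push Not at hcon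
      exact hi (hT _ hcon)
    refine ⟨i, ?_⟩
    let B : Subgroup T := A.comap (MonoidHom.mulSingle (fun _ => T) i)
    have hBn : B.Normal := by
      constructor
      intro t ht g
      have h1 := hA.conj_mem _ ht (Pi.mulSingle i g)
      have h2 : Pi.mulSingle i g * (MonoidHom.mulSingle (fun _ => T) i t) * (Pi.mulSingle i g)⁻¹
          = Pi.mulSingle i (g * t * g⁻¹) := by
        funext j
        by_cases hj : j = i
        · subst hj; simp
        · simp [hj]
      show Pi.mulSingle i (g * t * g⁻¹) ∈ A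
      rw [← h2]
      exact h1
    have hB : B = ⊤ := by
      refine (IsSimpleGroup.eq_bot_or_eq_top_of_normal B hBn).resolve_left ?_
      intro hbot
      have hmem : a i * s * (a i)⁻¹ * s⁻¹ ∈ B := by
        show Pi.mulSingle i (a i * s * (a i)⁻¹ * s⁻¹) ∈ A
        have h1 := hA.conj_mem _ (A.inv_mem ha) (Pi.mulSingle i s)
        have h2 := A.mul_mem ha h1
        have h3 : a * (Pi.mulSingle i s * a⁻¹ * (Pi.mulSingle i s)⁻¹)
            = Pi.mulSingle i (a i * s * (a i)⁻¹ * s⁻¹) := by
          funext j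
          by_cases hj : j = i
          · subst hj; simp [mul_assoc]
          · simp [hj]
        rw [← h3]
        exact h2
      rw [hbot, Subgroup.mem_bot] at hmem
      apply hs
      have h4 : a i * s * (a i)⁻¹ = s := by
        rwa [mul_inv_eq_one] at hmem
      calc a i * s = a i * s * (a i)⁻¹ * a i := by group
        _ = s * a i := by rw [h4]
    intro t
    have : t ∈ B := by rw [hB]; trivial
    exact this

/-- The coordinate description of an automorphism of `ι → T` at one coordinate. -/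
theorem coord_at [IsSimpleGroup T] (hT : CenterFree T) (α : (ι → T) ≃* (ι → T)) (i : ι) :
    ∃ j, ∃ φ : T ≃* T, ∀ x, α x j = φ (x i) := by
  let F : Subgroup (ι → T) := (MonoidHom.mulSingle (fun _ => T) i).range
  have hFn : F.Normal := by
    constructor
    rintro _ ⟨t, rfl⟩ g
    refine ⟨g i * t * (g i)⁻¹, ?_⟩
    funext j
    by_cases hj : j = i
    · subst hj; simp
    · simp [hj]
  have hAn : (F.map α.toMonoidHom).Normal := hFn.map _ α.surjective
  have hA1 : F.map α.toMonoidHom ≠ ⊥ := by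
    intro h
    obtain ⟨t, ht⟩ := exists_ne (1 : T)
    have h1 : α (MonoidHom.mulSingle (fun _ => T) i t) ∈ F.map α.toMonoidHom :=
      ⟨_, ⟨t, rfl⟩, rfl⟩
    rw [h, Subgroup.mem_bot, map_eq_one_iff α α.injective] at h1
    apply ht
    have := congrFun h1 i
    simpa using this
  obtain ⟨j, hj⟩ := exists_single_mem hT _ hAn hA1
  have hj' : ∀ t, ∃ u, α (Pi.mulSingle i u) = Pi.mulSingle j t := by
    intro t
    obtain ⟨_, ⟨u, rfl⟩, hu⟩ := hj t
    exact ⟨u, hu⟩
  let φ0 : T →* T :=
    (Pi.evalMonoidHom (fun _ => T) j).comp (α.toMonoidHom.comp (MonoidHom.mulSingle (fun _ => T) i))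
  have hφ0 : ∀ u, φ0 u = α (Pi.mulSingle i u) j := fun u => rfl
  have hsurj : Function.Surjective φ0 := by
    intro t
    obtain ⟨u, hu⟩ := hj' t
    refine ⟨u, ?_⟩
    rw [hφ0, hu]
    simp
  have hinj : Function.Injective φ0 := by
    rw [← MonoidHom.ker_eq_bot_iff]
    refine (IsSimpleGroup.eq_bot_or_eq_top_of_normal φ0.ker φ0.normal_ker).resolve_right ?_
    intro h
    obtain ⟨t, ht⟩ := exists_ne (1 : T)
    obtain ⟨u, hu⟩ := hsurj t
    apply ht
    rw [← hu]
    have : u ∈ φ0.ker := by rw [h]; trivial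
    exact this
  refine ⟨j, MulEquiv.ofBijective φ0 ⟨hinj, hsurj⟩, ?_⟩
  intro x
  show α x j = φ0 (x i)
  rw [hφ0]
  obtain ⟨x', hx'⟩ : ∃ x' : ι → T, x' = (Pi.mulSingle i (x i))⁻¹ * x := ⟨_, rfl⟩
  have hx : x = Pi.mulSingle i (x i) * x' := by simp [hx']
  have hx'i : x' i = 1 := by simp [hx']
  have hcomm : ∀ u, x' * Pi.mulSingle i u = Pi.mulSingle i u * x' := by
    intro u
    funext l
    by_cases hl : l = i
    · subst hl; simp [hx'i]
    · simp [hl]
  have hone : α x' j = 1 := by
    apply hT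
    intro s
    obtain ⟨u, hu⟩ := hj' s
    have h1 := congrArg α (hcomm u)
    rw [map_mul, map_mul, hu] at h1
    have h2 := congrFun h1 j
    simpa using h2
  conv_lhs => rw [hx, map_mul]
  simp [hone]

/-- `(σ, φ)` is a coordinate description of `α`. -/
def IsCoord (α : (ι → T) ≃* (ι → T)) (σ : Equiv.Perm ι) (φ : ι → T ≃* T) : Prop :=
  ∀ x i, α x (σ i) = φ i (x i)

/-- Every automorphism of a finite power of a non-abelian simple group permutes the coordinates. -/
theorem exists_coord [Finite ι] [IsSimpleGroup T] (hT : CenterFree T) (α : (ι → T) ≃* (ι → T)) :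
    ∃ (σ : Equiv.Perm ι) (φ : ι → T ≃* T), IsCoord α σ φ := by
  choose j φ hφ using coord_at hT α
  have hinj : Function.Injective j := by
    intro i i' hii
    by_contra hne
    obtain ⟨t, ht⟩ := exists_ne (1 : T)
    have h1 := hφ i (Pi.mulSingle i t)
    have h2 := hφ i' (Pi.mulSingle i t)
    rw [← hii, h1] at h2
    have h3 : (Pi.mulSingle i t : ι → T) i' = 1 := by simp [Ne.symm hne]
    rw [h3, map_one] at h2
    simp only [Pi.mulSingle_eq_same, EmbeddingLike.map_eq_one_iff] at h2
    exact ht h2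
  refine ⟨Equiv.ofBijective j (Finite.injective_iff_bijective.mp hinj), φ, ?_⟩
  intro x i
  exact hφ i x

theorem IsCoord.comp {α β : (ι → T) ≃* (ι → T)} {σ τ : Equiv.Perm ι} {φ ψ : ι → T ≃* T}
    (h1 : IsCoord α σ φ) (h2 : IsCoord β τ ψ) :
    IsCoord (β.trans α) (τ.trans σ) (fun i => (ψ i).trans (φ (τ i))) := by
  intro x i
  simp only [MulEquiv.trans_apply, Equiv.trans_apply]
  rw [h1, h2]

/-! ### Subdirect subgroups -/

/-- Two coordinates are linked by the subgroup `R` if they have the same kernel on `R`. -/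
def Rel (R : Subgroup (ι → T)) (i j : ι) : Prop := ∀ r ∈ R, r i = 1 ↔ r j = 1

/-- The elements of `R` vanishing on `S`. -/
def van (R : Subgroup (ι → T)) (S : Set ι) : Subgroup (ι → T) where
  carrier := {r | r ∈ R ∧ ∀ l ∈ S, r l = 1}
  mul_mem' := by
    rintro a b ⟨ha, ha'⟩ ⟨hb, hb'⟩
    refine ⟨R.mul_mem ha hb, fun l hl => ?_⟩
    simp [ha' l hl, hb' l hl]
  one_mem' := ⟨R.one_mem, fun _ _ => rfl⟩
  inv_mem' := by
    rintro a ⟨ha, ha'⟩
    refine ⟨R.inv_mem ha, fun l hl => ?_⟩
    simp [ha' l hl]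

/-- The image at the coordinate `j` of the elements of `R` vanishing on `S`. -/
def vanImg (R : Subgroup (ι → T)) (S : Set ι) (j : ι) : Subgroup T :=
  (van R S).map (Pi.evalMonoidHom (fun _ => T) j)

theorem mem_vanImg {R : Subgroup (ι → T)} {S : Set ι} {j : ι} {t : T} :
    t ∈ vanImg R S j ↔ ∃ r ∈ R, (∀ l ∈ S, r l = 1) ∧ r j = t := by
  constructor
  · rintro ⟨r, ⟨hr, hr'⟩, rfl⟩
    exact ⟨r, hr, hr', rfl⟩
  · rintro ⟨r, hr, hr', rfl⟩
    exact ⟨r, ⟨hr, hr'⟩, rfl⟩

theorem vanImg_normal {R : Subgroup (ι → T)} (hsurj : ∀ i t, ∃ r ∈ R, r i = t) (S : Set ι) (j : ι) :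
    (vanImg R S j).Normal := by
  constructor
  intro t ht g
  rw [mem_vanImg] at ht ⊢
  obtain ⟨r, hr, hr', rfl⟩ := ht
  obtain ⟨s, hs, rfl⟩ := hsurj j g
  refine ⟨s * r * s⁻¹, R.mul_mem (R.mul_mem hs hr) (R.inv_mem hs), fun l hl => ?_, rfl⟩
  simp [hr' l hl]

section subdirect

variable [IsSimpleGroup T] {R : Subgroup (ι → T)} (hsurj : ∀ i t, ∃ r ∈ R, r i = t)
include hsurj

/-- One-sided inclusion of kernels gives an isomorphism between the coordinates. -/
theorem exists_psi {i j : ι} (h : ∀ r ∈ R, r i = 1 → r j = 1) :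
    ∃ ψ : T ≃* T, ∀ r ∈ R, r j = ψ (r i) := by
  choose s hs hs' using hsurj i
  have key : ∀ r ∈ R, r j = s (r i) j := by
    intro r hr
    have h1 : (s (r i))⁻¹ * r ∈ R := R.mul_mem (R.inv_mem (hs _)) hr
    have h2 := h _ h1 (by simp [hs'])
    simp only [Pi.mul_apply, Pi.inv_apply] at h2
    rw [inv_mul_eq_one] at h2
    exact h2.symm
  let f : T →* T := MonoidHom.mk' (fun t => s t j) (by
    intro a b
    have h1 := key (s a * s b) (R.mul_mem (hs a) (hs b))
    simp only [Pi.mul_apply, hs'] at h1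
    exact h1.symm)
  have hf : ∀ t, f t = s t j := fun t => rfl
  have hfsurj : Function.Surjective f := by
    intro t
    obtain ⟨r, hr, rfl⟩ := hsurj j t
    exact ⟨r i, (key r hr).symm⟩
  have hfinj : Function.Injective f := by
    rw [← MonoidHom.ker_eq_bot_iff]
    refine (IsSimpleGroup.eq_bot_or_eq_top_of_normal f.ker f.normal_ker).resolve_right ?_
    intro htop
    obtain ⟨t, ht⟩ := exists_ne (1 : T)
    obtain ⟨u, hu⟩ := hfsurj t
    apply ht
    rw [← hu]
    have : u ∈ f.ker := by rw [htop]; trivial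
    exact this
  exact ⟨MulEquiv.ofBijective f ⟨hfinj, hfsurj⟩, fun r hr => key r hr⟩

theorem rel_of_one_side {i j : ι} (h : ∀ r ∈ R, r i = 1 → r j = 1) : Rel R i j := by
  obtain ⟨ψ, hψ⟩ := exists_psi hsurj h
  intro r hr
  refine ⟨h r hr, fun h1 => ?_⟩
  rw [hψ r hr] at h1
  simpa using h1

theorem vanImg_single_top {i j : ι} (h : ¬ Rel R i j) : vanImg R {i} j = ⊤ := by
  refine (IsSimpleGroup.eq_bot_or_eq_top_of_normal _ (vanImg_normal hsurj _ _)).resolve_left ?_
  intro hbot
  apply h
  apply rel_of_one_side hsurj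
  intro r hr hri
  have : r j ∈ vanImg R {i} j := by
    rw [mem_vanImg]
    exact ⟨r, hr, by simpa using hri, rfl⟩
  rw [hbot] at this
  simpa using this

/-- Scott's key step: for `S` unlinked with `j`, the elements of `R` vanishing on `S` still surject
to the coordinate `j`. -/
theorem vanImg_top (hT : ∃ a b : T, a * b ≠ b * a) (S : Finset ι) (j : ι) (hS : ∀ l ∈ S, ¬ Rel R l j) :
    vanImg R (S : Set ι) j = ⊤ := by
  induction S using Finset.induction_on with
  | empty =>
    rw [eq_top_iff]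
    intro t _
    rw [mem_vanImg]
    obtain ⟨r, hr, hrt⟩ := hsurj j t
    exact ⟨r, hr, by simp, hrt⟩
  | insert l S hl ih =>
    have ih' := ih (fun l' hl' => hS l' (Finset.mem_insert_of_mem hl'))
    have h1 := vanImg_single_top hsurj (hS l (Finset.mem_insert_self _ _))
    refine (IsSimpleGroup.eq_bot_or_eq_top_of_normal _ (vanImg_normal hsurj _ _)).resolve_left ?_
    intro hbot
    obtain ⟨a, b, hab⟩ := hT
    have ha : a ∈ vanImg R (S : Set ι) j := by rw [ih']; trivial
    have hb : b ∈ vanImg R {l} j := by rw [h1]; trivial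
    rw [mem_vanImg] at ha hb
    obtain ⟨ra, hra, hra', rfl⟩ := ha
    obtain ⟨rb, hrb, hrb', rfl⟩ := hb
    have hc : ra j * rb j * (ra j)⁻¹ * (rb j)⁻¹ ∈ vanImg R ((insert l S : Finset ι) : Set ι) j := by
      rw [mem_vanImg]
      refine ⟨ra * rb * ra⁻¹ * rb⁻¹,
        R.mul_mem (R.mul_mem (R.mul_mem hra hrb) (R.inv_mem hra)) (R.inv_mem hrb), ?_, rfl⟩
      intro l' hl'
      simp only [Finset.coe_insert, Set.mem_insert_iff, Finset.mem_coe] at hl'
      rcases hl' with rfl | hl'
      · have := hrb' l' rfl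
        simp [this]
      · have := hra' l' hl'
        simp [this]
    rw [hbot, Subgroup.mem_bot] at hc
    apply hab
    rw [mul_inv_eq_one, mul_inv_eq_iff_eq_mul] at hc
    exact hc

/-- Values at pairwise unlinked coordinates can be prescribed in `R`. -/
theorem exists_lift (hT : ∃ a b : T, a * b ≠ b * a) (S : Finset ι)
    (hS : ∀ l ∈ S, ∀ l' ∈ S, l ≠ l' → ¬ Rel R l l') (x : ι → T) :
    ∃ r ∈ R, ∀ j ∈ S, r j = x j := by
  induction S using Finset.induction_on with
  | empty => exact ⟨1, R.one_mem, by simp⟩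
  | insert l S hl ih =>
    obtain ⟨r, hr, hr'⟩ := ih (fun a ha b hb => hS a (Finset.mem_insert_of_mem ha) b
      (Finset.mem_insert_of_mem hb))
    have h1 := vanImg_top hsurj hT S l (fun l' hl' => hS l' (Finset.mem_insert_of_mem hl') l
      (Finset.mem_insert_self _ _) (fun e => hl (e ▸ hl')))
    have hmem : (r l)⁻¹ * x l ∈ vanImg R (S : Set ι) l := by rw [h1]; trivial
    rw [mem_vanImg] at hmem
    obtain ⟨r', hr'R, hr'S, hr'l⟩ := hmem
    refine ⟨r * r', R.mul_mem hr hr'R, ?_⟩
    intro j hj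
    rw [Finset.mem_insert] at hj
    rcases hj with rfl | hj
    · simp [hr'l]
    · have := hr'S j hj
      simp [this, hr' j hj]

end subdirect

theorem rel_refl (R : Subgroup (ι → T)) (i : ι) : Rel R i i := fun _ _ => Iff.rfl
theorem rel_symm {R : Subgroup (ι → T)} {i j : ι} (h : Rel R i j) : Rel R j i :=
  fun r hr => (h r hr).symm
theorem rel_trans {R : Subgroup (ι → T)} {i j l : ι} (h : Rel R i j) (h' : Rel R j l) : Rel R i l :=
  fun r hr => (h r hr).trans (h' r hr)

/-- **Scott's lemma**: a subdirect subgroup of a finite power of a non-abelian simple group is,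
up to automorphisms of the coordinates, the group of functions constant on blocks. -/
theorem scott [Fintype ι] [IsSimpleGroup T] (hT : ∃ a b : T, a * b ≠ b * a) (R : Subgroup (ι → T))
    (hsurj : ∀ i t, ∃ r ∈ R, r i = t) :
    ∃ (c : ι → ι) (ψ : ι → T ≃* T), (∀ i j, c i = c j ↔ Rel R i j) ∧ (∀ i, c (c i) = c i) ∧
      ∀ x : ι → T, x ∈ R ↔ ∀ i j, c i = c j → ψ i (x i) = ψ j (x j) := by
  classical
  let s : Setoid ι := ⟨Rel R, ⟨rel_refl R, rel_symm, rel_trans⟩⟩
  let c : ι → ι := fun i => (Quotient.mk s i).out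
  have hc1 : ∀ i, Rel R (c i) i := fun i => Quotient.mk_out (s := s) i
  have hc2 : ∀ i j, c i = c j ↔ Rel R i j := by
    intro i j
    constructor
    · intro h
      have := hc1 i
      rw [h] at this
      exact rel_trans (rel_symm this) (hc1 j)
    · intro h
      exact congrArg Quotient.out (Quotient.sound (s := s) h)
  have hc3 : ∀ i, c (c i) = c i := fun i => (hc2 _ _).mpr (hc1 i)
  have hψ0 : ∀ i, ∃ ψ : T ≃* T, ∀ r ∈ R, r i = ψ (r (c i)) := fun i =>
    exists_psi hsurj (fun r hr h => ((hc1 i) r hr).mp h)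
  choose ψ hψ using hψ0
  have hψc : ∀ i t, ψ (c i) t = t := by
    intro i t
    obtain ⟨r, hr, rfl⟩ := hsurj (c i) t
    have := hψ (c i) r hr
    rw [hc3] at this
    exact this.symm
  refine ⟨c, fun i => (ψ i).symm, hc2, hc3, ?_⟩
  intro x
  constructor
  · intro hx i j hij
    have h1 : ∀ l, (ψ l).symm (x l) = x (c l) := by
      intro l
      rw [hψ l x hx]
      simp
    rw [h1, h1, hij]
  · intro h
    have hS : ∀ l ∈ Finset.univ.image c, ∀ l' ∈ Finset.univ.image c, l ≠ l' → ¬ Rel R l l' := by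
      intro l hl l' hl' hne hrel
      simp only [Finset.mem_image, Finset.mem_univ, true_and] at hl hl'
      obtain ⟨a, rfl⟩ := hl
      obtain ⟨b, rfl⟩ := hl'
      apply hne
      rw [← hc3 a, ← hc3 b]
      exact (hc2 _ _).mpr hrel
    obtain ⟨r, hr, hr'⟩ := exists_lift hsurj hT _ hS x
    have : x = r := by
      funext i
      have h1 := h i (c i) (hc3 i).symm
      have h2 : (ψ (c i)).symm (x (c i)) = x (c i) := by
        rw [MulEquiv.symm_apply_eq, hψc]
      rw [h2, MulEquiv.symm_apply_eq] at h1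
      rw [h1, hψ i r hr, hr' (c i) (Finset.mem_image_of_mem _ (Finset.mem_univ _))]
    rw [this]
    exact hr

end Cfsg.Agent.Lib.Perm.OnanProd
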