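import Mathlib

/-!
# Semilinear maps for a transitive linear element in characteristic two

If `γ` acts on a finite `𝔽₂`-space with its powers transitive on the nonzero vectors, and a linear
automorphism `ψ` conjugates `γ` to `γ ^ e`, then `γ ^ e = γ ^ (2 ^ j)`.
-/

set_option autoImplicit false
set_option linter.style.haveILetI false
set_option linter.unusedVariables false

namespace Cfsg.Agent.Lib.Perm.RankOneF

open Polynomial

universe u

section Linear

variable {V : Type u} [AddCommGroup V] [Module (ZMod 2) V] [Finite V]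

theorem exists_two_pow (γ : Module.End (ZMod 2) V) (ψ : V ≃ₗ[ZMod 2] V) (e : ℕ)
    (hconj : LinearEquiv.conjAlgEquiv (R := ZMod 2) ψ γ = γ ^ e)
    (htrans : ∀ a b : V, a ≠ 0 → b ≠ 0 → ∃ i : ℕ, (γ ^ i) a = b) (hne : ∃ a : V, a ≠ 0) :
    ∃ j : ℕ, γ ^ e = γ ^ (2 ^ j) := by
  classical
  haveI : Fact (Nat.Prime 2) := ⟨Nat.prime_two⟩
  haveI : Module.Finite (ZMod 2) V := Module.Finite.of_finite
  have hint : IsIntegral (ZMod 2) γ := Algebra.IsIntegral.isIntegral γ
  set f : (ZMod 2)[X] := minpoly (ZMod 2) γ with hf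
  have hfm : f.Monic := minpoly.monic hint
  have hf0 : f ≠ 0 := hfm.ne_zero
  haveI : Nontrivial V := by
    obtain ⟨a, ha⟩ := hne
    exact ⟨⟨a, 0, ha⟩⟩
  -- nonzero polynomials in `γ` are injective
  have hinj : ∀ p : (ZMod 2)[X], ∀ a : V, a ≠ 0 → aeval γ p a = 0 → aeval γ p = 0 := by
    intro p a ha hpa
    ext b
    by_cases hb : b = 0
    · rw [hb]; simp
    obtain ⟨i, hi⟩ := htrans a b ha hb
    have hcomm : Commute (aeval γ p) (γ ^ i) := by
      have h1 : Commute (aeval γ p) γ := by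
        have : aeval γ (p * X) = aeval γ (X * p) := by rw [mul_comm]
        simpa [Commute, SemiconjBy] using this
      exact h1.pow_right i
    rw [← hi]
    have h2 : aeval γ p ((γ ^ i) a) = (γ ^ i) (aeval γ p a) := by
      have := congrArg (fun T : Module.End (ZMod 2) V => T a) hcomm.eq
      simpa using this
    rw [h2, hpa, map_zero]; rfl
  have hmul : ∀ p q : (ZMod 2)[X], aeval γ p * aeval γ q = 0 → aeval γ p = 0 ∨ aeval γ q = 0 := by
    intro p q h
    by_cases hq : aeval γ q = 0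
    · exact Or.inr hq
    left
    obtain ⟨a, ha⟩ : ∃ a, aeval γ q a ≠ 0 := by
      by_contra hall
      push Not at hall
      exact hq (LinearMap.ext hall)
    refine hinj p _ ha ?_
    have := congrArg (fun T : Module.End (ZMod 2) V => T a) h
    simpa using this
  have hf1 : f ≠ 1 := by
    intro h
    have := minpoly.aeval (ZMod 2) γ
    rw [← hf, h, map_one] at this
    obtain ⟨a, ha⟩ := hne
    exact ha (by simpa using congrArg (fun T : Module.End (ZMod 2) V => T a) this)
  have hirr : Irreducible f := by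
    rw [hfm.irreducible_iff_natDegree]
    refine ⟨hf1, ?_⟩
    intro p q hp hq hpq
    have h0 : aeval γ p * aeval γ q = 0 := by
      rw [← map_mul, hpq, hf, minpoly.aeval]
    rcases hmul p q h0 with h | h
    · right
      have h1 : f ∣ p := minpoly.dvd (ZMod 2) γ h
      have h2 : f.natDegree ≤ p.natDegree := Polynomial.natDegree_le_of_dvd h1 hp.ne_zero
      have h3 : f.natDegree = p.natDegree + q.natDegree := by
        rw [← hpq, hp.natDegree_mul hq]
      omega
    · left
      have h1 : f ∣ q := minpoly.dvd (ZMod 2) γ h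
      have h2 : f.natDegree ≤ q.natDegree := Polynomial.natDegree_le_of_dvd h1 hq.ne_zero
      have h3 : f.natDegree = p.natDegree + q.natDegree := by
        rw [← hpq, hp.natDegree_mul hq]
      omega
  haveI : Fact (Irreducible f) := ⟨hirr⟩
  let F := AdjoinRoot f
  letI : Field F := AdjoinRoot.instField
  haveI : Module.Finite (ZMod 2) F := (AdjoinRoot.powerBasis hf0).finite
  haveI : Finite F := Module.finite_of_finite (ZMod 2)
  set θ : F := AdjoinRoot.root f with hθ
  set y : F := θ ^ e with hy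
  have hyroot : aeval y f = 0 := by
    have h1 : aeval y f = aeval θ (f.comp (X ^ e)) := by
      rw [aeval_comp, map_pow, aeval_X]
    rw [h1, hθ, AdjoinRoot.aeval_eq, AdjoinRoot.mk_eq_zero]
    apply minpoly.dvd (ZMod 2) γ
    rw [aeval_comp, map_pow, aeval_X, ← hconj]
    have h6 := Polynomial.aeval_algHom_apply
      (LinearEquiv.conjAlgEquiv (R := ZMod 2) ψ : Module.End (ZMod 2) V →ₐ[ZMod 2] Module.End (ZMod 2) V) γ f
    have h7 : aeval γ f = 0 := by rw [hf, minpoly.aeval]
    rw [h7, map_zero] at h6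
    exact h6
  have hminθ : minpoly (ZMod 2) θ = f := by
    rw [hθ, AdjoinRoot.minpoly_root hf0, hfm.leadingCoeff]
    simp
  have hminy : minpoly (ZMod 2) y = f :=
    (minpoly.eq_of_irreducible_of_monic hirr hyroot hfm).symm
  have hconjroot : IsConjRoot (ZMod 2) y θ := by
    show minpoly (ZMod 2) y = minpoly (ZMod 2) θ
    rw [hminy, hminθ]
  obtain ⟨σ, hσ⟩ := isConjRoot_iff_exists_algEquiv.mp hconjroot
  -- `σ` is a power of Frobenius
  obtain ⟨⟨n, hn⟩, hσn⟩ := (FiniteField.bijective_frobeniusAlgEquivOfAlgebraic_pow (ZMod 2) F).2 σ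
  refine ⟨n, ?_⟩
  have hσθ : σ θ = θ ^ (2 ^ n) := by
    simp only at hσn
    rw [← hσn, AlgEquiv.coe_pow, FiniteField.coe_frobeniusAlgEquivOfAlgebraic_iterate, ZMod.card]
  have h3 : y = θ ^ (2 ^ n) := by rw [← hσ, hσθ]
  have h4 : aeval θ ((X : (ZMod 2)[X]) ^ e - X ^ (2 ^ n)) = 0 := by
    rw [map_sub, map_pow, map_pow, aeval_X, ← hy, h3, sub_self]
  rw [hθ, AdjoinRoot.aeval_eq, AdjoinRoot.mk_eq_zero] at h4
  obtain ⟨g, hg⟩ := h4
  have h5 : aeval γ ((X : (ZMod 2)[X]) ^ e - X ^ (2 ^ n)) = 0 := by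
    rw [hg, map_mul, hf, minpoly.aeval, zero_mul]
  rw [map_sub, map_pow, map_pow, aeval_X] at h5
  exact sub_eq_zero.mp h5

end Linear

section Mul

variable {A : Type u} [CommGroup A] [Finite A]

/-- The multiplicative version. -/
theorem exists_two_pow_mul (h2 : ∀ a : A, a * a = 1) (γ ψ : MulAut A) (e : ℕ)
    (hconj : ψ * γ * ψ⁻¹ = γ ^ e)
    (htrans : ∀ a b : A, a ≠ 1 → b ≠ 1 → ∃ i : ℕ, (γ ^ i) a = b) (hne : ∃ a : A, a ≠ 1) :
    ∃ j : ℕ, γ ^ e = γ ^ (2 ^ j) := by
  classical
  let V := Additive A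
  have h2V : ∀ x : V, 2 • x = 0 := by
    intro x
    show Additive.ofMul ((Additive.toMul x) ^ 2) = 0
    rw [pow_two, h2]; rfl
  letI : Module (ZMod 2) V := AddCommGroup.zmodModule h2V
  -- the linear map of an automorphism
  let L : MulAut A → Module.End (ZMod 2) V := fun g =>
    ((MulEquiv.toAdditive g).toAddMonoidHom).toZModLinearMap 2
  have hL : ∀ (g : MulAut A) (x : V), L g x = Additive.ofMul (g (Additive.toMul x)) := fun g x => rfl
  have hLone : L 1 = 1 := by
    ext x
    rw [hL]; rfl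
  have hLmul : ∀ g g', L (g * g') = L g * L g' := by
    intro g g'
    ext x
    rw [hL]; rfl
  have hLpow : ∀ (g : MulAut A) (n : ℕ), L (g ^ n) = L g ^ n := by
    intro g n
    induction n with
    | zero => rw [pow_zero, pow_zero, hLone]
    | succ n ih => rw [pow_succ, pow_succ, hLmul, ih]
  have hLinj : Function.Injective L := by
    intro g g' h
    ext a
    have := congrArg (fun T : Module.End (ZMod 2) V => T (Additive.ofMul a)) h
    exact Additive.ofMul.injective this
  let Ψ : V ≃ₗ[ZMod 2] V := LinearEquiv.ofLinear (L ψ) (L ψ⁻¹)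
    (by
      show L ψ * L ψ⁻¹ = 1
      rw [← hLmul, mul_inv_cancel, hLone])
    (by
      show L ψ⁻¹ * L ψ = 1
      rw [← hLmul, inv_mul_cancel, hLone])
  obtain ⟨j, hj⟩ := exists_two_pow (V := V) (L γ) Ψ e (by
      rw [← hLpow, ← hconj]
      ext x
      simp only [LinearEquiv.conjAlgEquiv_apply]
      rfl)
    (by
      intro a b ha hb
      obtain ⟨i, hi⟩ := htrans (Additive.toMul a) (Additive.toMul b) ha hb
      refine ⟨i, ?_⟩
      rw [← hLpow, hL, hi]
      rfl)
    (by
      obtain ⟨a, ha⟩ := hne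
      exact ⟨Additive.ofMul a, ha⟩)
  refine ⟨j, hLinj ?_⟩
  rw [hLpow, hLpow, hj]

end Mul

end Cfsg.Agent.Lib.Perm.RankOneF
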