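import Mathlib
import Cfsg.Agent.Lib.Frobenius.Norm
import Cfsg.Agent.Lib.Frobenius.SylowFpf
import Cfsg.Agent.Lib.PGroup.CyclicMax2

/-!
# An odd transitive linear group with an inverting automorphism

`L` of odd order, solvable, acts faithfully on an elementary abelian `2`-group `A`, transitively on
`A#`; `τ` is an involutive automorphism of `L`, `L` is generated by the elements inverted by `τ`, and
those act fixed point freely on `A`.  Then `L` is abelian.
-/

set_option autoImplicit false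
set_option linter.style.haveILetI false
set_option linter.unusedVariables false
set_option linter.unusedSectionVars false

namespace Cfsg.Agent.Lib.Perm.RankOneX

open Subgroup
open scoped commutatorElement

universe u v

section Comm

variable {L : Type u} [Group L]

theorem comm_mul_left_of_central {g h x : L} (hc : ⁅h, x⁆ ∈ center L) :
    ⁅g * h, x⁆ = ⁅h, x⁆ * ⁅g, x⁆ := by
  have hcc := mem_center_iff.mp hc
  have : ⁅g * h, x⁆ = g * ⁅h, x⁆ * g⁻¹ * ⁅g, x⁆ := by
    simp only [commutatorElement_def]; group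
  rw [this, hcc g, mul_inv_cancel_right]

theorem comm_inv_left_of_central {g x : L} (hc : ⁅g, x⁆ ∈ center L) :
    ⁅g⁻¹, x⁆ = ⁅g, x⁆⁻¹ := by
  have h1 := comm_mul_left_of_central (g := g⁻¹) (h := g) (x := x) hc
  simp only [inv_mul_cancel, commutatorElement_one_left] at h1
  have h2 : ⁅g, x⁆ * ⁅g⁻¹, x⁆ = 1 := h1.symm
  exact (eq_inv_of_mul_eq_one_right h2)

theorem comm_pow_left {x u : L} (hc : ⁅x, u⁆ ∈ center L) (n : ℕ) :
    ⁅x ^ n, u⁆ = ⁅x, u⁆ ^ n := by
  induction n with
  | zero => simp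
  | succ n ih =>
    rw [pow_succ', comm_mul_left_of_central (by rw [ih]; exact (center L).pow_mem hc n), ih,
      pow_succ]

theorem comm_pow_right {x u : L} (hc : ⁅x, u⁆ ∈ center L) (n : ℕ) :
    ⁅x, u ^ n⁆ = ⁅x, u⁆ ^ n := by
  have hc' : ⁅u, x⁆ ∈ center L := by
    rw [← commutatorElement_inv]; exact (center L).inv_mem hc
  have h := comm_pow_left hc' n
  rw [← commutatorElement_inv (u ^ n) x, h, ← commutatorElement_inv u x, inv_pow]

/-- the class two power law -/
theorem mul_pow_class_two {a b : L} (hc : ⁅b, a⁆ ∈ center L) (n : ℕ) :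
    (a * b) ^ n = a ^ n * b ^ n * ⁅b, a⁆ ^ (n.choose 2) := by
  induction n with
  | zero => simp
  | succ n ih =>
    have h1 : b ^ n * a = ⁅b, a⁆ ^ n * (a * b ^ n) := by
      rw [← comm_pow_left hc n]
      simp only [commutatorElement_def]; group
    have hcp : ∀ (k : ℕ) (g : L), g * ⁅b, a⁆ ^ k = ⁅b, a⁆ ^ k * g := by
      intro k g
      exact (mem_center_iff.mp ((center L).pow_mem hc k) g)
    have hch : (n + 1).choose 2 = n + n.choose 2 := by
      rw [Nat.choose_succ_succ' n 1, Nat.choose_one_right]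
    rw [pow_succ, ih, hch, pow_add ⁅b, a⁆]
    generalize ⁅b, a⁆ = c at *
    generalize n.choose 2 = N at *
    calc a ^ n * b ^ n * c ^ N * (a * b)
        = a ^ n * b ^ n * (c ^ N * (a * b)) := by rw [mul_assoc]
      _ = a ^ n * b ^ n * ((a * b) * c ^ N) := by rw [← hcp N (a * b)]
      _ = a ^ n * (b ^ n * a) * b * c ^ N := by group
      _ = a ^ n * (c ^ n * (a * b ^ n)) * b * c ^ N := by rw [h1]
      _ = (a ^ n * c ^ n) * (a * b ^ n) * b * c ^ N := by group
      _ = (c ^ n * a ^ n) * (a * b ^ n) * b * c ^ N := by rw [hcp n (a ^ n)]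
      _ = c ^ n * (a ^ (n + 1) * b ^ (n + 1)) * c ^ N := by group
      _ = (a ^ (n + 1) * b ^ (n + 1)) * c ^ n * c ^ N := by rw [← hcp n]
      _ = a ^ (n + 1) * b ^ (n + 1) * (c ^ n * c ^ N) := by group

end Comm

section Factor

variable {L : Type u} [Group L] [Finite L]

/-- Square roots in odd groups. -/
theorem exists_factor_aut (τ : L ≃* L) (hτ : ∀ x, τ (τ x) = x) (hodd : Odd (Nat.card L))
    {X : Subgroup L} (hX : ∀ x ∈ X, τ x ∈ X) {x : L} (hx : x ∈ X) :
    ∃ c y : L, c ∈ X ∧ τ c = c ∧ y ∈ X ∧ τ y = y⁻¹ ∧ x = c * y := by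
  obtain ⟨m, hm⟩ := hodd
  set φ : L := x⁻¹ * τ x with hφ
  have hφX : φ ∈ X := X.mul_mem (X.inv_mem hx) (hX x hx)
  have hφ1 : (φ⁻¹) ^ (2 * m + 1) = 1 := by rw [← hm]; exact pow_card_eq_one'
  have hτφ : τ φ⁻¹ = φ := by
    rw [hφ, map_inv, map_mul, hτ, map_inv]; group
  set y : L := (φ⁻¹) ^ (m + 1) with hy
  have hyX : y ∈ X := X.pow_mem (X.inv_mem hφX) _
  have hysq : y * y = φ⁻¹ := by
    rw [hy, ← pow_add]
    have : m + 1 + (m + 1) = (2 * m + 1) + 1 := by ring
    rw [this, pow_succ, hφ1, one_mul]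
  have hτy : τ y = y⁻¹ := by
    rw [hy, map_pow, hτφ, inv_pow, inv_inv]
  refine ⟨x * y⁻¹, y, X.mul_mem hx (X.inv_mem hyX), ?_, hyX, hτy, by group⟩
  rw [map_mul, map_inv, hτy, inv_inv]
  have hτx : τ x = x * φ := by rw [hφ]; group
  rw [hτx]
  calc x * φ * y = x * (y * y)⁻¹ * y := by rw [hysq, inv_inv]
    _ = x * y⁻¹ := by group

/-- An odd group: `x * x = 1` forces `x = 1`. -/
theorem eq_one_of_sq_of_odd (hodd : Odd (Nat.card L)) {x : L} (h : x * x = 1) : x = 1 := by
  have h1 : orderOf x ∣ 2 := orderOf_dvd_of_pow_eq_one (by rw [pow_two]; exact h)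
  have h2 : orderOf x ∣ Nat.card L := orderOf_dvd_natCard x
  have h3 : Nat.Coprime 2 (Nat.card L) := Nat.coprime_two_left.mpr hodd
  have h4 : orderOf x ∣ Nat.gcd 2 (Nat.card L) := Nat.dvd_gcd h1 h2
  rw [h3] at h4
  exact orderOf_eq_one_iff.mp (Nat.dvd_one.mp h4)

/-- In an odd group every element is a power of its square. -/
theorem mem_of_sq_mem (hodd : Odd (Nat.card L)) (Y : Subgroup L) {k : L} (h : k * k ∈ Y) : k ∈ Y := by
  obtain ⟨m, hm⟩ := hodd
  have h1 : k ^ (2 * m + 1) = 1 := by rw [← hm]; exact pow_card_eq_one'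
  have h2 : k = (k * k) ^ (m + 1) := by
    rw [← pow_two, ← pow_mul]
    have : 2 * (m + 1) = (2 * m + 1) + 1 := by ring
    rw [this, pow_succ, h1, one_mul]
  rw [h2]
  exact Y.pow_mem h _

end Factor

section Aut

/-- Two automorphisms of a cyclic group commute. -/
theorem mulAut_comm_of_isCyclic {N : Type u} [Group N] [IsCyclic N] (f g : MulAut N) :
    f * g = g * f := by
  obtain ⟨x, hx⟩ := IsCyclic.exists_generator (α := N)
  have hpow : ∀ h : MulAut N, ∃ i : ℤ, x ^ i = h x := fun h => mem_zpowers_iff.mp (hx _)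
  obtain ⟨i, hi⟩ := hpow f
  obtain ⟨j, hj⟩ := hpow g
  ext y
  obtain ⟨n, rfl⟩ := mem_zpowers_iff.mp (hx y)
  simp only [MulAut.mul_apply, map_zpow, ← hi, ← hj, ← zpow_mul]
  rw [mul_comm i j]

end Aut

variable {L : Type u} {A : Type v} [Group L] [Finite L] [CommGroup A] [Finite A]
  [MulDistribMulAction L A]

/-- The hypotheses. -/
structure Data (L : Type u) (A : Type v) [Group L] [CommGroup A] [MulDistribMulAction L A]
    (τ : L ≃* L) : Prop where
  odd : Odd (Nat.card L)
  solv : Group.IsSolvable L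
  two : ∀ a : A, a * a = 1
  ne : ∃ a : A, a ≠ 1
  faithful : ∀ g : L, (∀ a : A, g • a = a) → g = 1
  trans : ∀ a b : A, a ≠ 1 → b ≠ 1 → ∃ g : L, g • a = b
  invol : ∀ x, τ (τ x) = x
  gen : Subgroup.closure {x : L | τ x = x⁻¹} = ⊤
  fpf : ∀ x, τ x = x⁻¹ → x ≠ 1 → ∀ a : A, x • a = a → a = 1

section Norm

variable (n : L) (c : A)

/-- The norm along `⟨n⟩`. -/
noncomputable def nm (n : L) (c : A) : A := ∏ i ∈ Finset.range (orderOf n), n ^ i • c

theorem smul_nm : n • nm n c = nm n c := by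
  unfold nm
  rw [Finset.smul_prod']
  simp only [smul_smul, ← pow_succ']
  have h1 := Finset.prod_range_succ (fun i => n ^ i • c) (orderOf n)
  have h2 := Finset.prod_range_succ' (fun i => n ^ i • c) (orderOf n)
  rw [h1] at h2
  simp only [pow_orderOf_eq_one, one_smul, pow_zero] at h2
  exact (mul_right_cancel h2).symm

theorem nm_mul (c d : A) : nm n (c * d) = nm n c * nm n d := by
  unfold nm
  rw [← Finset.prod_mul_distrib]
  exact Finset.prod_congr rfl fun i _ => smul_mul' _ _ _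

theorem nm_smul_comm {g : L} (hg : g * n = n * g) : nm n (g • c) = g • nm n c := by
  unfold nm
  rw [Finset.smul_prod']
  refine Finset.prod_congr rfl fun i _ => ?_
  rw [smul_smul, smul_smul, (Commute.pow_right (show Commute g n from hg) i).eq]

theorem nm_of_fixed (hodd : Odd (orderOf n)) (htwo : ∀ a : A, a * a = 1) (hc : n • c = c) :
    nm n c = c := by
  unfold nm
  have h1 : ∀ i : ℕ, n ^ i • c = c := by
    intro i
    induction i with
    | zero => simp
    | succ i ih => rw [pow_succ, mul_smul, hc, ih]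
  rw [Finset.prod_congr rfl fun i _ => h1 i, Finset.prod_const, Finset.card_range]
  obtain ⟨m, hm⟩ := hodd
  rw [hm, pow_succ, pow_mul, pow_two, htwo, one_pow, one_mul]

end Norm

namespace Data

variable {τ : L ≃* L} (D : Data L A τ)

include D

theorem odd_orderOf (g : L) : Odd (orderOf g) :=
  Odd.of_dvd_nat D.odd (orderOf_dvd_natCard g)

theorem inv_eq (a : A) : a⁻¹ = a := inv_eq_of_mul_eq_one_left (D.two a)

/-- Abelian normal subgroups act semiregularly. -/
theorem semireg (N : Subgroup L) [hN : N.Normal] (hab : ∀ x ∈ N, ∀ y ∈ N, x * y = y * x) {n : L}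
    (hn : n ∈ N) {a : A} (ha : a ≠ 1) (hna : n • a = a) : n = 1 := by
  by_contra hn1
  obtain ⟨c, hc⟩ : ∃ c : A, n • c ≠ c := by
    by_contra hall
    push Not at hall
    exact hn1 (D.faithful n hall)
  have htwo := D.two
  have hoddn := D.odd_orderOf n
  set a' : A := c * nm n c with ha'
  have hnm : nm n (nm n c) = nm n c := nm_of_fixed n _ hoddn htwo (smul_nm n c)
  have hNa' : nm n a' = 1 := by rw [ha', nm_mul, hnm, htwo]
  have hna' : n • a' ≠ a' := by
    intro h
    have h1 := nm_of_fixed n a' hoddn htwo h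
    rw [hNa'] at h1
    have h2 : c = nm n c := by
      have h3 : c * nm n c = 1 := h1.symm
      have := eq_inv_of_mul_eq_one_left h3
      rwa [D.inv_eq] at this
    apply hc
    rw [h2, smul_nm]
  set a'' : A := a * a' with ha''
  have ha''1 : a'' ≠ 1 := by
    intro h
    have h1 : a' = a := by
      have := eq_inv_of_mul_eq_one_right h
      rwa [D.inv_eq] at this
    apply hna'
    rw [h1, hna]
  obtain ⟨h, hh⟩ := D.trans a a'' ha ha''1
  -- stabilisers
  let S : A → Subgroup L := fun x => N ⊓ MulAction.stabilizer L x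
  have hle : S a'' ≤ S a := by
    rintro g ⟨hgN, hg⟩
    refine ⟨hgN, ?_⟩
    have hg' : g • a'' = a'' := hg
    show g • a = a
    have hgn : g * n = n * g := hab g hgN n hn
    have h1 : g • a * g • a' = a * a' := by rw [← smul_mul', hg']
    set b : A := g • a * a with hb
    have hb2 : b = a' * g • a' := by
      have h2 : g • a * a = g • a * g • a' * (g • a' * a) := by
        have := htwo (g • a')
        calc g • a * a = g • a * (g • a' * g • a') * a := by rw [this, mul_one]
          _ = _ := by simp only [mul_assoc]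
      rw [hb, h2, h1]
      calc a * a' * (g • a' * a) = (a * a) * a' * g • a' := by
            simp only [mul_comm, mul_left_comm, mul_assoc]
        _ = a' * g • a' := by rw [htwo, one_mul]
    have hnb : n • b = b := by
      rw [hb, smul_mul', hna, ← mul_smul, ← hgn, mul_smul, hna]
    have hNb : nm n b = 1 := by
      rw [hb2, nm_mul, hNa', nm_smul_comm n a' hgn, hNa', smul_one, one_mul]
    have hb1 : b = 1 := by
      have := nm_of_fixed n b hoddn htwo hnb
      rw [hNb] at this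
      exact this.symm
    have := eq_inv_of_mul_eq_one_left (hb ▸ hb1 : g • a * a = 1)
    rwa [D.inv_eq] at this
  have hconj : S a'' = (S a).map (MulAut.conj h).toMonoidHom := by
    ext g
    constructor
    · rintro ⟨hgN, hg⟩
      refine ⟨h⁻¹ * g * h, ⟨?_, ?_⟩, by simp [mul_assoc]⟩
      · have := hN.conj_mem g hgN h⁻¹
        simpa using this
      · show (h⁻¹ * g * h) • a = a
        have hg' : g • a'' = a'' := hg
        rw [mul_smul, mul_smul, hh, hg', ← hh, inv_smul_smul]
    · rintro ⟨g', ⟨hg'N, hg'⟩, rfl⟩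
      refine ⟨hN.conj_mem g' hg'N h, ?_⟩
      show (h * g' * h⁻¹) • a'' = a''
      have hg'' : g' • a = a := hg'
      rw [← hh, mul_smul, mul_smul, inv_smul_smul, hg'']
  have hcard : Nat.card (S a'') = Nat.card (S a) := by
    rw [hconj]
    exact Subgroup.card_map_of_injective (MulEquiv.injective _)
  have heq : S a'' = S a := Subgroup.eq_of_le_of_card_ge hle hcard.ge
  have hnS : n ∈ S a'' := by
    rw [heq]; exact ⟨hn, hna⟩
  have hn'' : n • a'' = a'' := hnS.2
  rw [ha'', smul_mul', hna] at hn''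
  exact hna' (mul_left_cancel hn'')

/-- Central elements act fixed point freely. -/
theorem central_fpf {z : L} (hz : z ∈ center L) {a : A} (ha : a ≠ 1) (hza : z • a = a) : z = 1 := by
  have hN : (center L).Normal := inferInstance
  exact D.semireg (center L) (fun x hx y _ => (mem_center_iff.mp hx y).symm) hz ha hza

/-- An abelian subgroup acting semiregularly is cyclic. -/
theorem isCyclic_of_semireg (T : Subgroup L) (hab : ∀ x ∈ T, ∀ y ∈ T, x * y = y * x)
    (hs : ∀ n ∈ T, ∀ a : A, a ≠ 1 → n • a = a → n = 1) : IsCyclic T := by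
  letI : CommGroup T :=
    { (inferInstance : Group T) with
      mul_comm := fun x y => Subtype.ext (hab x x.2 y y.2) }
  by_contra hnc
  obtain ⟨p, hp, E, hE, hEp⟩ := Cfsg.Agent.Lib.Frobenius.Norm.exists_elementary_of_not_isCyclic hnc
  haveI : Fact p.Prime := ⟨hp⟩
  have hsub : Subsingleton A := by
    apply Cfsg.Agent.Lib.Frobenius.Norm.subsingleton_of_elementary (A := E) (V := A) (p := p)
      _ hE (fun a => Subtype.ext (hEp a a.2))
    intro e he v hv
    by_contra hv1
    apply he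
    have h1 : ((e : T) : L) = 1 := hs _ (e : T).2 v hv1 hv
    exact Subtype.ext (Subtype.ext h1)
  obtain ⟨a, ha⟩ := D.ne
  exact ha (Subsingleton.elim _ _)

/-- Abelian normal `τ`-invariant subgroups are central. -/
theorem central_of_abelian (N : Subgroup L) [hN : N.Normal] (hab : ∀ x ∈ N, ∀ y ∈ N, x * y = y * x)
    (hτ : ∀ x ∈ N, τ x ∈ N) : N ≤ center L := by
  haveI hcyc : IsCyclic N := D.isCyclic_of_semireg N hab (fun n hn a ha hna => D.semireg N hab hn ha hna)
  let φ : L →* MulAut N := MulAut.conjNormal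
  have hφ : ∀ (g : L) (n : N), ((φ g n : N) : L) = g * n * g⁻¹ := fun g n => rfl
  let τN : MulAut N :=
    { toFun := fun x => ⟨τ (x : L), hτ x x.2⟩
      invFun := fun x => ⟨τ (x : L), hτ x x.2⟩
      left_inv := fun x => Subtype.ext (D.invol x)
      right_inv := fun x => Subtype.ext (D.invol x)
      map_mul' := fun x y => Subtype.ext (map_mul τ (x : L) (y : L)) }
  have hker : Subgroup.closure {x : L | τ x = x⁻¹} ≤ φ.ker := by
    rw [Subgroup.closure_le]
    intro k hk
    have hk' : τ k = k⁻¹ := hk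
    have h1 : φ (τ k) * τN = τN * φ k := by
      ext n
      show τ k * τ n * (τ k)⁻¹ = τ (k * n * k⁻¹)
      simp
    have h2 : φ (τ k) = φ k := by
      have h3 : τN * φ k = φ k * τN := mulAut_comm_of_isCyclic _ _
      rw [h3] at h1
      exact mul_right_cancel h1
    rw [hk', map_inv] at h2
    have h3 : φ k ^ 2 = 1 := by
      rw [pow_two]
      nth_rewrite 1 [← h2]
      simp
    have h4 : (φ k) ^ (orderOf k) = 1 := by
      rw [← map_pow, pow_orderOf_eq_one, map_one]
    have h5 : orderOf (φ k) ∣ Nat.gcd 2 (orderOf k) :=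
      Nat.dvd_gcd (orderOf_dvd_of_pow_eq_one h3) (orderOf_dvd_of_pow_eq_one h4)
    have h6 : Nat.gcd 2 (orderOf k) = 1 := Nat.coprime_two_left.mpr (D.odd_orderOf k)
    rw [h6] at h5
    exact orderOf_eq_one_iff.mp (Nat.dvd_one.mp h5)
  rw [D.gen, top_le_iff] at hker
  intro x hx
  rw [mem_center_iff]
  intro g
  have hg : g ∈ φ.ker := by rw [hker]; trivial
  have h1 : φ g ⟨x, hx⟩ = ⟨x, hx⟩ := by
    rw [MonoidHom.mem_ker.mp hg]; rfl
  have h2 : g * x * g⁻¹ = x := congrArg Subtype.val h1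
  calc g * x = g * x * g⁻¹ * g := by group
    _ = x * g := by rw [h2]


/-- The minimal subgroup data. -/
structure MinSub (τ : L ≃* L) (M : Subgroup L) : Prop where
  normal : M.Normal
  inv : ∀ x ∈ M, τ x ∈ M
  ncen : ¬ M ≤ center L
  min : ∀ N : Subgroup L, N ≤ M → N.Normal → (∀ x ∈ N, τ x ∈ N) → N ≤ center L ∨ N = M

theorem closure_normal_of_conj (S : Set L) (hS : ∀ g : L, ∀ y ∈ S, g * y * g⁻¹ ∈ S) :
    (Subgroup.closure S).Normal := by
  constructor
  intro n hn g
  induction hn using Subgroup.closure_induction with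
  | mem x hx => exact Subgroup.subset_closure (hS g x hx)
  | one => simp
  | mul a b _ _ ha hb =>
    have : g * (a * b) * g⁻¹ = (g * a * g⁻¹) * (g * b * g⁻¹) := by group
    rw [this]; exact Subgroup.mul_mem _ ha hb
  | inv a _ ha =>
    have : g * a⁻¹ * g⁻¹ = (g * a * g⁻¹)⁻¹ := by group
    rw [this]; exact Subgroup.inv_mem _ ha

theorem closure_tau_of (S : Set L) (hS : ∀ y ∈ S, τ y ∈ S) : ∀ x ∈ Subgroup.closure S, τ x ∈ Subgroup.closure S := by
  intro x hx
  induction hx using Subgroup.closure_induction with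
  | mem x hx => exact Subgroup.subset_closure (hS x hx)
  | one => simp
  | mul a b _ _ ha hb => rw [map_mul]; exact Subgroup.mul_mem _ ha hb
  | inv a _ ha => rw [map_inv]; exact Subgroup.inv_mem _ ha

theorem class_two {M : Subgroup L} (hM : MinSub τ M) : ∀ x ∈ M, ∀ y ∈ M, ⁅x, y⁆ ∈ center L := by
  haveI := hM.normal
  have hne : M ≠ ⊥ := by
    rintro rfl
    exact hM.ncen bot_le
  have hcomm : ⁅M, M⁆ ≠ M := by
    intro h
    haveI := D.solv
    haveI hsolv : Group.IsSolvable M := inferInstance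
    haveI : Nontrivial M := Subgroup.nontrivial_iff_ne_bot _ |>.mpr hne
    have h1 := Group.IsSolvable.commutator_lt_top_of_nontrivial M
    have h2 : (commutator M).map M.subtype = M := by
      rw [Subgroup.map_subtype_commutator, h]
    apply h1.ne
    apply Subgroup.map_injective M.subtype_injective
    rw [h2, ← MonoidHom.range_eq_map, Subgroup.range_subtype]
  have hle : ⁅M, M⁆ ≤ M := Subgroup.commutator_le_left M M
  have hn : (⁅M, M⁆ : Subgroup L).Normal := inferInstance
  have hτ : ∀ x ∈ ⁅M, M⁆, τ x ∈ ⁅M, M⁆ := by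
    have : ⁅M, M⁆ ≤ (⁅M, M⁆ : Subgroup L).comap τ.toMonoidHom := by
      rw [Subgroup.commutator_le]
      intro a ha b hb
      rw [Subgroup.mem_comap]
      show τ ⁅a, b⁆ ∈ _
      rw [map_commutatorElement]
      exact Subgroup.commutator_mem_commutator (hM.inv a ha) (hM.inv b hb)
    exact fun x hx => this hx
  rcases hM.min _ hle hn hτ with h | h
  · exact fun x hx y hy => h (Subgroup.commutator_mem_commutator hx hy)
  · exact absurd h hcomm

/-- An odd power law in class two. -/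
theorem mul_pow_odd {a b : L} (hc : ⁅b, a⁆ ∈ center L) {N : ℕ} (hN : Odd N) (ha : a ^ N = 1)
    (hb : b ^ N = 1) : (a * b) ^ N = 1 := by
  rw [mul_pow_class_two hc, ha, hb, one_mul, one_mul]
  have h1 : ⁅b, a⁆ ^ N = 1 := by
    rw [← comm_pow_left hc, hb, commutatorElement_one_left]
  obtain ⟨m, rfl⟩ := hN
  have h2 : (2 * m + 1).choose 2 = (2 * m + 1) * m := by
    rw [Nat.choose_two_right]
    have : 2 * m + 1 - 1 = 2 * m := by omega
    rw [this]
    exact Nat.div_eq_of_eq_mul_right (by norm_num) (by ring)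
  rw [h2, pow_mul, h1, one_pow]

/-- `x` with a nontrivial commutator yields one between `l`-elements, and `M` has exponent `l`. -/
theorem exponent {M : Subgroup L} (hM : MinSub τ M) (hnab : ∃ x ∈ M, ∃ u ∈ M, ⁅x, u⁆ ≠ 1) :
    ∃ l : ℕ, l.Prime ∧ l ≠ 2 ∧ ∀ y ∈ M, y ^ l = 1 := by
  classical
  haveI := hM.normal
  have hc2 := D.class_two hM
  obtain ⟨x, hx, u, hu, hz⟩ := hnab
  set z := ⁅x, u⁆ with hzdef
  have hzc : z ∈ center L := hc2 x hx u hu
  have hoz : orderOf z ≠ 1 := by
    rw [Ne, orderOf_eq_one_iff]; exact hz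
  obtain ⟨l, hl, hlz⟩ := Nat.exists_prime_and_dvd hoz
  haveI : Fact l.Prime := ⟨hl⟩
  have hl2 : l ≠ 2 := by
    rintro rfl
    have := D.odd_orderOf z
    exact (Nat.not_even_iff_odd.mpr this) (even_iff_two_dvd.mpr hlz)
  have hlodd : Odd l := hl.odd_of_ne_two hl2
  refine ⟨l, hl, hl2, ?_⟩
  -- `l`-parts
  obtain ⟨f, n', hn', hn⟩ := Nat.exists_eq_pow_mul_and_not_dvd (orderOf_pos x).ne' l hl.ne_one
  obtain ⟨g, m', hm', hm⟩ := Nat.exists_eq_pow_mul_and_not_dvd (orderOf_pos u).ne' l hl.ne_one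
  set x2 := x ^ n' with hx2
  set u2 := u ^ m' with hu2
  have hx2M : x2 ∈ M := M.pow_mem hx _
  have hu2M : u2 ∈ M := M.pow_mem hu _
  have hx2p : x2 ^ l ^ f = 1 := by
    rw [hx2, ← pow_mul, mul_comm, ← hn, pow_orderOf_eq_one]
  have hu2p : u2 ^ l ^ g = 1 := by
    rw [hu2, ← pow_mul, mul_comm, ← hm, pow_orderOf_eq_one]
  have hzn : z ^ orderOf x = 1 := by
    rw [hzdef, ← comm_pow_left hzc, pow_orderOf_eq_one, commutatorElement_one_left]
  set z2 := z ^ n' with hz2
  have hz2c : z2 ∈ center L := (center L).pow_mem hzc _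
  have hcx2 : ⁅x2, u⁆ = z2 := comm_pow_left hzc n'
  have hz21 : z2 ≠ 1 := by
    intro h
    have h1 : orderOf z ∣ n' := orderOf_dvd_of_pow_eq_one h
    exact hn' (hlz.trans h1)
  have hz2p : z2 ^ l ^ f = 1 := by
    rw [hz2, ← pow_mul, mul_comm, ← hn, hzn]
  have hcx22 : ⁅x2, u2⁆ ≠ 1 := by
    rw [hu2, comm_pow_right (by rw [hcx2]; exact hz2c), hcx2]
    intro h
    have h1 : orderOf z2 ∣ m' := orderOf_dvd_of_pow_eq_one h
    have h2 : orderOf z2 ∣ l ^ f := orderOf_dvd_of_pow_eq_one hz2p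
    obtain ⟨i, -, hi⟩ := (Nat.dvd_prime_pow hl).mp h2
    have hi0 : i ≠ 0 := by
      rintro rfl
      rw [pow_zero, orderOf_eq_one_iff] at hi
      exact hz21 hi
    have h3 : l ∣ orderOf z2 := by
      rw [hi]; exact dvd_pow_self l hi0
    exact hm' (h3.trans h1)
  -- the subgroup of elements of order dividing `l ^ k`
  set k := max f g with hk
  have hNodd : Odd (l ^ k) := hlodd.pow
  let T : Subgroup L :=
    { carrier := {y | y ∈ M ∧ y ^ l ^ k = 1}
      one_mem' := ⟨M.one_mem, one_pow _⟩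
      mul_mem' := fun {a b} ha hb => ⟨M.mul_mem ha.1 hb.1, D.mul_pow_odd (hc2 b hb.1 a ha.1) hNodd ha.2 hb.2⟩
      inv_mem' := fun {a} ha => ⟨M.inv_mem ha.1, by rw [inv_pow, ha.2, inv_one]⟩ }
  have hx2T : x2 ∈ T := by
    refine ⟨hx2M, ?_⟩
    obtain ⟨e, he⟩ : ∃ e, k = f + e := ⟨k - f, by omega⟩
    rw [he, pow_add, pow_mul, hx2p, one_pow]
  have hu2T : u2 ∈ T := by
    refine ⟨hu2M, ?_⟩
    obtain ⟨e, he⟩ : ∃ e, k = g + e := ⟨k - g, by omega⟩
    rw [he, pow_add, pow_mul, hu2p, one_pow]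
  -- the subgroup generated by the elements of order `l`
  let S : Set L := {y | y ∈ M ∧ y ^ l = 1}
  have hΩle : Subgroup.closure S ≤ M := by
    rw [Subgroup.closure_le]
    exact fun y hy => hy.1
  have hΩn : (Subgroup.closure S).Normal := D.closure_normal_of_conj S (by
    intro g y hy
    refine ⟨hM.normal.conj_mem y hy.1 g, ?_⟩
    rw [conj_pow, hy.2]; group)
  have hΩτ := D.closure_tau_of S (by
    intro y hy
    exact ⟨hM.inv y hy.1, by rw [← map_pow, hy.2, map_one]⟩)
  rcases hM.min _ hΩle hΩn hΩτ with h | h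
  · -- every element of order `l` is central: `T` is cyclic
    exfalso
    have hTp : IsPGroup l T := fun y => ⟨k, Subtype.ext (by
      show ((y : L)) ^ l ^ k = 1
      exact y.2.2)⟩
    have huniq : ∀ A' B' : Subgroup T, Nat.card A' = l → Nat.card B' = l → A' = B' := by
      apply Cfsg.Agent.Lib.Frobenius.SylowFpf.unique_of_no_elementary hTp
      intro E hE hexp
      have hsub : Subsingleton A := by
        apply Cfsg.Agent.Lib.Frobenius.Norm.subsingleton_of_elementary (A := E) (V := A) (p := l)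
          _ hE (fun a => Subtype.ext (hexp a a.2))
        intro e he v hv
        by_contra hv1
        apply he
        have h1 : ((e : T) : L) ∈ center L := by
          apply h
          apply Subgroup.subset_closure
          refine ⟨(e : T).2.1, ?_⟩
          have := hexp e e.2
          exact congrArg Subtype.val this
        have h2 : ((e : T) : L) = 1 := D.central_fpf h1 hv1 hv
        exact Subtype.ext (Subtype.ext h2)
      obtain ⟨a, ha⟩ := D.ne
      exact ha (Subsingleton.elim _ _)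
    rcases Cfsg.Agent.S0016.result l hTp huniq with hc | ⟨h2, -⟩
    · haveI := hc
      have hcomm : (⟨x2, hx2T⟩ : T) * ⟨u2, hu2T⟩ = ⟨u2, hu2T⟩ * ⟨x2, hx2T⟩ := by
        obtain ⟨w, hw⟩ := IsCyclic.exists_generator (α := T)
        obtain ⟨i, hi⟩ := mem_zpowers_iff.mp (hw ⟨x2, hx2T⟩)
        obtain ⟨j, hj⟩ := mem_zpowers_iff.mp (hw ⟨u2, hu2T⟩)
        rw [← hi, ← hj, ← zpow_add, ← zpow_add, add_comm]
      have h3 : x2 * u2 = u2 * x2 := congrArg Subtype.val hcomm
      exact hcx22 (commutatorElement_eq_one_iff_mul_comm.mpr h3)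
    · exact hl2 h2
  · intro y hy
    rw [← h] at hy
    have : y ∈ M ∧ y ^ l = 1 := by
      induction hy using Subgroup.closure_induction with
      | mem y hy => exact hy
      | one => exact ⟨M.one_mem, one_pow _⟩
      | mul a b _ _ ha hb =>
        exact ⟨M.mul_mem ha.1 hb.1, D.mul_pow_odd (hc2 b hb.1 a ha.1) hlodd ha.2 hb.2⟩
      | inv a _ ha => exact ⟨M.inv_mem ha.1, by rw [inv_pow, ha.2, inv_one]⟩
    exact this.2

/-- A non-central inverted element in `M`. -/
theorem exists_inverted {M : Subgroup L} (hM : MinSub τ M) (hnab : ∃ x ∈ M, ∃ u ∈ M, ⁅x, u⁆ ≠ 1) :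
    ∃ y ∈ M, τ y = y⁻¹ ∧ ∃ u ∈ M, ⁅y, u⁆ ≠ 1 := by
  classical
  haveI := hM.normal
  have hc2 := D.class_two hM
  by_contra hcon
  push Not at hcon
  have hodd := D.odd
  -- the centre of `M`
  let Z : Subgroup L := M ⊓ Subgroup.centralizer (M : Set L)
  have hZn : Z.Normal := by
    constructor
    rintro z ⟨hzM, hzc⟩ g
    refine ⟨hM.normal.conj_mem z hzM g, ?_⟩
    replace hzc : z ∈ Subgroup.centralizer (M : Set L) := hzc
    show _ ∈ Subgroup.centralizer (M : Set L)
    rw [Subgroup.mem_centralizer_iff] at hzc ⊢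
    intro h hh
    have h1 := hzc (g⁻¹ * h * g) (by simpa using hM.normal.conj_mem h hh g⁻¹)
    calc h * (g * z * g⁻¹) = g * ((g⁻¹ * h * g) * z) * g⁻¹ := by group
      _ = g * (z * (g⁻¹ * h * g)) * g⁻¹ := by rw [h1]
      _ = g * z * g⁻¹ * h := by group
  have hZτ : ∀ x ∈ Z, τ x ∈ Z := by
    rintro z ⟨hzM, hzc⟩
    refine ⟨hM.inv z hzM, ?_⟩
    replace hzc : z ∈ Subgroup.centralizer (M : Set L) := hzc
    show _ ∈ Subgroup.centralizer (M : Set L)
    rw [Subgroup.mem_centralizer_iff] at hzc ⊢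
    intro h hh
    have h1 := hzc (τ h) (hM.inv h hh)
    have h2 := congrArg τ h1
    simpa [D.invol] using h2
  have hZab : ∀ x ∈ Z, ∀ y ∈ Z, x * y = y * x := by
    rintro x ⟨hxM, hxc⟩ y ⟨hyM, hyc⟩
    replace hyc : y ∈ Subgroup.centralizer (M : Set L) := hyc
    exact (Subgroup.mem_centralizer_iff.mp hyc x hxM)
  have hZcen : Z ≤ center L := D.central_of_abelian Z hZab hZτ
  have hinvcen : ∀ y ∈ M, τ y = y⁻¹ → y ∈ center L := by
    intro y hy hτy
    apply hZcen
    refine ⟨hy, ?_⟩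
    show _ ∈ Subgroup.centralizer (M : Set L)
    rw [Subgroup.mem_centralizer_iff]
    intro u hu
    have := hcon y hy hτy u hu
    exact (commutatorElement_eq_one_iff_mul_comm.mp this).symm
  have hfact : ∀ x ∈ M, ∃ c y : L, c ∈ M ∧ τ c = c ∧ y ∈ center L ∧ τ y = y⁻¹ ∧ x = c * y := by
    intro x hx
    obtain ⟨c, y, hc, hτc, hy, hτy, e⟩ := exists_factor_aut τ D.invol hodd hM.inv hx
    exact ⟨c, y, hc, hτc, hinvcen y hy hτy, hτy, e⟩
  -- all commutators with `M` are central
  let Y : Subgroup L :=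
    { carrier := {g | ∀ x ∈ M, ⁅g, x⁆ ∈ center L}
      one_mem' := fun x _ => by simp [(center L).one_mem]
      mul_mem' := fun {a b} ha hb x hx => by
        rw [comm_mul_left_of_central (hb x hx)]
        exact (center L).mul_mem (hb x hx) (ha x hx)
      inv_mem' := fun {a} ha x hx => by
        rw [comm_inv_left_of_central (ha x hx)]
        exact (center L).inv_mem (ha x hx) }
  have hY : ∀ k : L, τ k = k⁻¹ → k ∈ Y := by
    intro k hk
    apply mem_of_sq_mem hodd
    intro x hx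
    obtain ⟨c, y, hc, hτc, hy, hτy, rfl⟩ := hfact x hx
    have hτk' : τ k⁻¹ = k := by rw [map_inv, hk, inv_inv]
    obtain ⟨c', y', hc', hτc', hy', hτy', e⟩ := hfact (k * c * k⁻¹) (hM.normal.conj_mem c hc k)
    have e2 : k⁻¹ * c * k = c' * y'⁻¹ := by
      have := congrArg τ e
      rw [map_mul, map_mul, map_mul, hk, hτk', hτc, hτc', hτy'] at this
      exact this
    have hycc := mem_center_iff.mp hy
    have hy'cc := mem_center_iff.mp hy'
    have hy'inv : y'⁻¹ ∈ center L := (center L).inv_mem hy'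
    have hy'icc := mem_center_iff.mp hy'inv
    have e3 : (k * k) * c * (k * k)⁻¹ = c * (y' * y') := by
      have e4 : c = k * (c' * y'⁻¹) * k⁻¹ := by rw [← e2]; group
      have e5 : (k * k) * c * (k * k)⁻¹ = k * (c' * y') * k⁻¹ := by rw [← e]; group
      have e6 : k * (c' * y') * k⁻¹ = k * c' * k⁻¹ * y' := by
        calc k * (c' * y') * k⁻¹ = k * c' * (y' * k⁻¹) := by group
          _ = k * c' * (k⁻¹ * y') := by rw [hy'cc k⁻¹]
          _ = k * c' * k⁻¹ * y' := by group
      have e7 : k * (c' * y'⁻¹) * k⁻¹ = k * c' * k⁻¹ * y'⁻¹ := by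
        calc k * (c' * y'⁻¹) * k⁻¹ = k * c' * (y'⁻¹ * k⁻¹) := by group
          _ = k * c' * (k⁻¹ * y'⁻¹) := by rw [hy'icc k⁻¹]
          _ = k * c' * k⁻¹ * y'⁻¹ := by group
      calc (k * k) * c * (k * k)⁻¹ = k * (c' * y') * k⁻¹ := e5
        _ = k * c' * k⁻¹ * y' := e6
        _ = k * c' * k⁻¹ * y'⁻¹ * (y' * y') := by group
        _ = c * (y' * y') := by rw [← e7, ← e4]
    have e8 : ⁅k * k, c * y⁆ = y' * y' := by
      rw [commutatorElement_def]
      have e9 : k * k * (c * y) * (k * k)⁻¹ * (c * y)⁻¹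
          = ((k * k) * c * (k * k)⁻¹) * c⁻¹ := by
        have : k * k * (c * y) * (k * k)⁻¹ = (k * k) * c * (k * k)⁻¹ * y := by
          calc k * k * (c * y) * (k * k)⁻¹ = k * k * c * (y * (k * k)⁻¹) := by group
            _ = k * k * c * ((k * k)⁻¹ * y) := by rw [hycc (k * k)⁻¹]
            _ = _ := by group
        rw [this]; group
      rw [e9, e3]
      have hyy := mem_center_iff.mp ((center L).mul_mem hy' hy')
      calc c * (y' * y') * c⁻¹ = c * ((y' * y') * c⁻¹) := by group
        _ = c * (c⁻¹ * (y' * y')) := by rw [hyy c⁻¹]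
        _ = y' * y' := by group
    rw [e8]
    exact (center L).mul_mem hy' hy'
  have hYtop : Y = ⊤ := by
    rw [eq_top_iff, ← D.gen, Subgroup.closure_le]
    exact fun k hk => hY k hk
  have hcomm : ∀ g : L, ∀ x ∈ M, ⁅g, x⁆ ∈ center L := by
    intro g x hx
    have : g ∈ Y := by rw [hYtop]; trivial
    exact this x hx
  -- the `τ`-fixed part of `M` is abelian
  have hfix : ∀ c ∈ M, τ c = c → ∀ m ∈ M, τ m = m → m * c = c * m := by
    intro c hc hτc m hm hτm
    let Yc : Subgroup L :=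
      { carrier := {g | τ ⁅g, c⁆ = ⁅g, c⁆⁻¹}
        one_mem' := by simp
        mul_mem' := fun {a b} ha hb => by
          show τ ⁅a * b, c⁆ = ⁅a * b, c⁆⁻¹
          rw [comm_mul_left_of_central (hcomm b c hc), map_mul, ha, hb, mul_inv_rev]
          exact (mem_center_iff.mp ((center L).inv_mem (hcomm a c hc)) _)
        inv_mem' := fun {a} ha => by
          show τ ⁅a⁻¹, c⁆ = ⁅a⁻¹, c⁆⁻¹
          rw [comm_inv_left_of_central (hcomm a c hc), map_inv, ha] }
    have hYc : Yc = ⊤ := by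
      rw [eq_top_iff, ← D.gen, Subgroup.closure_le]
      intro k hk
      show τ ⁅k, c⁆ = ⁅k, c⁆⁻¹
      rw [map_commutatorElement, hτc, show τ k = k⁻¹ from hk, comm_inv_left_of_central (hcomm k c hc)]
    have h1 : m ∈ Yc := by rw [hYc]; trivial
    have h2 : τ ⁅m, c⁆ = ⁅m, c⁆⁻¹ := h1
    rw [map_commutatorElement, hτm, hτc] at h2
    have h3 : ⁅m, c⁆ * ⁅m, c⁆ = 1 := by
      calc ⁅m, c⁆ * ⁅m, c⁆ = ⁅m, c⁆⁻¹ * ⁅m, c⁆ := by rw [← h2]
        _ = 1 := inv_mul_cancel _
    have h4 := eq_one_of_sq_of_odd hodd h3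
    exact commutatorElement_eq_one_iff_mul_comm.mp h4
  obtain ⟨x, hx, u, hu, hxu⟩ := hnab
  obtain ⟨c, y, hc, hτc, hy, hτy, rfl⟩ := hfact x hx
  obtain ⟨c', y', hc', hτc', hy', hτy', rfl⟩ := hfact u hu
  apply hxu
  rw [commutatorElement_eq_one_iff_mul_comm]
  have hycc := mem_center_iff.mp hy
  have hy'cc := mem_center_iff.mp hy'
  have e := hfix c' hc' hτc' c hc hτc
  calc c * y * (c' * y') = c * (y * c') * y' := by group
    _ = c * (c' * y) * y' := by rw [hycc c']
    _ = (c * c') * y * y' := by group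
    _ = (c' * c) * y * y' := by rw [e]
    _ = c' * c * (y * y') := by group
    _ = c' * c * (y' * y) := by rw [hy'cc y]
    _ = c' * (c * y') * y := by group
    _ = c' * (y' * c) * y := by rw [hy'cc c]
    _ = c' * y' * (c * y) := by group

/-- The final contradiction. -/
theorem false_of_minSub {M : Subgroup L} (hM : MinSub τ M) (hnab : ∃ x ∈ M, ∃ u ∈ M, ⁅x, u⁆ ≠ 1) :
    False := by
  classical
  haveI := hM.normal
  have hc2 := D.class_two hM
  obtain ⟨l, hl, hl2, hexp⟩ := D.exponent hM hnab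
  haveI : Fact l.Prime := ⟨hl⟩
  obtain ⟨y, hy, hτy, u, hu, hyu⟩ := D.exists_inverted hM hnab
  set z := ⁅y, u⁆ with hzdef
  have hzc : z ∈ center L := hc2 y hy u hu
  have hzcc := mem_center_iff.mp hzc
  have hyl : y ^ l = 1 := hexp y hy
  have hzl : z ^ l = 1 := by
    rw [hzdef, ← comm_pow_left hzc, hyl, commutatorElement_one_left]
  have hoz : orderOf z = l := orderOf_eq_prime hzl hyu
  have hy1 : y ≠ 1 := by
    rintro rfl
    exact hyu (commutatorElement_one_left u)
  have hoy : orderOf y = l := orderOf_eq_prime hyl hy1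
  -- conjugation
  have hconj : ∀ (a : L) (s : ℕ), ⁅a, u⁆ ∈ center L → (u ^ s)⁻¹ * a * u ^ s = ⁅a, u⁆ ^ s * a := by
    intro a s hac
    have hacc := mem_center_iff.mp hac
    have hstep : u⁻¹ * a * u = ⁅a, u⁆ * a := by
      have h0 : u⁻¹ * ⁅a, u⁆ * u = ⁅a, u⁆ := by rw [hacc u⁻¹, mul_assoc]; simp
      calc u⁻¹ * a * u = (u⁻¹ * ⁅a, u⁆ * u) * a := by
            simp only [commutatorElement_def]; group
        _ = ⁅a, u⁆ * a := by rw [h0]
    have hpc : ∀ (k : ℕ) (g : L), g * ⁅a, u⁆ ^ k = ⁅a, u⁆ ^ k * g := fun k g =>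
      mem_center_iff.mp ((center L).pow_mem hac k) g
    induction s with
    | zero => simp
    | succ s ih =>
      calc (u ^ (s + 1))⁻¹ * a * u ^ (s + 1) = u⁻¹ * ((u ^ s)⁻¹ * a * u ^ s) * u := by
            rw [pow_succ]; group
        _ = u⁻¹ * (⁅a, u⁆ ^ s * a) * u := by rw [ih]
        _ = ⁅a, u⁆ ^ s * (u⁻¹ * a * u) := by
            rw [← mul_assoc u⁻¹, hpc s u⁻¹]; group
        _ = ⁅a, u⁆ ^ s * (⁅a, u⁆ * a) := by rw [hstep]
        _ = ⁅a, u⁆ ^ (s + 1) * a := by rw [pow_succ, mul_assoc]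
  -- the elementary subgroup
  let Y := Subgroup.zpowers y
  let W := Subgroup.zpowers z
  haveI hWn : W.Normal := by
    constructor
    intro n hn g
    obtain ⟨k, rfl⟩ := mem_zpowers_iff.mp hn
    have hzk : z ^ k ∈ center L := (center L).zpow_mem hzc k
    rw [mem_center_iff.mp hzk g, mul_inv_cancel_right]
    exact hn
  have hdis : Disjoint Y W := by
    rw [Subgroup.disjoint_def]
    intro g hgY hgW
    by_contra hg1
    have h1 : y ∈ Subgroup.zpowers g := by
      obtain ⟨k, rfl⟩ := mem_zpowers_iff.mp hgY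
      have h2 : orderOf (y ^ k) = l := by
        apply orderOf_eq_prime
        · rw [← zpow_natCast, ← zpow_mul, mul_comm, zpow_mul, zpow_natCast, hyl, one_zpow]
        · exact hg1
      have h3 : Subgroup.zpowers (y ^ k) = Subgroup.zpowers y := by
        apply Subgroup.eq_of_le_of_card_ge
        · exact (Subgroup.zpowers_le).mpr (Subgroup.zpow_mem_zpowers y k)
        · rw [Nat.card_zpowers, Nat.card_zpowers, h2, hoy]
      rw [h3]
      exact Subgroup.mem_zpowers y
    have h4 : y ∈ center L := by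
      obtain ⟨k, rfl⟩ := mem_zpowers_iff.mp hgW
      obtain ⟨j, hj⟩ := mem_zpowers_iff.mp h1
      rw [← hj]
      exact (center L).zpow_mem ((center L).zpow_mem hzc k) j
    exact hyu (commutatorElement_eq_one_iff_mul_comm.mpr (mem_center_iff.mp h4 u).symm)
  have hEcard : Nat.card ↥(Y ⊔ W) = l ^ 2 := by
    rw [Cfsg.Agent.Lib.PGroup.CyclicMax2.card_sup_eq_of_disjoint Y W hdis]
    show Nat.card (Subgroup.zpowers y) * Nat.card (Subgroup.zpowers z) = _
    rw [Nat.card_zpowers, Nat.card_zpowers, hoy, hoz, pow_two]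
  have hEdecomp : ∀ e ∈ Y ⊔ W, ∃ a ∈ Y, ∃ b ∈ W, e = a * b := by
    intro e he
    obtain ⟨a, ha, b, hb, rfl⟩ := Subgroup.mem_sup_of_normal_right.mp he
    exact ⟨a, ha, b, hb, rfl⟩
  have hWcen : ∀ b ∈ W, b ∈ center L := by
    intro b hb
    obtain ⟨k, rfl⟩ := mem_zpowers_iff.mp hb
    exact (center L).zpow_mem hzc k
  have hEexp : ∀ e : ↥(Y ⊔ W), e ^ l = 1 := by
    rintro ⟨e, he⟩
    obtain ⟨a, ha, b, hb, rfl⟩ := hEdecomp e he
    apply Subtype.ext
    show (a * b) ^ l = 1
    have hcomm : Commute a b := (mem_center_iff.mp (hWcen b hb) a)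
    rw [hcomm.mul_pow]
    have ha' : a ^ l = 1 := by
      obtain ⟨k, rfl⟩ := mem_zpowers_iff.mp ha
      rw [← zpow_natCast, ← zpow_mul, mul_comm, zpow_mul, zpow_natCast, hyl, one_zpow]
    have hb' : b ^ l = 1 := by
      obtain ⟨k, rfl⟩ := mem_zpowers_iff.mp hb
      rw [← zpow_natCast, ← zpow_mul, mul_comm, zpow_mul, zpow_natCast, hzl, one_zpow]
    rw [ha', hb', one_mul]
  have hsub : Subsingleton A := by
    apply Cfsg.Agent.Lib.Frobenius.Norm.subsingleton_of_elementary (A := ↥(Y ⊔ W)) (V := A) (p := l)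
      _ hEcard hEexp
    rintro ⟨e, he⟩ he1 v hv
    have hv' : e • v = v := hv
    have he1' : e ≠ 1 := fun h => he1 (Subtype.ext h)
    by_contra hv1
    obtain ⟨a, ha, b, hb, rfl⟩ := hEdecomp e he
    by_cases ha1 : a = 1
    · -- central
      subst ha1
      rw [one_mul] at hv' he1'
      exact he1' (D.central_fpf (hWcen b hb) hv1 hv')
    · -- conjugate to a power of `y`
      have haM : a ∈ M := by
        obtain ⟨k, rfl⟩ := mem_zpowers_iff.mp ha
        exact M.zpow_mem hy k
      have hτa : τ a = a⁻¹ := by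
        obtain ⟨k, rfl⟩ := mem_zpowers_iff.mp ha
        rw [map_zpow, hτy, inv_zpow]
      have hac : ⁅a, u⁆ ∈ center L := hc2 a haM u hu
      have hau1 : ⁅a, u⁆ ≠ 1 := by
        obtain ⟨k, hk⟩ := mem_zpowers_iff.mp ha
        obtain ⟨n, hn⟩ : ∃ n : ℕ, a = y ^ n := by
          obtain ⟨n, hn⟩ := (mem_powers_iff_mem_zpowers).mpr ha
          exact ⟨n, hn.symm⟩
        intro h
        rw [hn, comm_pow_left hzc] at h
        have h1 : orderOf z ∣ n := orderOf_dvd_of_pow_eq_one h
        rw [hoz, ← hoy] at h1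
        apply ha1
        rw [hn]
        exact orderOf_dvd_iff_pow_eq_one.mp h1
      -- `b` is a power of `⁅a, u⁆`
      have hab : b ∈ Subgroup.zpowers ⁅a, u⁆ := by
        have h1 : ⁅a, u⁆ ∈ W := by
          obtain ⟨n, hn⟩ := (mem_powers_iff_mem_zpowers).mpr ha
          rw [← hn, comm_pow_left hzc]
          exact Subgroup.pow_mem _ (Subgroup.mem_zpowers z) n
        have h2 : orderOf ⁅a, u⁆ = l := by
          apply orderOf_eq_prime _ hau1
          obtain ⟨k, hk⟩ := mem_zpowers_iff.mp h1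
          rw [← hk, ← zpow_natCast, ← zpow_mul, mul_comm, zpow_mul, zpow_natCast, hzl, one_zpow]
        have h3 : Subgroup.zpowers ⁅a, u⁆ = W := by
          apply Subgroup.eq_of_le_of_card_ge
          · exact (Subgroup.zpowers_le).mpr h1
          · show Nat.card (Subgroup.zpowers z) ≤ _
            rw [Nat.card_zpowers, Nat.card_zpowers, h2, hoz]
        rw [h3]; exact hb
      obtain ⟨s, hs⟩ := (mem_powers_iff_mem_zpowers).mpr hab
      have hs' : ⁅a, u⁆ ^ s = b := hs
      have hconj' : a * b = (u ^ s)⁻¹ * a * u ^ s := by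
        rw [hconj a s hac, hs']
        exact (mem_center_iff.mp (hWcen b hb) a)
      rw [hconj'] at hv'
      have h1 : a • (u ^ s • v) = u ^ s • v := by
        rw [mul_smul, mul_smul] at hv'
        have := congrArg (fun w => u ^ s • w) hv'
        simpa using this
      have h2 := D.fpf a hτa ha1 _ h1
      apply hv1
      have h3 := congrArg (fun w => (u ^ s)⁻¹ • w) h2
      simpa using h3
  obtain ⟨a, ha⟩ := D.ne
  exact ha (Subsingleton.elim _ _)

/-- **Main theorem**: `L` is abelian. -/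
theorem comm (x y : L) : x * y = y * x := by
  classical
  by_contra hxy
  let P : Set (Subgroup L) := {M | M.Normal ∧ (∀ x ∈ M, τ x ∈ M) ∧ ¬ M ≤ center L}
  have hPtop : (⊤ : Subgroup L) ∈ P :=
    ⟨inferInstance, fun _ _ => trivial, fun h => hxy ((mem_center_iff.mp (h trivial) y).symm)⟩
  obtain ⟨M, hM⟩ := (Set.toFinite P).exists_minimal ⟨⊤, hPtop⟩
  have hMS : MinSub τ M := by
    refine ⟨hM.1.1, hM.1.2.1, hM.1.2.2, ?_⟩
    intro N hNM hNn hNτ
    by_cases hN : N ≤ center L
    · exact Or.inl hN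
    · right
      exact le_antisymm hNM (hM.2 ⟨hNn, hNτ, hN⟩ hNM)
  have hab : ∃ x ∈ M, ∃ u ∈ M, ⁅x, u⁆ ≠ 1 := by
    by_contra hcon
    push Not at hcon
    haveI := hMS.normal
    apply hMS.ncen
    exact D.central_of_abelian M
      (fun a ha b hb => commutatorElement_eq_one_iff_mul_comm.mp (hcon a ha b hb)) hMS.inv
  exact D.false_of_minSub hMS hab

end Data

end Cfsg.Agent.Lib.Perm.RankOneX
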