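import Mathlib
import Cfsg.Agent.Lib.Perm.RankOneX
import Cfsg.Agent.Lib.Perm.RankOne3

/-!
# The split rank-one set-up, part 4: the inverted elements form a cyclic subgroup

Working hypothesis: the odd order theorem `hFT`.
-/

set_option autoImplicit false
set_option linter.style.haveILetI false
set_option linter.unusedVariables false
set_option linter.unusedSectionVars false

namespace Cfsg.Agent.Lib.Perm.RankOneY

open MulAction Subgroup Cfsg.Agent.Lib.Perm.RankOne Cfsg.Agent.Lib.Perm.RankOne2
  Cfsg.Agent.Lib.Perm.RankOne3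

universe u v

section Wrap

variable {R : Type u} {A : Type v} [Group R] [Finite R] [CommGroup A] [Finite A]

/-- The quotient of `R` acting faithfully is cyclic. -/
theorem cyclic_quotient (ρ : R →* MulAut A) (τ : R ≃* R)
    (hodd : Odd (Nat.card R)) (hsolv : Group.IsSolvable R) (htwo : ∀ a : A, a * a = 1)
    (hne : ∃ a : A, a ≠ 1) (htrans : ∀ a b : A, a ≠ 1 → b ≠ 1 → ∃ g, ρ g a = b)
    (hinvol : ∀ x, τ (τ x) = x) (hgen : closure {x : R | τ x = x⁻¹} = ⊤)
    (hker : ∀ x ∈ ρ.ker, τ x = x)
    (hfpf : ∀ x, τ x = x⁻¹ → x ≠ 1 → ∀ a : A, ρ x a = a → a = 1) :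
    IsCyclic (R ⧸ ρ.ker) := by
  classical
  let N : Subgroup R := ρ.ker
  have hmap : N.map τ.toMonoidHom = N := by
    ext x
    constructor
    · rintro ⟨y, hy, rfl⟩
      show τ y ∈ N
      rw [hker y hy]; exact hy
    · intro hx
      exact ⟨x, hx, hker x hx⟩
  let τQ : (R ⧸ N) ≃* (R ⧸ N) := QuotientGroup.congr N N τ hmap
  have hτQ : ∀ x : R, τQ (x : R ⧸ N) = ((τ x : R) : R ⧸ N) := fun x => rfl
  let ρ' : R ⧸ N →* MulAut A := QuotientGroup.kerLift ρ
  have hρ' : ∀ x : R, ρ' (x : R ⧸ N) = ρ x := fun x => rfl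
  letI : MulDistribMulAction (R ⧸ N) A := MulDistribMulAction.compHom A ρ'
  have hsm : ∀ (x : R) (a : A), ((x : R ⧸ N)) • a = ρ x a := fun x a => rfl
  have hoddQ : Odd (Nat.card (R ⧸ N)) :=
    Odd.of_dvd_nat hodd (Subgroup.card_quotient_dvd_card N)
  have hD : Cfsg.Agent.Lib.Perm.RankOneX.Data (R ⧸ N) A τQ := by
    refine ⟨hoddQ, inferInstance, htwo, hne, ?_, ?_, ?_, ?_, ?_⟩
    · -- faithful
      intro g hg
      induction g using QuotientGroup.induction_on with
      | H x =>
        have h1 : ρ x = 1 := by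
          ext a
          have := hg a
          rw [hsm] at this
          rw [this]; rfl
        exact (QuotientGroup.eq_one_iff x).mpr h1
    · -- transitive
      intro a b ha hb
      obtain ⟨g, hg⟩ := htrans a b ha hb
      exact ⟨(g : R ⧸ N), by rw [hsm]; exact hg⟩
    · -- involutive
      intro x
      induction x using QuotientGroup.induction_on with
      | H x =>
        rw [hτQ, hτQ, hinvol]
    · -- generation
      rw [eq_top_iff]
      rintro x -
      induction x using QuotientGroup.induction_on with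
      | H x =>
        have hx : x ∈ closure {x : R | τ x = x⁻¹} := by rw [hgen]; trivial
        induction hx using Subgroup.closure_induction with
        | mem y hy =>
          apply Subgroup.subset_closure
          show τQ _ = _
          rw [hτQ, show τ y = y⁻¹ from hy]; rfl
        | one => exact Subgroup.one_mem _
        | mul a b _ _ ha hb =>
          have : ((a * b : R) : R ⧸ N) = (a : R ⧸ N) * (b : R ⧸ N) := rfl
          rw [this]
          exact Subgroup.mul_mem _ ha hb
        | inv a _ ha =>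
          have : ((a⁻¹ : R) : R ⧸ N) = (a : R ⧸ N)⁻¹ := rfl
          rw [this]
          exact Subgroup.inv_mem _ ha
    · -- fixed point free
      intro q hq hq1 a ha
      induction q using QuotientGroup.induction_on with
      | H x =>
        obtain ⟨c, y, -, hτc, -, hτy, e⟩ :=
          Cfsg.Agent.Lib.Perm.RankOneX.exists_factor_aut τ hinvol hodd
            (X := ⊤) (fun _ _ => trivial) (x := x) trivial
        have hmk : (x : R ⧸ N) = (c : R ⧸ N) * (y : R ⧸ N) := by rw [e]; rfl
        -- uniqueness in the odd quotient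
        have hq' : τQ (x : R ⧸ N) = (x : R ⧸ N)⁻¹ := hq
        have h1 : ((x : R ⧸ N))⁻¹ * τQ (x : R ⧸ N) = (y : R ⧸ N)⁻¹ * (y : R ⧸ N)⁻¹ := by
          rw [hmk, map_mul, hτQ, hτQ, hτc, hτy]
          have : ((y⁻¹ : R) : R ⧸ N) = (y : R ⧸ N)⁻¹ := rfl
          rw [this]; group
        have h2 : ((x : R ⧸ N))⁻¹ * τQ (x : R ⧸ N) = (x : R ⧸ N)⁻¹ * (x : R ⧸ N)⁻¹ := by
          rw [hq']
        have h3 : (x : R ⧸ N)⁻¹ * (x : R ⧸ N)⁻¹ = (y : R ⧸ N)⁻¹ * (y : R ⧸ N)⁻¹ := h2.symm.trans h1
        have h4 : (x : R ⧸ N) = (y : R ⧸ N) := by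
          obtain ⟨m, hm⟩ := hoddQ
          have h5 : ∀ w : R ⧸ N, w = (w * w) ^ (m + 1) := by
            intro w
            have h6 : w ^ (2 * m + 1) = 1 := by rw [← hm]; exact pow_card_eq_one'
            rw [← pow_two, ← pow_mul]
            have : 2 * (m + 1) = (2 * m + 1) + 1 := by ring
            rw [this, pow_succ, h6, one_mul]
          have h7 : (x : R ⧸ N)⁻¹ = (y : R ⧸ N)⁻¹ := by
            rw [h5 (x : R ⧸ N)⁻¹, h5 (y : R ⧸ N)⁻¹, h3]
          exact inv_injective h7
        rw [h4] at ha hq1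
        rw [hsm] at ha
        refine hfpf y hτy ?_ a ha
        rintro rfl
        exact hq1 rfl
  have hab := hD.comm
  let T : Subgroup (R ⧸ N) := ⊤
  haveI hTn : T.Normal := inferInstance
  have hcyc : IsCyclic T :=
    hD.isCyclic_of_semireg T (fun x _ y _ => hab x y)
      (fun n hn a ha hna => hD.semireg T (fun x _ y _ => hab x y) hn ha hna)
  exact isCyclic_of_surjective (Subgroup.topEquiv (G := R ⧸ N)).toMonoidHom
    (Subgroup.topEquiv (G := R ⧸ N)).surjective

end Wrap

section App

variable {G : Type u} {Ω : Type v} [Group G] [MulAction G Ω] [Finite G] {a : Ω} {t : G} {Q : Subgroup G}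

/-- The inverted elements form a cyclic subgroup normalised by `D`. -/
theorem inverted_subgroup (hS : Cfsg.IsRankOneSetup G Ω a t Q) (h2 : TwoCommuting G)
    (hFT : ∀ (X : Type u) [Group X] [Finite X], Odd (Nat.card X) → Group.IsSolvable X) :
    ∃ C : Subgroup G, (C : Set G) = Cfsg.invertedBy (DD G a t) t ∧ IsCyclic C ∧
      ∀ d ∈ DD G a t, ∀ c ∈ C, d * c * d⁻¹ ∈ C := by
  classical
  have ht2 := hS.mul_self
  have htinv := t_inv hS
  set K := Cfsg.invertedBy (DD G a t) t with hK
  set R : Subgroup G := Subgroup.closure K with hR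
  have hRD : R ≤ DD G a t := by
    rw [hR, Subgroup.closure_le]
    exact fun k hk => hk.1
  have hRt : ∀ x ∈ R, t * x * t⁻¹ ∈ R := by
    intro x hx
    induction hx using Subgroup.closure_induction with
    | mem k hk =>
      have : t * k * t⁻¹ = k⁻¹ := hk.2
      rw [this]
      exact R.inv_mem (Subgroup.subset_closure hk)
    | one => simp
    | mul x y _ _ hx hy =>
      have : t * (x * y) * t⁻¹ = (t * x * t⁻¹) * (t * y * t⁻¹) := by group
      rw [this]; exact R.mul_mem hx hy
    | inv x _ hx =>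
      have : t * x⁻¹ * t⁻¹ = (t * x * t⁻¹)⁻¹ := by group
      rw [this]; exact R.inv_mem hx
  set I := Cfsg.involutionsIn (stabilizer G a : Set G) with hI
  let A : Subgroup G :=
    { carrier := {x | x = 1 ∨ x ∈ I}
      one_mem' := Or.inl rfl
      mul_mem' := fun {x y} hx hy => by
        rcases hx with rfl | hx
        · simpa using hy
        rcases hy with rfl | hy
        · simpa using Or.inr hx
        exact (involution_mul hS h2 hx hy)
      inv_mem' := fun {x} hx => by
        rcases hx with rfl | hx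
        · simp
        · right
          have : x⁻¹ = x := inv_eq_of_mul_eq_one_left hx.2.2
          rw [this]; exact hx }
  have hAI : ∀ x ∈ A, x ≠ 1 → x ∈ I := fun x hx hx1 => hx.resolve_left hx1
  have hAcomm : ∀ x ∈ A, ∀ y ∈ A, x * y = y * x := by
    intro x hx y hy
    rcases hx with rfl | hx
    · simp
    rcases hy with rfl | hy
    · simp
    exact (involution_central hS h2 hx).2 y (involution_central hS h2 hy).1
  letI : CommGroup A :=
    { (inferInstance : Group A) with
      mul_comm := fun x y => Subtype.ext (hAcomm x x.2 y y.2) }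
  have hconjI : ∀ d ∈ stabilizer G a, ∀ s ∈ I, d * s * d⁻¹ ∈ I := by
    rintro d hd s ⟨hsa, hs1, hs2⟩
    refine ⟨?_, ?_, ?_⟩
    · exact (stabilizer G a).mul_mem ((stabilizer G a).mul_mem hd hsa) ((stabilizer G a).inv_mem hd)
    · intro h
      apply hs1
      calc s = d⁻¹ * (d * s * d⁻¹) * d := by group
        _ = 1 := by rw [h]; group
    · calc d * s * d⁻¹ * (d * s * d⁻¹) = d * (s * s) * d⁻¹ := by group
        _ = 1 := by rw [hs2]; group
  have hRN : R ≤ Subgroup.normalizer (A : Set G) := by
    intro r hr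
    have hra : r ∈ stabilizer G a := (hRD hr).1
    rw [Subgroup.mem_normalizer_iff]
    intro x
    constructor
    · rintro (rfl | hx)
      · left; group
      · exact Or.inr (hconjI r hra x hx)
    · intro hx
      rcases hx with hx | hx
      · left
        calc x = r⁻¹ * (r * x * r⁻¹) * r := by group
          _ = 1 := by rw [hx]; group
      · right
        have := hconjI r⁻¹ ((stabilizer G a).inv_mem hra) _ hx
        have e : r⁻¹ * (r * x * r⁻¹) * r⁻¹⁻¹ = x := by group
        rwa [e] at this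
  let ρ : R →* MulAut A := (A.normalizerMonoidHom).comp (Subgroup.inclusion hRN)
  have hρ : ∀ (r : R) (x : A), ((ρ r x : A) : G) = r * x * (r : G)⁻¹ := fun r x => rfl
  let τ : R ≃* R :=
    { toFun := fun x => ⟨t * x * t⁻¹, hRt x x.2⟩
      invFun := fun x => ⟨t * x * t⁻¹, hRt x x.2⟩
      left_inv := fun x => Subtype.ext (by
        show t * (t * x * t⁻¹) * t⁻¹ = x
        rw [htinv]; exact tt_conj ht2 _)
      right_inv := fun x => Subtype.ext (by
        show t * (t * x * t⁻¹) * t⁻¹ = x
        rw [htinv]; exact tt_conj ht2 _)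
      map_mul' := fun x y => Subtype.ext (by
        show t * (x * y) * t⁻¹ = (t * x * t⁻¹) * (t * y * t⁻¹)
        group) }
  have hτ : ∀ x : R, ((τ x : R) : G) = t * x * t⁻¹ := fun x => rfl
  have hoddD : Odd (Nat.card (DD G a t)) := hS.odd_card
  have hoddR : Odd (Nat.card R) := Odd.of_dvd_nat hoddD (Subgroup.card_dvd_of_le hRD)
  -- the kernel
  have hkerD : ∀ x ∈ ρ.ker, ((x : R) : G) ∈ DD G a t ⊓ Subgroup.centralizer {t} ⊓
      Subgroup.centralizer K := by
    intro x hx
    have hmem : ((x : R) : G) ∈ DD G a t ⊓ Subgroup.centralizer I := by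
      refine ⟨hRD x.2, ?_⟩
      show _ ∈ Subgroup.centralizer I
      rw [Subgroup.mem_centralizer_iff]
      intro s hs
      have hsA : s ∈ A := Or.inr hs
      have h1 : ρ x ⟨s, hsA⟩ = ⟨s, hsA⟩ := by
        rw [MonoidHom.mem_ker.mp hx]; rfl
      have h3 : (x : G) * s * (x : G)⁻¹ = s := congrArg Subtype.val h1
      calc s * (x : G) = ((x : G) * s * (x : G)⁻¹) * (x : G) := by rw [h3]
        _ = (x : G) * s := by group
    rw [centralizer_inverted_eq hS]
    exact hmem
  have hker : ∀ x ∈ ρ.ker, τ x = x := by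
    intro x hx
    apply Subtype.ext
    have h1 := (hkerD x hx).1.2
    have h1' : (x : G) ∈ Subgroup.centralizer {t} := h1
    rw [Subgroup.mem_centralizer_singleton_iff] at h1'
    rw [hτ, ← h1']; group
  have hne : ∃ x : A, x ≠ 1 := by
    obtain ⟨s, hs, -⟩ := exists_two_involutions hS h2
    exact ⟨⟨s, Or.inr hs⟩, fun h => hs.2.1 (congrArg Subtype.val h)⟩
  have htwo : ∀ x : A, x * x = 1 := by
    rintro ⟨x, rfl | hx⟩
    · apply Subtype.ext
      show (1 : G) * 1 = 1
      simp
    · exact Subtype.ext hx.2.2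
  have htrans : ∀ x y : A, x ≠ 1 → y ≠ 1 → ∃ g, ρ g x = y := by
    intro x y hx hy
    have hx' : (x : G) ∈ I := hAI _ x.2 (fun h => hx (Subtype.ext h))
    have hy' : (y : G) ∈ I := hAI _ y.2 (fun h => hy (Subtype.ext h))
    obtain ⟨k, hk, hks⟩ := exists_inverted_conj hS hx' hy'
    have hkR : k ∈ R := Subgroup.subset_closure hk
    refine ⟨⟨k⁻¹, R.inv_mem hkR⟩, Subtype.ext ?_⟩
    rw [hρ]
    simpa using hks
  have hinvol : ∀ x, τ (τ x) = x := fun x => τ.symm_apply_apply x
  have hgen : closure {x : R | τ x = x⁻¹} = ⊤ := by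
    rw [eq_top_iff, ← Subgroup.closure_closure_coe_preimage (k := K)]
    apply Subgroup.closure_mono
    intro x hx
    apply Subtype.ext
    exact hx.2
  have hfpf : ∀ x, τ x = x⁻¹ → x ≠ 1 → ∀ y : A, ρ x y = y → y = 1 := by
    intro x hτx hx1 y hy
    by_contra hy1
    have hy' : (y : G) ∈ I := hAI _ y.2 (fun h => hy1 (Subtype.ext h))
    have hxK : (x : G) ∈ K := ⟨hRD x.2, congrArg Subtype.val hτx⟩
    have h1K : (1 : G) ∈ K := ⟨(DD G a t).one_mem, by simp⟩
    have h3 : (x : G) * y * (x : G)⁻¹ = y := by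
      have := congrArg Subtype.val hy
      rwa [hρ] at this
    have h4 : (x : G)⁻¹ * y * x = (1 : G)⁻¹ * y * 1 := by
      calc (x : G)⁻¹ * y * x = (x : G)⁻¹ * ((x : G) * y * (x : G)⁻¹) * x := by rw [h3]
        _ = (1 : G)⁻¹ * y * 1 := by group
    exact hx1 (Subtype.ext (inverted_conj_injective hS hy' hxK h1K h4))
  have hcyc : IsCyclic (R ⧸ ρ.ker) :=
    cyclic_quotient ρ τ hoddR (hFT R hoddR) htwo hne htrans hinvol hgen hker hfpf
  -- the kernel is central
  have hcen : ρ.ker ≤ center R := by
    intro x hx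
    rw [mem_center_iff]
    rintro ⟨y, hy⟩
    apply Subtype.ext
    show y * (x : G) = (x : G) * y
    have h1 : K ⊆ (Subgroup.centralizer {(x : G)} : Subgroup G) := by
      intro k hk
      have h2 : (x : G) ∈ Subgroup.centralizer K := (hkerD x hx).2
      rw [Subgroup.mem_centralizer_iff] at h2
      rw [SetLike.mem_coe, Subgroup.mem_centralizer_singleton_iff]
      exact h2 k hk
    have h3 : R ≤ Subgroup.centralizer {(x : G)} := (Subgroup.closure_le _).mpr h1
    have h4 := h3 hy
    rw [Subgroup.mem_centralizer_singleton_iff] at h4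
    exact h4
  have hRab : ∀ x y : R, x * y = y * x := by
    have h := MonoidHom.isMulCommutative_of_isCyclic_of_ker_le_center (QuotientGroup.mk' ρ.ker)
      (by rw [QuotientGroup.ker_mk']; exact hcen)
    exact h.is_comm.comm
  have hRK : ∀ x ∈ R, t * x * t⁻¹ = x⁻¹ := by
    intro x hx
    induction hx using Subgroup.closure_induction with
    | mem k hk => exact hk.2
    | one => simp
    | mul x y hx hy hx' hy' =>
      have e1 : t * (x * y) * t⁻¹ = (t * x * t⁻¹) * (t * y * t⁻¹) := by group
      have e2 : x * y = y * x := congrArg Subtype.val (hRab ⟨x, hx⟩ ⟨y, hy⟩)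
      rw [e1, hx', hy', mul_inv_rev, ← mul_inv_rev, ← mul_inv_rev, e2]
    | inv x _ hx' =>
      have : t * x⁻¹ * t⁻¹ = (t * x * t⁻¹)⁻¹ := by group
      rw [this, hx']
  have hcar : (R : Set G) = K := by
    ext x
    constructor
    · intro hx
      exact ⟨hRD hx, hRK x hx⟩
    · intro hx
      exact Subgroup.subset_closure hx
  have hinj : Function.Injective (QuotientGroup.mk' ρ.ker) := by
    rw [injective_iff_map_eq_one]
    intro x hx
    have hxk : x ∈ ρ.ker := (QuotientGroup.eq_one_iff x).mp hx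
    have h1 := hker x hxk
    have h2 : ((τ x : R) : G) = (x : G)⁻¹ := hRK _ x.2
    rw [h1] at h2
    apply Subtype.ext
    have h3 : (x : G) * x = 1 := by
      nth_rewrite 1 [h2]
      simp
    have h4 := Cfsg.Agent.Lib.Perm.RankOneX.eq_one_of_sq_of_odd hoddD
      (x := (⟨x, hRD x.2⟩ : DD G a t)) (Subtype.ext h3)
    have h5 : (x : G) = 1 := congrArg (fun z : DD G a t => (z : G)) h4
    exact h5
  refine ⟨R, hcar, isCyclic_of_injective _ hinj, ?_⟩
  intro d hd c hc
  exact conj_mem_closure ht2 hS.odd_card (fun x hx => t_conj_mem_DD hS hx) hd hc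

end App

end Cfsg.Agent.Lib.Perm.RankOneY
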