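import Mathlib
import Cfsg.Agent.Lib.Perm.RankOneF
import Cfsg.Agent.Lib.Perm.RankOneY

/-!
# The split rank-one set-up, part 5: Sylow 2-subgroups of `Q` and the action of `C_D(t)` on `K`

Working hypothesis: the odd order theorem `hFT`.
-/

set_option autoImplicit false
set_option linter.style.haveILetI false
set_option linter.unusedVariables false
set_option linter.unusedSectionVars false

namespace Cfsg.Agent.Lib.Perm.RankOneZ

open MulAction Subgroup Cfsg.Agent.Lib.Perm.RankOne Cfsg.Agent.Lib.Perm.RankOne2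
  Cfsg.Agent.Lib.Perm.RankOne3 Cfsg.Agent.Lib.Perm.RankOneY

universe u v

variable {G : Type u} {Ω : Type v} [Group G] [MulAction G Ω] [Finite G] {a : Ω} {t : G} {Q : Subgroup G}

/-- A Sylow `2`-subgroup of `Q` is abelian or a Suzuki `2`-group. -/
theorem sylow_abelian_or_suzuki (hS : Cfsg.IsRankOneSetup G Ω a t Q) (h2 : TwoCommuting G)
    (hFT : ∀ (X : Type u) [Group X] [Finite X], Odd (Nat.card X) → Group.IsSolvable X)
    (S : Sylow 2 ↥Q) :
    IsMulCommutative (S : Subgroup ↥Q) ∨ Cfsg.IsSuzukiTwoGroup ↥(S : Subgroup ↥Q) := by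
  classical
  by_cases hcomm : IsMulCommutative (S : Subgroup ↥Q)
  · exact Or.inl hcomm
  right
  obtain ⟨C, hC, hcyc, hnorm⟩ := inverted_subgroup hS h2 hFT
  haveI hfact : Fact (Nat.Prime 2) := ⟨Nat.prime_two⟩
  haveI hn : Group.IsNilpotent Q := Q_nilpotent hS h2
  have hSn : (S : Subgroup ↥Q).Normal :=
    (Group.isNilpotent_of_finite_tfae.out 0 3 rfl rfl).mp hn 2 hfact S
  have hSc : (S : Subgroup ↥Q).Characteristic := Sylow.characteristic_of_normal S hSn
  -- conjugation on `Q`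
  have hCa : ∀ c ∈ C, c ∈ stabilizer G a := by
    intro c hc
    have : c ∈ (C : Set G) := hc
    rw [hC] at this
    exact (mem_DD.mp this.1).1
  let φ : ∀ c : ↥C, ↥Q ≃* ↥Q := fun c =>
    { toFun := fun x => ⟨c * x * (c : G)⁻¹, hS.conj_mem _ (hCa c c.2) x x.2⟩
      invFun := fun x => ⟨(c : G)⁻¹ * x * c, by
        have := hS.conj_mem _ ((stabilizer G a).inv_mem (hCa c c.2)) x x.2
        rwa [inv_inv] at this⟩
      left_inv := fun x => Subtype.ext (by simp [mul_assoc])
      right_inv := fun x => Subtype.ext (by simp [mul_assoc])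
      map_mul' := fun x y => Subtype.ext (by
        show (c : G) * (x * y) * (c : G)⁻¹ = ((c : G) * x * (c : G)⁻¹) * ((c : G) * y * (c : G)⁻¹)
        group) }
  have hφ : ∀ (c : ↥C) (x : ↥Q), ((φ c x : ↥Q) : G) = c * x * (c : G)⁻¹ := fun c x => rfl
  have hφS : ∀ (c : ↥C) (x : ↥Q), x ∈ (S : Subgroup ↥Q) → φ c x ∈ (S : Subgroup ↥Q) := by
    intro c x hx
    have h1 := hSc.fixed (φ c).symm
    have : φ c x ∈ (S : Subgroup ↥Q).comap ((φ c).symm).toMonoidHom := by
      show (φ c).symm (φ c x) ∈ (S : Subgroup ↥Q)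
      rwa [MulEquiv.symm_apply_apply]
    rwa [h1] at this
  let f : ↥C →* MulAut ↥(S : Subgroup ↥Q) :=
    { toFun := fun c =>
        { toFun := fun x => ⟨φ c x, hφS c x x.2⟩
          invFun := fun x => ⟨φ c⁻¹ x, hφS c⁻¹ x x.2⟩
          left_inv := fun x => Subtype.ext (Subtype.ext (by
            show (c : G)⁻¹ * ((c : G) * x * (c : G)⁻¹) * ((c : G)⁻¹)⁻¹ = x
            group))
          right_inv := fun x => Subtype.ext (Subtype.ext (by
            show (c : G) * ((c : G)⁻¹ * x * ((c : G)⁻¹)⁻¹) * (c : G)⁻¹ = x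
            group))
          map_mul' := fun x y => Subtype.ext (Subtype.ext (by
            show (c : G) * (x * y) * (c : G)⁻¹ =
              ((c : G) * x * (c : G)⁻¹) * ((c : G) * y * (c : G)⁻¹)
            group)) }
      map_one' := by
        ext x
        show (1 : G) * x * (1 : G)⁻¹ = x
        group
      map_mul' := fun c d => by
        ext x
        show ((c : G) * d) * x * ((c : G) * d)⁻¹ = (c : G) * ((d : G) * x * (d : G)⁻¹) * (c : G)⁻¹
        group }
  have hf : ∀ (c : ↥C) (x : ↥(S : Subgroup ↥Q)), (((f c x : ↥(S : Subgroup ↥Q)) : ↥Q) : G) =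
      c * ((x : ↥Q) : G) * (c : G)⁻¹ := fun c x => rfl
  have hmemI : ∀ x : ↥(S : Subgroup ↥Q), x ≠ 1 → x * x = 1 →
      ((x : ↥Q) : G) ∈ Cfsg.involutionsIn (stabilizer G a : Set G) := by
    intro x hx1 hx2
    refine ⟨hS.le (x : ↥Q).2, ?_, ?_⟩
    · intro h
      exact hx1 (Subtype.ext (Subtype.ext h))
    · exact congrArg (fun y : ↥(S : Subgroup ↥Q) => ((y : ↥Q) : G)) hx2
  have hmemIS : ∀ s ∈ Cfsg.involutionsIn (stabilizer G a : Set G),
      ∃ x : ↥(S : Subgroup ↥Q), ((x : ↥Q) : G) = s := by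
    intro s hs
    have hsQ : s ∈ Q := (involution_central hS h2 hs).1
    have hsp : (⟨s, hsQ⟩ : ↥Q) ∈ (S : Subgroup ↥Q) := by
      -- a `2`-element of `Q`
      have hsP : IsPGroup 2 (Subgroup.zpowers (⟨s, hsQ⟩ : ↥Q)) := by
        apply IsPGroup.of_card (n := 1)
        rw [Nat.card_zpowers]
        rw [pow_one]
        apply orderOf_eq_prime
        · apply Subtype.ext
          show s ^ 2 = 1
          rw [pow_two]; exact hs.2.2
        · intro h
          exact hs.2.1 (congrArg Subtype.val h)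
      obtain ⟨P', hP'⟩ := hsP.exists_le_sylow
      have hle : P' = S := by
        letI := Sylow.unique_of_normal S hSn
        exact Subsingleton.elim _ _
      rw [← hle]
      exact hP' (Subgroup.mem_zpowers _)
    exact ⟨⟨⟨s, hsQ⟩, hsp⟩, rfl⟩
  refine ⟨inferInstance, S.isPGroup', ?_, ?_, f.range, ?_, ?_⟩
  · -- noncommutative
    by_contra hne
    push Not at hne
    apply hcomm
    exact ⟨⟨fun x y => hne x y⟩⟩
  · -- two involutions
    obtain ⟨s, hs, s', hs', hne⟩ := exists_two_involutions hS h2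
    obtain ⟨x, hx⟩ := hmemIS s hs
    obtain ⟨y, hy⟩ := hmemIS s' hs'
    refine ⟨x, y, ?_, ?_, ?_, ?_, ?_⟩
    · rintro rfl
      exact hne (hx.symm.trans hy)
    · rintro rfl
      exact hs.2.1 hx.symm
    · apply Subtype.ext; apply Subtype.ext
      show ((x : ↥Q) : G) * ((x : ↥Q) : G) = 1
      rw [hx]; exact hs.2.2
    · rintro rfl
      exact hs'.2.1 hy.symm
    · apply Subtype.ext; apply Subtype.ext
      show ((y : ↥Q) : G) * ((y : ↥Q) : G) = 1
      rw [hy]; exact hs'.2.2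
  · -- cyclic
    exact isCyclic_of_surjective f.rangeRestrict f.rangeRestrict_surjective
  · -- regular
    intro x y hx1 hx2 hy1 hy2
    have hxI := hmemI x hx1 hx2
    have hyI := hmemI y hy1 hy2
    obtain ⟨k, hk, hks⟩ := exists_inverted_conj hS hxI hyI
    have hkC : k ∈ C := by
      have : k ∈ (C : Set G) := by rw [hC]; exact hk
      exact this
    refine ⟨⟨f ⟨k⁻¹, C.inv_mem hkC⟩, ⟨_, rfl⟩⟩, ?_, ?_⟩
    · apply Subtype.ext; apply Subtype.ext
      show k⁻¹ * ((x : ↥Q) : G) * (k⁻¹)⁻¹ = _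
      rw [inv_inv]; exact hks
    · rintro ⟨_, ⟨c, rfl⟩⟩ hc
      have hc' : ((f c x : ↥(S : Subgroup ↥Q)) : ↥Q) = (y : ↥Q) := congrArg Subtype.val hc
      have hc'' : (c : G) * ((x : ↥Q) : G) * (c : G)⁻¹ = ((y : ↥Q) : G) := congrArg Subtype.val hc'
      have hcK : (c : G)⁻¹ ∈ Cfsg.invertedBy (DD G a t) t := by
        rw [← hC]; exact C.inv_mem c.2
      have hinj := inverted_conj_injective hS hxI hcK hk
        (by rw [inv_inv, hc'']; exact hks.symm)
      have hcc : c = ⟨k⁻¹, C.inv_mem hkC⟩ := by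
        apply Subtype.ext
        show (c : G) = k⁻¹
        rw [← hinj, inv_inv]
      rw [hcc]

/-- Every element of `D` acts on the cyclic group `C` by a power of two. -/
theorem exists_two_pow_action (hS : Cfsg.IsRankOneSetup G Ω a t Q) (h2 : TwoCommuting G)
    {C : Subgroup G} (hC : (C : Set G) = Cfsg.invertedBy (DD G a t) t) (hcyc : IsCyclic C)
    (hnorm : ∀ d ∈ DD G a t, ∀ c ∈ C, d * c * d⁻¹ ∈ C) {v : G} (hv : v ∈ DD G a t) :
    ∃ j : ℕ, ∀ x ∈ C, v * x * v⁻¹ = x ^ (2 ^ j) := by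
  classical
  set I := Cfsg.involutionsIn (stabilizer G a : Set G) with hI
  let A : Subgroup G :=
    { carrier := {x | x = 1 ∨ x ∈ I}
      one_mem' := Or.inl rfl
      mul_mem' := fun {x y} hx hy => by
        rcases hx with rfl | hx
        · simpa using hy
        rcases hy with rfl | hy
        · simpa using Or.inr hx
        exact (involution_mul hS h2 hx hy)
      inv_mem' := fun {x} hx => by
        rcases hx with rfl | hx
        · simp
        · right
          have : x⁻¹ = x := inv_eq_of_mul_eq_one_left hx.2.2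
          rw [this]; exact hx }
  have hAcomm : ∀ x ∈ A, ∀ y ∈ A, x * y = y * x := by
    intro x hx y hy
    rcases hx with rfl | hx
    · simp
    rcases hy with rfl | hy
    · simp
    exact (involution_central hS h2 hx).2 y (involution_central hS h2 hy).1
  letI : CommGroup A :=
    { (inferInstance : Group A) with
      mul_comm := fun x y => Subtype.ext (hAcomm x x.2 y y.2) }
  have hconjI : ∀ d ∈ stabilizer G a, ∀ s ∈ I, d * s * d⁻¹ ∈ I := by
    rintro d hd s ⟨hsa, hs1, hs2⟩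
    refine ⟨?_, ?_, ?_⟩
    · exact (stabilizer G a).mul_mem ((stabilizer G a).mul_mem hd hsa) ((stabilizer G a).inv_mem hd)
    · intro h
      apply hs1
      calc s = d⁻¹ * (d * s * d⁻¹) * d := by group
        _ = 1 := by rw [h]; group
    · calc d * s * d⁻¹ * (d * s * d⁻¹) = d * (s * s) * d⁻¹ := by group
        _ = 1 := by rw [hs2]; group
  have hNA : ∀ d ∈ stabilizer G a, d ∈ Subgroup.normalizer (A : Set G) := by
    intro r hra
    rw [Subgroup.mem_normalizer_iff]
    intro x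
    constructor
    · rintro (rfl | hx)
      · left; group
      · exact Or.inr (hconjI r hra x hx)
    · intro hx
      rcases hx with hx | hx
      · left
        calc x = r⁻¹ * (r * x * r⁻¹) * r := by group
          _ = 1 := by rw [hx]; group
      · right
        have := hconjI r⁻¹ ((stabilizer G a).inv_mem hra) _ hx
        have e : r⁻¹ * (r * x * r⁻¹) * r⁻¹⁻¹ = x := by group
        rwa [e] at this
  let ρ : ↥(stabilizer G a) →* MulAut A := (A.normalizerMonoidHom).comp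
    (Subgroup.inclusion (fun d hd => hNA d hd))
  have hρ : ∀ (r : ↥(stabilizer G a)) (x : A), ((ρ r x : A) : G) = r * x * (r : G)⁻¹ :=
    fun r x => rfl
  have hCD : ∀ c ∈ C, c ∈ Cfsg.invertedBy (DD G a t) t := by
    intro c hc
    have : c ∈ (C : Set G) := hc
    rwa [hC] at this
  have hCa : ∀ c ∈ C, c ∈ stabilizer G a := fun c hc => (mem_DD.mp (hCD c hc).1).1
  obtain ⟨g₀, hg₀⟩ := hcyc
  set g : G := (g₀ : G) with hg
  have hgC : g ∈ C := g₀.2
  have hgpow : ∀ x ∈ C, ∃ i : ℕ, x = g ^ i := by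
    intro x hx
    obtain ⟨i, hi⟩ := mem_powers_iff_mem_zpowers.mpr (hg₀ ⟨x, hx⟩)
    refine ⟨i, ?_⟩
    have := congrArg Subtype.val hi
    simpa using this.symm
  have hva : v ∈ stabilizer G a := (mem_DD.mp hv).1
  obtain ⟨e, he⟩ := hgpow _ (hnorm v hv g hgC)
  let γ : MulAut A := ρ ⟨g, hCa g hgC⟩
  let ψ : MulAut A := ρ ⟨v, hva⟩
  have hγpow : ∀ (i : ℕ) (x : A), (((γ ^ i) x : A) : G) = g ^ i * x * (g ^ i)⁻¹ := by
    intro i x
    have : γ ^ i = ρ ⟨g ^ i, (stabilizer G a).pow_mem (hCa g hgC) i⟩ := by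
      rw [← map_pow]; rfl
    rw [this]; rfl
  have hconj : ψ * γ * ψ⁻¹ = γ ^ e := by
    have h1 : ψ * γ * ψ⁻¹ = ρ (⟨v, hva⟩ * ⟨g, hCa g hgC⟩ * (⟨v, hva⟩)⁻¹) := by
      rw [map_mul, map_mul, map_inv]
    rw [h1]
    ext x
    rw [hγpow, hρ]
    show (v * g * v⁻¹) * (x : G) * (v * g * v⁻¹)⁻¹ = _
    rw [he]
  have htwo : ∀ x : A, x * x = 1 := by
    rintro ⟨x, rfl | hx⟩
    · apply Subtype.ext
      show (1 : G) * 1 = 1
      simp
    · exact Subtype.ext hx.2.2
  have hne : ∃ x : A, x ≠ 1 := by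
    obtain ⟨s, hs, -⟩ := exists_two_involutions hS h2
    exact ⟨⟨s, Or.inr hs⟩, fun h => hs.2.1 (congrArg Subtype.val h)⟩
  have hAI : ∀ x : A, x ≠ 1 → (x : G) ∈ I := fun x hx1 =>
    x.2.resolve_left (fun h => hx1 (Subtype.ext h))
  have htrans : ∀ x y : A, x ≠ 1 → y ≠ 1 → ∃ i : ℕ, (γ ^ i) x = y := by
    intro x y hx hy
    obtain ⟨k, hk, hks⟩ := exists_inverted_conj hS (hAI x hx) (hAI y hy)
    have hkC : k ∈ C := by
      have : k ∈ (C : Set G) := by rw [hC]; exact hk
      exact this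
    obtain ⟨i, hi⟩ := hgpow _ (C.inv_mem hkC)
    refine ⟨i, Subtype.ext ?_⟩
    rw [hγpow, ← hi, inv_inv]
    exact hks
  obtain ⟨j, hj⟩ := Cfsg.Agent.Lib.Perm.RankOneF.exists_two_pow_mul htwo γ ψ e hconj htrans hne
  refine ⟨j, ?_⟩
  -- `g ^ e` and `g ^ (2 ^ j)` act alike, hence are equal
  obtain ⟨s, hs, -⟩ := exists_two_involutions hS h2
  have hgej : g ^ e = g ^ (2 ^ j) := by
    have hk1 : (g ^ e)⁻¹ ∈ Cfsg.invertedBy (DD G a t) t := hCD _ (C.inv_mem (C.pow_mem hgC e))
    have hk2 : (g ^ (2 ^ j))⁻¹ ∈ Cfsg.invertedBy (DD G a t) t :=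
      hCD _ (C.inv_mem (C.pow_mem hgC _))
    have h1 := congrArg (fun τ : MulAut A => ((τ ⟨s, Or.inr hs⟩ : A) : G)) hj
    simp only [hγpow] at h1
    have := inverted_conj_injective hS hs hk1 hk2 (by simpa using h1)
    exact inv_injective this
  intro x hx
  obtain ⟨i, rfl⟩ := hgpow x hx
  have h3 : ∀ m : ℕ, v * g ^ m * v⁻¹ = (v * g * v⁻¹) ^ m := by
    intro m
    rw [conj_pow]
  rw [h3, he, hgej, ← pow_mul, ← pow_mul, mul_comm]

/-- `V / C_V(K)` is cyclic. -/
theorem centralizer_quotient_cyclic (hS : Cfsg.IsRankOneSetup G Ω a t Q) (h2 : TwoCommuting G)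
    (hFT : ∀ (X : Type u) [Group X] [Finite X], Odd (Nat.card X) → Group.IsSolvable X) :
    ∃ v ∈ DD G a t ⊓ Subgroup.centralizer {t},
      (DD G a t ⊓ Subgroup.centralizer {t} ⊓
        Subgroup.centralizer (Cfsg.invertedBy (DD G a t) t)) ⊔ Subgroup.closure {v} =
        DD G a t ⊓ Subgroup.centralizer {t} := by
  classical
  obtain ⟨C, hC, hcyc, hnorm⟩ := inverted_subgroup hS h2 hFT
  set V : Subgroup G := DD G a t ⊓ Subgroup.centralizer {t} with hV
  have hCD : ∀ c ∈ C, c ∈ DD G a t := by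
    intro c hc
    have : c ∈ (C : Set G) := hc
    rw [hC] at this
    exact this.1
  have hoddC : Odd (Nat.card C) :=
    Odd.of_dvd_nat hS.odd_card (Subgroup.card_dvd_of_le hCD)
  have hNC : ∀ d ∈ V, d ∈ Subgroup.normalizer (C : Set G) := by
    intro r hr
    rw [Subgroup.mem_normalizer_iff]
    intro x
    have hr' : r ∈ DD G a t := hr.1
    constructor
    · exact hnorm r hr' x
    · intro hx
      have := hnorm r⁻¹ ((DD G a t).inv_mem hr') _ hx
      have e : r⁻¹ * (r * x * r⁻¹) * r⁻¹⁻¹ = x := by group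
      rwa [e] at this
  let Φ : ↥V →* MulAut ↥C := (C.normalizerMonoidHom).comp
    (Subgroup.inclusion (fun d hd => hNC d hd))
  have hΦ : ∀ (r : ↥V) (x : ↥C), ((Φ r x : ↥C) : G) = r * x * (r : G)⁻¹ := fun r x => rfl
  -- the squaring automorphism of `C`
  haveI hcycC : IsCyclic ↥C := hcyc
  have hcop : Nat.Coprime (Nat.card ↥C) 2 := Nat.coprime_two_right.mpr hoddC
  have hcommC : ∀ x y : ↥C, x * y = y * x := fun x y => (IsCyclic.isMulCommutative (α := ↥C)).is_comm.comm x y
  let sqHom : ↥C →* ↥C :=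
    { toFun := fun x => x ^ 2
      map_one' := one_pow 2
      map_mul' := fun x y => (Commute.mul_pow (hcommC x y) 2) }
  have hbij : Function.Bijective sqHom := hcop.pow_left_bijective
  let sq : MulAut ↥C := MulEquiv.ofBijective sqHom hbij
  have hsq : ∀ x : ↥C, sq x = x ^ 2 := fun x => rfl
  have hsqpow : ∀ (j : ℕ) (x : ↥C), (sq ^ j) x = x ^ (2 ^ j) := by
    intro j
    induction j with
    | zero => intro x; simp
    | succ n ih =>
      intro x
      rw [pow_succ, MulAut.mul_apply, hsq, ih, ← pow_mul, pow_succ, mul_comm]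
  have hrange : Φ.range ≤ Subgroup.zpowers sq := by
    rintro _ ⟨r, rfl⟩
    obtain ⟨j, hj⟩ := exists_two_pow_action hS h2 hC hcyc hnorm (v := r) r.2.1
    have : Φ r = sq ^ j := by
      ext x
      rw [hΦ, hj _ x.2, hsqpow]
      simp
    rw [this]
    exact Subgroup.npow_mem_zpowers _ _
  haveI : IsCyclic Φ.range := Subgroup.isCyclic_of_le hrange
  obtain ⟨⟨_, v₀, rfl⟩, hv₀⟩ := IsCyclic.exists_generator (α := Φ.range)
  refine ⟨v₀, v₀.2, ?_⟩
  apply le_antisymm
  · rw [sup_le_iff]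
    refine ⟨inf_le_left, ?_⟩
    rw [Subgroup.closure_le]
    simp
  · intro x hx
    obtain ⟨i, hi⟩ := hv₀ ⟨Φ ⟨x, hx⟩, ⟨x, hx⟩, rfl⟩
    have hi' : Φ (v₀ ^ i) = Φ ⟨x, hx⟩ := by
      have := congrArg Subtype.val hi
      simpa using this
    set y : ↥V := v₀ ^ i with hy
    have hyx : ∀ c ∈ C, (y : G) * c * (y : G)⁻¹ = x * c * x⁻¹ := by
      intro c hc
      have := congrArg (fun τ : MulAut ↥C => ((τ ⟨c, hc⟩ : ↥C) : G)) hi'
      simpa [hΦ] using this
    have hw : x * (y : G)⁻¹ ∈ V ⊓ Subgroup.centralizer (Cfsg.invertedBy (DD G a t) t) := by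
      refine Subgroup.mem_inf.mpr ⟨V.mul_mem hx (V.inv_mem y.2), ?_⟩
      rw [Subgroup.mem_centralizer_iff]
      intro c hc
      have hcC : c ∈ C := by
        have : c ∈ (C : Set G) := by rw [hC]; exact hc
        exact this
      have hcC' : (y : G)⁻¹ * c * y ∈ C := by
        have := hnorm (y : G)⁻¹ ((DD G a t).inv_mem y.2.1) c hcC
        rwa [inv_inv] at this
      have h3 := hyx _ hcC'
      have h4 : (y : G) * ((y : G)⁻¹ * c * y) * (y : G)⁻¹ = c := by group
      rw [h4] at h3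
      calc c * (x * (y : G)⁻¹) = (x * ((y : G)⁻¹ * c * y) * x⁻¹) * (x * (y : G)⁻¹) := by
            rw [← h3]
        _ = x * (y : G)⁻¹ * c := by group
    have hyc : (y : G) ∈ Subgroup.closure {(v₀ : G)} := by
      rw [hy]
      have : ((v₀ ^ i : ↥V) : G) = (v₀ : G) ^ i := by simp
      rw [this]
      exact Subgroup.zpow_mem _ (Subgroup.subset_closure (Set.mem_singleton _)) i
    have h5 : x * (y : G)⁻¹ ∈ (V ⊓ Subgroup.centralizer (Cfsg.invertedBy (DD G a t) t)) ⊔
        Subgroup.closure {(v₀ : G)} := Subgroup.mem_sup_left hw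
    have h6 : (y : G) ∈ (V ⊓ Subgroup.centralizer (Cfsg.invertedBy (DD G a t) t)) ⊔
        Subgroup.closure {(v₀ : G)} := Subgroup.mem_sup_right hyc
    have h7 := Subgroup.mul_mem _ h5 h6
    rwa [inv_mul_cancel_right] at h7

end Cfsg.Agent.Lib.Perm.RankOneZ
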